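import Cfsg.Agent.Lib.JSub.Sn

/-!
# Offenders normalize the four-groups of subnormal components
-/

set_option autoImplicit false
set_option linter.unusedSectionVars false
set_option linter.unusedSimpArgs false
set_option linter.style.haveILetI false

open scoped commutatorElement

namespace Cfsg.Agent.Lib.JSub.Best

open Cfsg Subgroup
open Cfsg.Agent.Lib.JSub.Main
open Cfsg.Agent.Lib.JSub.Core (LE2 hbest_of)
open Cfsg.Agent.Lib.JSub.NormW (rel_of_setup)
open Cfsg.Agent.Lib.JSub.Zero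
open Cfsg.Agent.Lib.JSub.Sn
open Cfsg.Agent.Lib.Subnormal.Basic
open Cfsg.Agent.Lib.PointStab.Step (nrm_of_conj conj_mem conj_inv_mem mem_Z₁ Z₁)
open Cfsg.Agent.Lib.PLocal.Thompson (IsMaxIn jOf thompsonSubgroupOf_eq IsAbExp)
open Cfsg.Agent.Lib.LocalStruct.PCoreOf
open Cfsg.Agent.Lib.LocalEven.JComp (Setup IsFour exists_setup normalizer_le_omegaCenterOf)
open Cfsg.Agent.Lib.QuadAct.FFQuot (piV piV_surj piV_ker)

variable {G : Type*} [Group G] [Finite G]

/-- Maximal elementary abelian subgroups of a `2`-group containing all conjugates of `W_K` normalize `W_K`. -/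
theorem le_normalizer_wOf {B P A T₁ K : Subgroup G} (hsB : Group.IsSolvable B)
    (hT₁ : IsPGroup 2 T₁) (hK₁ : IsJComponent T₁ K) (hKB : K ≤ B) (hSN : SN K B)
    (hP : IsPGroup 2 P) (hPB : P ≤ B) (hconj : ∀ b ∈ B, ∀ w ∈ wOf K, b * w * b⁻¹ ∈ P)
    (hA : IsMaxIn 2 P A) : A ≤ normalizer (wOf K : Set G) := by
  classical
  haveI : Fact (Nat.Prime 3) := ⟨Nat.prime_three⟩
  haveI : Fact (Nat.Prime 2) := ⟨Nat.prime_two⟩
  obtain ⟨S, d, -, -, -, hS⟩ := exists_setup hT₁ hK₁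
  set D := pCoreOf 2 B with hD
  set Q := pCoreOf 2 K with hQd
  set W := wOf K with hWd
  have hdK : d ∈ K := hS.hgK
  have hcube : ∀ k ∈ K, k ^ 3 ∈ Q := by
    intro k hk
    haveI hN : (Q.subgroupOf K).Normal := Subgroup.normal_subgroupOf_of_le_normalizer hS.hKQ
    have h1 := Subgroup.pow_index_mem (Q.subgroupOf K) (⟨k, hk⟩ : K)
    have h2 : (Q.subgroupOf K).index = 3 := hS.hK3
    rw [h2, Subgroup.mem_subgroupOf] at h1
    simpa using h1
  have hBD : B ≤ normalizer (D : Set G) := le_normalizer_pCoreOf B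
  have hDp : IsPGroup 2 D := isPGroup_pCoreOf B
  have hDB : D ≤ B := pCoreOf_le B
  have hQD : Q ≤ D :=
    le_pCoreOf_of_SN ((SN.of_le_normalizer hS.hQK hS.hKQ).trans hSN) (isPGroup_pCoreOf K)
  have hDK : D ≤ normalizer (K : Set G) :=
    le_normalizer_of_SN hK₁.1 hDp (hKB.trans hBD) (hSN.restrict le_sup_left (sup_le hKB hDB))
  have hDKQ : D ⊓ K ≤ Q := by
    refine le_pCoreOf inf_le_right ?_ (hDp.to_le inf_le_left)
    refine le_trans ?_ Subgroup.inf_normalizer_le_normalizer_inf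
    exact le_inf (hKB.trans hBD) Subgroup.le_normalizer
  have hcov := cover_of_setup hS (hcube d hdK)
  have hd3W : ∀ w ∈ W, (d * d * d) * w * (d * d * d)⁻¹ = w := by
    intro w hw
    have h5 := mem_centralizer_iff.mp (hS.hQW (hcube d hdK)) w hw
    have e : d ^ 3 = d * d * d := by rw [pow_succ, pow_two]
    rw [e] at h5
    rw [← h5]
    group
  -- `D` centralizes `W`
  have hDW : ∀ x ∈ D, ∀ w ∈ W, x * w = w * x := by
    intro x hx w hw
    have h1 : x ∈ normalizer (W : Set G) :=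
      Cfsg.Agent.Lib.LocalEven.JComp.normalizer_le_wOf (hDK hx)
    have h2 : x * d * x⁻¹ * d⁻¹ ∈ Q := by
      refine hDKQ ⟨?_, ?_⟩
      · have e : x * d * x⁻¹ * d⁻¹ = x * (d * x⁻¹ * d⁻¹) := by group
        rw [e]
        exact D.mul_mem hx (conj_mem (hBD (hKB hdK)) (D.inv_mem hx))
      · exact K.mul_mem (conj_mem (hDK hx) hdK) (K.inv_mem hdK)
    obtain ⟨m, hm⟩ := (IsPGroup.iff_orderOf.mp hDp) ⟨x, hx⟩
    have hm' : orderOf x = 2 ^ m := by rwa [Subgroup.orderOf_mk] at hm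
    have h3 := fix_of_comm (fun v hv => conj_mem (hS.hKW hdK) hv) hd3W hcov
      (fun v hv => conj_mem h1 hv) (hS.hQW h2) ⟨m, by rw [← hm', pow_orderOf_eq_one]⟩
    exact (mem_centralizer_iff.mp h3 w hw).symm
  -- the module
  set Vt := omegaCenterOf D with hVt
  have hVt1 : ∀ {u : G}, u ∈ Vt → u ∈ D ∧ (∀ r ∈ D, r * u = u * r) ∧ u ^ 2 = 1 := fun hu =>
    mem_Z₁.mp hu
  have hVtc : ∀ {u v : G}, u ∈ Vt → v ∈ Vt → u * v = v * u := by
    intro u v hu hv
    exact (hVt1 hv).2.1 u (hVt1 hu).1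
  have hVt2 : ∀ {u : G}, u ∈ Vt → u * u = 1 := fun hu => by
    rw [← pow_two]
    exact (hVt1 hu).2.2
  have hVti : ∀ {u : G}, u ∈ Vt → u⁻¹ = u := fun hu => inv_eq_of_mul_eq_one_left (hVt2 hu)
  have hWVt : W ≤ Vt := fun w hw =>
    mem_Z₁.mpr ⟨hQD (hS.hWQ hw), fun r hr => hDW r hr w hw, by
      rw [pow_two]
      exact hS.hW.2 w hw⟩
  have hBVt : B ≤ normalizer (Vt : Set G) := hBD.trans normalizer_le_omegaCenterOf
  have hdVt : ∀ {u : G}, u ∈ Vt → d * u * d⁻¹ ∈ Vt := fun hu => conj_mem (hBVt (hKB hdK)) hu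
  have hd3Vt : ∀ {u : G}, u ∈ Vt → (d * d * d) * u * (d * d * d)⁻¹ = u := by
    intro u hu
    have h1 := (hVt1 hu).2.1 _ (hQD (hcube d hdK))
    have e : d ^ 3 = d * d * d := by rw [pow_succ, pow_two]
    rw [e] at h1
    rw [h1]
    group
  -- `[Vt, d] ≤ W`
  have hVtW : ∀ u ∈ Vt, d * u * d⁻¹ * u⁻¹ ∈ W := by
    intro u hu
    have hq := hdVt hu
    have hr := hdVt hq
    have hu₁Vt : d * u * d⁻¹ * u⁻¹ ∈ Vt := Vt.mul_mem hq (Vt.inv_mem hu)
    have hu₁D : d * u * d⁻¹ * u⁻¹ ∈ D := (hVt1 hu₁Vt).1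
    have hu₁K : d * u * d⁻¹ * u⁻¹ ∈ K := by
      have e : d * u * d⁻¹ * u⁻¹ = d * (u * d⁻¹ * u⁻¹) := by group
      rw [e]
      exact K.mul_mem hdK (conj_mem (hDK (hVt1 hu).1) (K.inv_mem hdK))
    have hu₁Q : d * u * d⁻¹ * u⁻¹ ∈ Q := hDKQ ⟨hu₁D, hu₁K⟩
    -- `ω`
    have hωVt : d * (d * u * d⁻¹ * u⁻¹) * d⁻¹ ∈ Vt := hdVt hu₁Vt
    have hωQ : d * (d * u * d⁻¹ * u⁻¹) * d⁻¹ ∈ Q := conj_mem (hS.hKQ hdK) hu₁Q
    have hω : d * (d * u * d⁻¹ * u⁻¹) * d⁻¹ ∈ omegaCenterOf Q := by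
      refine mem_Z₁.mpr ⟨hωQ, fun r hr => (hVt1 hωVt).2.1 r (hQD hr), (hVt1 hωVt).2.2⟩
    have hmem := Subgroup.commutator_mem_commutator hω hdK
    have hmem' : ⁅d * (d * u * d⁻¹ * u⁻¹) * d⁻¹, d⁆ ∈ W := hmem
    have e : ⁅d * (d * u * d⁻¹ * u⁻¹) * d⁻¹, d⁆ = d * u * d⁻¹ * u⁻¹ := by
      rw [commutatorElement_def]
      -- write everything in terms of `p, q, r`
      set q := d * u * d⁻¹ with hqd
      set r := d * q * d⁻¹ with hrd
      have hdr : d * r * d⁻¹ = u := by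
        have := hd3Vt hu
        rw [hrd, hqd]
        calc d * (d * (d * u * d⁻¹) * d⁻¹) * d⁻¹ = (d * d * d) * u * (d * d * d)⁻¹ := by group
          _ = u := this
      have hω' : d * (q * u⁻¹) * d⁻¹ = r * q⁻¹ := by
        rw [hrd, hqd]
        group
      rw [hω']
      have hdω : d * (r * q⁻¹)⁻¹ * d⁻¹ = (d * r * d⁻¹ * (d * q * d⁻¹)⁻¹)⁻¹ := by group
      have e1 : r * q⁻¹ * d * (r * q⁻¹)⁻¹ * d⁻¹ = (r * q⁻¹) * (d * (r * q⁻¹)⁻¹ * d⁻¹) := by group
      rw [e1, hdω, hdr, ← hrd, hVti hq, hVti hr, hVti hu]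
      have hr' : r ∈ Vt := hr
      have hq' : q ∈ Vt := hq
      rw [mul_inv_rev, hVti hr', hVti hu]
      calc r * q * (r * u) = (r * r) * (q * u) := by
            rw [mul_assoc r q, ← mul_assoc q r, hVtc hq' hr', mul_assoc r q, mul_assoc r r]
        _ = q * u := by rw [hVt2 hr', one_mul]
    rwa [e] at hmem'
  -- the level of `B`
  set WX : Subgroup B := W.subgroupOf B with hWX
  set V : Subgroup B := normalClosure (WX : Set B) with hVd
  haveI hVn : V.Normal := normalClosure_normal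
  haveI hVtn : (Vt.subgroupOf B).Normal := Subgroup.normal_subgroupOf_of_le_normalizer hBVt
  have hVle : V ≤ Vt.subgroupOf B := by
    refine normalClosure_le_normal ?_
    intro w hw
    have h1 : (w : G) ∈ W := by
      have : w ∈ W.subgroupOf B := hw
      rwa [Subgroup.mem_subgroupOf] at this
    show w ∈ Vt.subgroupOf B
    rw [Subgroup.mem_subgroupOf]
    exact hWVt h1
  have hVG : ∀ {v : B}, v ∈ V → (v : G) ∈ Vt := fun hv => by
    have := hVle hv
    rwa [Subgroup.mem_subgroupOf] at this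
  have hVe : IsElementaryAbelian 2 V := by
    refine ⟨⟨⟨fun a b => Subtype.ext (Subtype.ext ?_)⟩⟩, fun a ha => Subtype.ext ?_⟩
    · exact hVtc (hVG a.2) (hVG b.2)
    · have := (hVt1 (hVG ha)).2.2
      simpa using this
  have hsep : Cfsg.IsPSolvable 2 B := Cfsg.Agent.Lib.Core.PSolvable2.isPSolvable_of_isSolvable
  set d₀ : B := ⟨d, hKB hdK⟩ with hd₀
  have hcenD : ∀ {x : B}, (x : G) ∈ D → x ∈ centralizer (V : Set B) := by
    intro x hx
    rw [mem_centralizer_iff]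
    intro v hv
    exact Subtype.ext ((hVt1 (hVG hv)).2.1 _ hx).symm
  have hP3 : piV V d₀ ∈ Cfsg.pCore 3 (B ⧸ centralizer (V : Set B)) := by
    set E₃ := (K.subgroupOf B).map (piV V) with hE₃
    have h1 : IsPGroup 3 E₃ := by
      rintro ⟨_, k, hk, rfl⟩
      refine ⟨1, Subtype.ext ?_⟩
      have hk' : (k : G) ∈ K := Subgroup.mem_subgroupOf.mp hk
      have h2 : k ^ 3 ∈ centralizer (V : Set B) := hcenD (by
        have := hQD (hcube _ hk')
        simpa using this)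
      have h3 : piV V (k ^ 3) = 1 := by
        rw [← MonoidHom.mem_ker, piV_ker]
        exact h2
      simpa [pow_one, map_pow] using h3
    have h2 : SN E₃ ⊤ := by
      have hsn : (K.subgroupOf B).IsSubnormal := isSubnormal_subgroupOf_of_SN hSN
      have h3 := SN_map (piV V) (isSubnormal_iff_SN_top.mp hsn)
      rwa [Subgroup.map_top_of_surjective _ piV_surj] at h3
    have h3 := le_pCoreOf_of_SN h2 h1
    have hn : (pCoreOf 3 (⊤ : Subgroup (B ⧸ centralizer (V : Set B)))).Normal :=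
      Subgroup.normalizer_eq_top_iff.mp (top_le_iff.mp (le_normalizer_pCoreOf ⊤))
    have h4 := Cfsg.Agent.Lib.Core.Basic.le_pCore hn (isPGroup_pCoreOf (p := 3) ⊤)
    apply h4
    apply h3
    exact ⟨d₀, Subgroup.mem_subgroupOf.mpr hdK, rfl⟩
  have hrelW := fun w (hw : w ∈ W) => rel_of_setup hS (hcube d hdK) hw
  obtain ⟨hO, hnorm⟩ := Cfsg.Agent.Lib.JSub.SnTV.X_main (V := V) (W := WX) (d := d₀) hsep hVe rfl
    (hcenD (by
      have := hQD (hcube d hdK)
      simpa using this))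
    (fun v hv => by
      rw [hWX, Subgroup.mem_subgroupOf]
      exact hVtW _ (hVG hv))
    (fun w hw => Subtype.ext (by
      have hw' : (w : G) ∈ W := by rwa [hWX, Subgroup.mem_subgroupOf] at hw
      simpa using hrelW _ hw'))
    (fun w hw h => Subtype.ext (by
      have hw' : (w : G) ∈ W := by rwa [hWX, Subgroup.mem_subgroupOf] at hw
      by_contra hne
      exact hS.not_fix hw' hne (congrArg Subtype.val h)))
    (fun w hw hw1 z hz => by
      have hw' : (w : G) ∈ W := by rwa [hWX, Subgroup.mem_subgroupOf] at hw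
      have hz' : (z : G) ∈ W := by rwa [hWX, Subgroup.mem_subgroupOf] at hz
      have hw1' : (w : G) ≠ 1 := fun h => hw1 (Subtype.ext h)
      rcases hcov _ hw' hw1' _ hz' with h | h | h | h
      · exact Or.inl (Subtype.ext h)
      · exact Or.inr (Or.inl (Subtype.ext h))
      · exact Or.inr (Or.inr (Or.inl (Subtype.ext h)))
      · exact Or.inr (Or.inr (Or.inr (Subtype.ext h))))
    hP3
  have hP2 : IsPGroup 2 (P.subgroupOf B) := hP.comap_subtype
  have hVP : V ≤ P.subgroupOf B := by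
    rw [hVd, Subgroup.normalClosure, Subgroup.closure_le]
    intro x hx
    obtain ⟨w, hw, hc⟩ := Group.mem_conjugatesOfSet_iff.mp hx
    obtain ⟨c, rfl⟩ := isConj_iff.mp hc
    have hw' : (w : G) ∈ W := by
      have : w ∈ W.subgroupOf B := hw
      rwa [Subgroup.mem_subgroupOf] at this
    show _ ∈ P.subgroupOf B
    rw [Subgroup.mem_subgroupOf]
    exact hconj c c.2 w hw'
  intro a ha
  have hAB : A ≤ B := hA.1.trans hPB
  have hLE : LE2 (P.subgroupOf B) (A.subgroupOf B) := by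
    refine ⟨fun x hx => ?_, ?_, fun C hC hCe => ?_⟩
    · rw [Subgroup.mem_subgroupOf] at hx ⊢
      exact hA.1 hx
    · exact IsAbExp.comap_of_injective hA.2.1 B.subtype B.subtype_injective
    · have h1 : C.map B.subtype ≤ P := by
        rintro _ ⟨b, hb, rfl⟩
        have := hC hb
        rwa [Subgroup.mem_subgroupOf] at this
      have h3 := hA.2.2 _ h1 (IsAbExp.map hCe _)
      have h4 : Nat.card (C.map B.subtype) = Nat.card C :=
        (Nat.card_congr (C.equivMapOfInjective _ B.subtype_injective).toEquiv).symm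
      have h5 : Nat.card (A.subgroupOf B) = Nat.card A :=
        Nat.card_congr (Subgroup.subgroupOfEquivOfLe hAB).toEquiv
      rw [h5, ← h4]
      exact h3
  have hbest := hbest_of (T := P.subgroupOf B) hsep hP2 hVe hVP hO hLE
  have haN := hnorm _ hbest (⟨a, hAB ha⟩ : B) (by
    rw [Subgroup.mem_subgroupOf]
    exact ha)
  refine Cfsg.Agent.Lib.LocalEven.Util.mem_normalizer_of_conj_le fun w hw => ?_
  have hwB : w ∈ B := hKB (hS.hQK (hS.hWQ hw))
  have h1 := conj_mem haN (show (⟨w, hwB⟩ : B) ∈ WX by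
    rw [hWX, Subgroup.mem_subgroupOf]
    exact hw)
  rw [hWX, Subgroup.mem_subgroupOf] at h1
  simpa using h1

end Cfsg.Agent.Lib.JSub.Best
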