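import Cfsg.Agent.Lib.JSub.F4

/-!
# Construction of a `J(T)`-component from an element of order three inverted modulo `O₂`
-/

set_option autoImplicit false
set_option linter.unusedSectionVars false
set_option linter.unusedSimpArgs false
set_option linter.style.haveILetI false

open scoped commutatorElement

namespace Cfsg.Agent.Lib.JSub.Build

open Cfsg Subgroup
open Cfsg.Agent.Lib.JSub.Main
open Cfsg.Agent.Lib.JSub.Zero
open Cfsg.Agent.Lib.JSub.Norm (odd_mem)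
open Cfsg.Agent.Lib.PointStab.Step (nrm_of_conj conj_mem conj_inv_mem mem_Z₁ Z₁ conj_mem_closure)
open Cfsg.Agent.Lib.PLocal.Thompson (IsMaxIn jOf thompsonSubgroupOf_eq IsAbExp jOf_eq_of_le jOf_conj)
open Cfsg.Agent.Lib.LocalStruct.PCoreOf
open Cfsg.Agent.Lib.LocalEven.JComp (index3_cases omegaCenterOf_le omegaCenterOf_le_centralizer
  normalizer_le_wOf normalizer_le_pCoreOf K_le_normalizer_wOf wOf_le_omega K_le_normalizer_omega)
open Cfsg.Agent.Lib.LocalEven.Util (mem_normalizer_of_conj_le)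
open Cfsg.Agent.Lib.QuadAct.Basic (card_sup_mul_card_inf_of_le_normalizer)
open Cfsg.Agent.Lib.Coprime.Action (card_eq_card_mul_relIndex)

variable {G : Type*} [Group G] [Finite G]

/-- The input data. -/
structure BD (L T Q V A : Subgroup G) (y a : G) : Prop where
  hT : IsSylowTwoIn T L
  hQT : Q ≤ T
  hLQ : L ≤ normalizer (Q : Set G)
  hyL : y ∈ L
  hy3 : y ^ 3 = 1
  hyQ : y ∉ Q
  hj : ∀ j ∈ thompsonSubgroupOf 2 T, j * y * j⁻¹ * y⁻¹ ∈ Q ∨ j * y * j⁻¹ * y ∈ Q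
  hA : IsMaxIn 2 T A
  haA : a ∈ A
  hay : a * y * a⁻¹ * y ∈ Q
  hVQ : V ≤ Q
  hQV : ∀ q ∈ Q, ∀ v ∈ V, q * v = v * q
  hVe : ∀ v ∈ V, v * v = 1
  hLV : L ≤ normalizer (V : Set G)
  hyV : ∃ v ∈ V, y * v * y⁻¹ ≠ v

/-- `K₀ = Q⟨y⟩`. -/
def K0 (Q : Subgroup G) (y : G) : Subgroup G := Q ⊔ zpowers y

/-- The subgroup generated by the odd elements of `K₀`. -/
def K1 (Q : Subgroup G) (y : G) : Subgroup G := closure {g | g ∈ K0 Q y ∧ Odd (orderOf g)}

namespace BD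

variable {L T Q V A : Subgroup G} {y a : G} (h : BD L T Q V A y a)

include h

theorem hTL : T ≤ L := h.hT.1

theorem hTp : IsPGroup 2 T := h.hT.2.1

theorem hQp : IsPGroup 2 Q := h.hTp.to_le h.hQT

theorem hJT : thompsonSubgroupOf 2 T ≤ T := by
  rw [thompsonSubgroupOf_eq]
  exact Cfsg.Agent.Lib.PLocal.Thompson.jOf_le 2 T

theorem hJL : thompsonSubgroupOf 2 T ≤ L := h.hJT.trans h.hTL

theorem K0_le : K0 Q y ≤ L := sup_le (h.hQT.trans h.hTL) (zpowers_le.mpr h.hyL)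

theorem K0_norm : K0 Q y ≤ normalizer (Q : Set G) := h.K0_le.trans h.hLQ

theorem Q_le : Q ≤ K0 Q y := le_sup_left

theorem y_mem : y ∈ K0 Q y := mem_sup_right (mem_zpowers y)

theorem order_y : orderOf y = 3 := by
  haveI : Fact (Nat.Prime 3) := ⟨by norm_num⟩
  refine orderOf_eq_prime h.hy3 ?_
  intro h1
  exact h.hyQ (by rw [h1]; exact one_mem _)

theorem relIndex_K0 : Q.relIndex (K0 Q y) = 3 := by
  have hn : zpowers y ≤ normalizer (Q : Set G) := zpowers_le.mpr (h.hLQ h.hyL)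
  have h1 := card_sup_mul_card_inf_of_le_normalizer (zpowers y) Q hn
  have hbot : zpowers y ⊓ Q = ⊥ := by
    rw [eq_bot_iff]
    rintro x ⟨hx1, hx2⟩
    obtain ⟨k, hk⟩ := IsPGroup.iff_orderOf.mp h.hQp ⟨x, hx2⟩
    have hk' : orderOf x = 2 ^ k := by rwa [Subgroup.orderOf_mk] at hk
    have h2 : orderOf x ∣ 3 := by
      have := Subgroup.orderOf_dvd_natCard (zpowers y) hx1
      rwa [Nat.card_zpowers, h.order_y] at this
    rw [hk'] at h2
    have h3 : k = 0 := by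
      by_contra hne
      have h4 : 2 ∣ 2 ^ k := dvd_pow_self 2 hne
      have h5 := h4.trans h2
      omega
    rw [h3, pow_zero] at hk'
    rw [mem_bot]
    exact orderOf_eq_one_iff.mp hk'
  rw [hbot, Subgroup.card_bot, mul_one, Nat.card_zpowers, h.order_y, sup_comm] at h1
  have h2 := card_eq_card_mul_relIndex (h.Q_le)
  have h3 : 0 < Nat.card Q := Nat.card_pos
  have h4 : Nat.card Q * Q.relIndex (K0 Q y) = Nat.card Q * 3 := by
    rw [← h2, K0, h1, mul_comm]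
  exact Nat.eq_of_mul_eq_mul_left h3 h4

theorem cube_mem {g : G} (hg : g ∈ K0 Q y) : g ^ 3 ∈ Q := by
  haveI : (Q.subgroupOf (K0 Q y)).Normal := Subgroup.normal_subgroupOf_of_le_normalizer h.K0_norm
  have h1 := Subgroup.pow_index_mem (Q.subgroupOf (K0 Q y)) (⟨g, hg⟩ : K0 Q y)
  have h2 : (Q.subgroupOf (K0 Q y)).index = 3 := h.relIndex_K0
  rw [h2, Subgroup.mem_subgroupOf] at h1
  simpa using h1

/-- Representatives of `K₀ / Q`. -/
theorem cases_K0 {g : G} (hg : g ∈ K0 Q y) : g ∈ Q ∨ y⁻¹ * g ∈ Q ∨ y * g ∈ Q := by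
  by_cases hgQ : g ∈ Q
  · left
    exact hgQ
  · right
    exact index3_cases h.Q_le h.K0_norm h.relIndex_K0 h.y_mem hg h.hyQ hgQ

theorem K1_le : K1 Q y ≤ K0 Q y := by
  rw [K1, closure_le]
  exact fun g hg => hg.1

theorem y_mem_K1 : y ∈ K1 Q y := by
  refine subset_closure ⟨h.y_mem, ?_⟩
  rw [h.order_y]
  decide

theorem K1_leL : K1 Q y ≤ L := h.K1_le.trans h.K0_le

/-- Whatever normalizes `K₀` normalizes `K`. -/
theorem norm_K1 {g : G} (hg : g ∈ normalizer ((K0 Q y : Subgroup G) : Set G)) :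
    g ∈ normalizer ((K1 Q y : Subgroup G) : Set G) := by
  refine nrm_of_conj ?_ ?_
  · refine conj_mem_closure ?_
    rintro x ⟨hx1, hx2⟩
    refine ⟨conj_mem hg hx1, ?_⟩
    have := MulEquiv.orderOf_eq (MulAut.conj g) x
    rw [MulAut.conj_apply] at this
    rwa [this]
  · intro z hz
    have := conj_mem_closure (X := {g | g ∈ K0 Q y ∧ Odd (orderOf g)}) (g := g⁻¹) (by
      rintro x ⟨hx1, hx2⟩
      refine ⟨conj_mem (inv_mem hg) hx1, ?_⟩
      have := MulEquiv.orderOf_eq (MulAut.conj g⁻¹) x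
      rw [MulAut.conj_apply] at this
      rwa [this]) z hz
    have h2 : g⁻¹ * z * g ∈ closure {g | g ∈ K0 Q y ∧ Odd (orderOf g)} := by simpa using this
    exact h2

theorem K0_norm_K1 : K0 Q y ≤ normalizer ((K1 Q y : Subgroup G) : Set G) := fun _ hg =>
  h.norm_K1 (le_normalizer hg)

/-- `T`-elements acting by `±1` normalize `K₀`. -/
theorem norm_K0_of {j : G} (hjL : j ∈ L) (hj : j * y * j⁻¹ * y⁻¹ ∈ Q ∨ j * y * j⁻¹ * y ∈ Q) :
    j ∈ normalizer ((K0 Q y : Subgroup G) : Set G) := by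
  have hmem : ∀ {j : G}, j ∈ L → (j * y * j⁻¹ * y⁻¹ ∈ Q ∨ j * y * j⁻¹ * y ∈ Q) →
      j * y * j⁻¹ ∈ K0 Q y := by
    intro j _ hj
    rcases hj with h1 | h1
    · have e : j * y * j⁻¹ = (j * y * j⁻¹ * y⁻¹) * y := by group
      rw [e]
      exact mul_mem (h.Q_le h1) h.y_mem
    · have e : j * y * j⁻¹ = (j * y * j⁻¹ * y) * y⁻¹ := by group
      rw [e]
      exact mul_mem (h.Q_le h1) (inv_mem h.y_mem)
  apply mem_normalizer_of_conj_le
  have hle : (K0 Q y).map (MulAut.conj j).toMonoidHom ≤ K0 Q y := by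
    rw [K0, Subgroup.map_sup]
    refine sup_le ?_ ?_
    · rintro _ ⟨q, hq, rfl⟩
      exact mem_sup_left (conj_mem (h.hLQ hjL) hq)
    · rw [MonoidHom.map_zpowers, zpowers_le]
      exact hmem hjL hj
  intro x hx
  exact hle ⟨x, hx, rfl⟩

theorem J_norm_K0 : thompsonSubgroupOf 2 T ≤ normalizer ((K0 Q y : Subgroup G) : Set G) :=
  fun j hj => h.norm_K0_of (h.hJL hj) (h.hj j hj)

theorem J_norm_K1 : thompsonSubgroupOf 2 T ≤ normalizer ((K1 Q y : Subgroup G) : Set G) :=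
  fun _ hj => h.norm_K1 (h.J_norm_K0 hj)

theorem a_J : a ∈ thompsonSubgroupOf 2 T := by
  rw [thompsonSubgroupOf_eq]
  exact h.hA.le_jOf h.haA

/-- `a` inverts `K₀/Q`. -/
theorem a_inv {g : G} (hg : g ∈ K0 Q y) : a * g * a⁻¹ * g ∈ Q := by
  have haL : a ∈ L := h.hJL h.a_J
  have haQ := h.hLQ haL
  have hyQ' := h.hLQ h.hyL
  rcases h.cases_K0 hg with h1 | h1 | h1
  · exact mul_mem (conj_mem haQ h1) h1
  · set q := y⁻¹ * g with hq
    have hgq : g = y * q := by rw [hq]; group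
    have hay := h.hay
    set r := a * y * a⁻¹ * y with hr
    have e : a * g * a⁻¹ * g = r * (y⁻¹ * (a * q * a⁻¹) * y) * q := by
      rw [hgq, hr]
      group
    rw [e]
    exact mul_mem (mul_mem hay (conj_inv_mem hyQ' (conj_mem haQ h1))) h1
  · set q := y * g with hq
    have hgq : g = y⁻¹ * q := by rw [hq]; group
    have hay := h.hay
    set r := a * y * a⁻¹ * y with hr
    have e : a * g * a⁻¹ * g = y * r⁻¹ * (a * q * a⁻¹) * y⁻¹ * q := by
      rw [hgq, hr]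
      group
    rw [e]
    have h2 : y * r⁻¹ * (a * q * a⁻¹) * y⁻¹ = y * (r⁻¹ * (a * q * a⁻¹)) * y⁻¹ := by group
    rw [h2]
    exact mul_mem (conj_mem hyQ' (mul_mem (inv_mem hay) (conj_mem haQ h1))) h1

/-- `R = K ∩ Q`. -/
theorem R_le_core : K1 Q y ⊓ Q ≤ pCoreOf 2 (K1 Q y) := by
  haveI : Fact (Nat.Prime 2) := ⟨Nat.prime_two⟩
  refine le_pCoreOf inf_le_left ?_ (h.hQp.to_le inf_le_right)
  intro k hk
  apply mem_normalizer_of_conj_le
  rintro x ⟨hx1, hx2⟩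
  exact ⟨(K1 Q y).mul_mem ((K1 Q y).mul_mem hk hx1) ((K1 Q y).inv_mem hk), conj_mem (h.K0_norm (h.K1_le hk)) hx2⟩

theorem core_le_Q : pCoreOf 2 (K1 Q y) ≤ Q := by
  haveI : Fact (Nat.Prime 2) := ⟨Nat.prime_two⟩
  intro q hq
  obtain ⟨a, ha⟩ := (IsPGroup.iff_orderOf.mp (isPGroup_pCoreOf (p := 2) (K1 Q y))) ⟨q, hq⟩
  have ha' : orderOf q = 2 ^ a := by rwa [Subgroup.orderOf_mk] at ha
  have hco : Nat.Coprime 3 (orderOf q) := by
    rw [ha']
    exact Nat.Coprime.pow_right _ (by norm_num)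
  obtain ⟨m, hm⟩ := exists_pow_eq_self_of_coprime hco
  rw [← hm]
  exact Q.pow_mem (h.cube_mem (h.K1_le (pCoreOf_le _ hq))) m

theorem core_eq : pCoreOf 2 (K1 Q y) = K1 Q y ⊓ Q :=
  le_antisymm (le_inf (pCoreOf_le _) h.core_le_Q) h.R_le_core

theorem relIndex_core : (pCoreOf 2 (K1 Q y)).relIndex (K1 Q y) = 3 := by
  rw [h.core_eq, Subgroup.inf_relIndex_left]
  apply le_antisymm
  · have := Subgroup.relIndex_le_of_le_right (H := Q) h.K1_le (by rw [h.relIndex_K0]; norm_num)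
    rwa [h.relIndex_K0] at this
  · -- `R⟨y⟩` has order `3 |R|`
    set R := K1 Q y ⊓ Q with hR
    have hn : zpowers y ≤ normalizer (R : Set G) := by
      rw [zpowers_le]
      apply mem_normalizer_of_conj_le
      rintro x ⟨hx1, hx2⟩
      exact ⟨(K1 Q y).mul_mem ((K1 Q y).mul_mem h.y_mem_K1 hx1) ((K1 Q y).inv_mem h.y_mem_K1), conj_mem (h.hLQ h.hyL) hx2⟩
    have h1 := card_sup_mul_card_inf_of_le_normalizer (zpowers y) R hn
    have hbot : zpowers y ⊓ R = ⊥ := by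
      rw [eq_bot_iff]
      rintro x ⟨hx1, hx2⟩
      obtain ⟨k, hk⟩ := IsPGroup.iff_orderOf.mp h.hQp ⟨x, hx2.2⟩
      have hk' : orderOf x = 2 ^ k := by rwa [Subgroup.orderOf_mk] at hk
      have h2 : orderOf x ∣ 3 := by
        have := Subgroup.orderOf_dvd_natCard (zpowers y) hx1
        rwa [Nat.card_zpowers, h.order_y] at this
      rw [hk'] at h2
      have h3 : k = 0 := by
        by_contra hne
        have h4 : 2 ∣ 2 ^ k := dvd_pow_self 2 hne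
        have h5 := h4.trans h2
        omega
      rw [h3, pow_zero] at hk'
      rw [mem_bot]
      exact orderOf_eq_one_iff.mp hk'
    rw [hbot, Subgroup.card_bot, mul_one, Nat.card_zpowers, h.order_y] at h1
    have hle : zpowers y ⊔ R ≤ K1 Q y := sup_le (zpowers_le.mpr h.y_mem_K1) inf_le_left
    have h2 : Nat.card ↥(zpowers y ⊔ R) ≤ Nat.card (K1 Q y) :=
      Nat.card_le_card_of_injective _ (Subgroup.inclusion_injective hle)
    have h3 := card_eq_card_mul_relIndex (inf_le_left : R ≤ K1 Q y)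
    have h4 : R.relIndex (K1 Q y) = Q.relIndex (K1 Q y) := Subgroup.inf_relIndex_left _ _
    rw [h3, h4, h1] at h2
    have h5 : 0 < Nat.card R := Nat.card_pos
    rw [mul_comm] at h2
    exact Nat.le_of_mul_le_mul_left h2 h5

theorem closure_odd : closure {g : G | g ∈ K1 Q y ∧ Odd (orderOf g)} = K1 Q y := by
  apply le_antisymm
  · rw [closure_le]
    exact fun g hg => hg.1
  · conv_lhs => rw [K1]
    refine closure_mono ?_
    rintro g ⟨h1, h2⟩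
    exact ⟨subset_closure ⟨h1, h2⟩, h2⟩

theorem comm_eq : ⁅K1 Q y, thompsonSubgroupOf 2 T⁆ = K1 Q y := by
  haveI : Fact (Nat.Prime 2) := ⟨Nat.prime_two⟩
  set K := K1 Q y with hK
  set J := thompsonSubgroupOf 2 T with hJ
  have hle : ⁅K, J⁆ ≤ K := by
    rw [commutator_le]
    intro k hk j hj
    rw [commutatorElement_def]
    have e : k * j * k⁻¹ * j⁻¹ = k * (j * k⁻¹ * j⁻¹) := by group
    rw [e]
    exact K.mul_mem hk (conj_mem (h.J_norm_K1 hj) (K.inv_mem hk))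
  have hnorm : K ≤ normalizer ((⁅K, J⁆ : Subgroup G) : Set G) := by
    intro x hx
    apply mem_normalizer_of_conj_le
    have hmap : (⁅K, J⁆ : Subgroup G).map (MulAut.conj x).toMonoidHom ≤ ⁅K, J⁆ := by
      rw [Subgroup.map_le_iff_le_comap, commutator_le]
      intro k hk j hj
      rw [Subgroup.mem_comap]
      show x * ⁅k, j⁆ * x⁻¹ ∈ _
      have e : x * ⁅k, j⁆ * x⁻¹ = ⁅x * k, j⁆ * ⁅x, j⁆⁻¹ := by
        simp only [commutatorElement_def]
        group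
      rw [e]
      exact mul_mem (commutator_mem_commutator (K.mul_mem hx hk) hj)
        (inv_mem (commutator_mem_commutator hx hj))
    intro z hz
    exact hmap ⟨z, hz, rfl⟩
  refine le_antisymm hle ?_
  conv_lhs => rw [hK, K1]
  rw [closure_le]
  rintro g ⟨hg, hodd⟩
  have hgK : g ∈ K := subset_closure ⟨hg, hodd⟩
  have hgN : g ∈ K1 Q y := hgK
  have ht : ⁅g, a⁆ ∈ ⁅K, J⁆ := commutator_mem_commutator hgK h.a_J
  have hu := h.a_inv hg
  set u := a * g * a⁻¹ * g with hudef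
  have e1 : g * ⁅g, a⁆ = g ^ 3 * u⁻¹ := by
    rw [commutatorElement_def, hudef]
    simp only [pow_succ, pow_zero, one_mul]
    group
  have hrQ : g * ⁅g, a⁆ ∈ Q := by
    rw [e1]
    exact mul_mem (h.cube_mem hg) (inv_mem hu)
  have hrK : g * ⁅g, a⁆ ∈ K := K.mul_mem hgK (hle ht)
  set R := K ⊓ Q with hR
  have hRp : IsPGroup 2 R := h.hQp.to_le inf_le_right
  have hRn : R ≤ normalizer ((⁅K, J⁆ : Subgroup G) : Set G) := inf_le_left.trans hnorm
  have hm : g ∈ ⁅K, J⁆ ⊔ R := by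
    have e2 : g = (g * ⁅g, a⁆) * ⁅g, a⁆⁻¹ := by group
    rw [e2]
    exact mul_mem (mem_sup_right ⟨hrK, hrQ⟩) (mem_sup_left (inv_mem ht))
  exact odd_mem hRp hRn hm hodd

end BD

/-- The Thompson subgroup of a `2`-subgroup containing `J(T)`. -/
theorem thompson_of_le {L T S : Subgroup G} (hT : IsSylowTwoIn T L) (hS : IsPGroup 2 S) (hSL : S ≤ L)
    (hJS : thompsonSubgroupOf 2 T ≤ S) : thompsonSubgroupOf 2 S = thompsonSubgroupOf 2 T := by
  obtain ⟨S₁, hSS₁, hS₁⟩ := exists_sylow_in hS hSL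
  obtain ⟨x, hx, rfl⟩ := exists_conj_sylow hT hS₁
  set T' := T.map (MulAut.conj x).toMonoidHom with hT'
  have hcard : Nat.card (thompsonSubgroupOf 2 T') = Nat.card (thompsonSubgroupOf 2 T) := by
    rw [hT', thompson_map, card_map_conj]
  have hle : thompsonSubgroupOf 2 T ≤ thompsonSubgroupOf 2 T' := by
    rw [thompsonSubgroupOf_eq, thompsonSubgroupOf_eq]
    refine sSup_le fun A hA => ?_
    have hAJ : A ≤ thompsonSubgroupOf 2 T := by
      rw [thompsonSubgroupOf_eq]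
      exact hA.le_jOf
    refine IsMaxIn.le_jOf (P := T') ⟨hAJ.trans (hJS.trans hSS₁), hA.2.1, fun B hB hBe => ?_⟩
    have h1 : B.map (MulAut.conj x⁻¹).toMonoidHom ≤ T := by
      rintro _ ⟨b, hb, rfl⟩
      obtain ⟨t, ht, rfl⟩ := hB hb
      show x⁻¹ * (x * t * x⁻¹) * x⁻¹⁻¹ ∈ T
      have e : x⁻¹ * (x * t * x⁻¹) * x⁻¹⁻¹ = t := by group
      rw [e]
      exact ht
    have h2 := hA.2.2 _ h1 (hBe.map _)
    rwa [card_map_conj] at h2
  have heq : thompsonSubgroupOf 2 T = thompsonSubgroupOf 2 T' :=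
    Subgroup.eq_of_le_of_card_ge hle hcard.le
  have h3 : jOf 2 S = jOf 2 T' := by
    refine jOf_eq_of_le hSS₁ ?_
    rw [← thompsonSubgroupOf_eq, ← heq]
    exact hJS
  rw [thompsonSubgroupOf_eq 2 S, h3, ← thompsonSubgroupOf_eq, ← heq]

theorem omega_isAbExp (X : Subgroup G) : IsAbExp 2 (omegaCenterOf X) := by
  rw [Cfsg.Agent.Lib.PLocal.Thompson.isAbExp_iff]
  refine ⟨fun a ha b hb => ?_, fun a ha => (mem_Z₁.mp ha).2.2⟩
  exact (mem_Z₁.mp hb).2.1 a (mem_Z₁.mp ha).1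

namespace BD

variable {L T Q V A : Subgroup G} {y a : G} (h : BD L T Q V A y a)

include h

theorem psi3 (x : G) : y * (y * (y * x * y⁻¹) * y⁻¹) * y⁻¹ = x := by
  have h1 : y * y * y = 1 := by
    have := h.hy3
    simpa only [pow_succ, pow_zero, one_mul] using this
  have h2 : y⁻¹ * y⁻¹ * y⁻¹ = 1 := by
    have e : y⁻¹ * y⁻¹ * y⁻¹ = (y * y * y)⁻¹ := by group
    rw [e, h1, inv_one]
  calc y * (y * (y * x * y⁻¹) * y⁻¹) * y⁻¹ = (y * y * y) * x * (y⁻¹ * y⁻¹ * y⁻¹) := by group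
    _ = x := by rw [h1, h2]; group

theorem yinv_eq (x : G) : y⁻¹ * x * y = y * (y * x * y⁻¹) * y⁻¹ := by
  have h1 : y⁻¹ = y * y := Cfsg.Agent.Lib.JSub.TV.inv_eq_of_cube h.hy3
  have e : y * (y * x * y⁻¹) * y⁻¹ = (y * y) * x * (y⁻¹ * y⁻¹) := by group
  rw [e, ← h1]
  have e2 : y⁻¹ * y⁻¹ = y := by
    rw [h1]
    have h3 := h.hy3
    have : y * y * (y * y) = y ^ 3 * y := by
      simp only [pow_succ, pow_zero, one_mul, mul_assoc]
    rw [this, h3, one_mul]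
  rw [e2]

theorem core_le_T : pCoreOf 2 (K1 Q y) ≤ T := h.core_le_Q.trans h.hQT

theorem mem_R {x : G} (h1 : x ∈ K1 Q y) (h2 : x ∈ Q) : x ∈ pCoreOf 2 (K1 Q y) := by
  rw [h.core_eq]
  exact ⟨h1, h2⟩

theorem U_le : omegaCenterOf (pCoreOf 2 (K1 Q y)) ≤ pCoreOf 2 (K1 Q y) := omegaCenterOf_le

theorem R_comm_U {r u : G} (hr : r ∈ pCoreOf 2 (K1 Q y))
    (hu : u ∈ omegaCenterOf (pCoreOf 2 (K1 Q y))) : r * u = u * r :=
  (mem_Z₁.mp hu).2.1 r hr

/-- The action on `U` of a product with an element of `R`. -/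
theorem act {g' g w : G} (hg : g ∈ K1 Q y) (hr : g' * g⁻¹ ∈ pCoreOf 2 (K1 Q y))
    (hw : w ∈ omegaCenterOf (pCoreOf 2 (K1 Q y))) : g' * w * g'⁻¹ = g * w * g⁻¹ := by
  have h1 : g * w * g⁻¹ ∈ omegaCenterOf (pCoreOf 2 (K1 Q y)) :=
    conj_mem (K_le_normalizer_omega (K1 Q y) hg) hw
  have e : g' * w * g'⁻¹ = (g' * g⁻¹) * (g * w * g⁻¹) * (g' * g⁻¹)⁻¹ := by group
  rw [e, h.R_comm_U hr h1, mul_inv_cancel_right]

theorem W_AbExp : IsAbExp 2 (wOf (K1 Q y)) :=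
  (omega_isAbExp _).mono (wOf_le_omega _)

theorem hN_gen {u : G} (hu : u ∈ omegaCenterOf (pCoreOf 2 (K1 Q y))) {k : G} (hk : k ∈ K1 Q y) :
    ⁅u, k⁆ * (y * ⁅u, k⁆ * y⁻¹) * (y * (y * ⁅u, k⁆ * y⁻¹) * y⁻¹) = 1 := by
  set U := omegaCenterOf (pCoreOf 2 (K1 Q y)) with hU
  have hUe : IsAbExp 2 U := omega_isAbExp _
  have hsq : ∀ {x : G}, x ∈ U → x * x = 1 := by
    intro x hx
    have := hUe.pow hx
    rwa [pow_two] at this
  have hψ : ∀ {x : G}, x ∈ U → y * x * y⁻¹ ∈ U := fun hx =>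
    conj_mem (K_le_normalizer_omega (K1 Q y) h.y_mem_K1) hx
  have hp3 := h.psi3 u
  set u₁ := y * u * y⁻¹ with hu₁
  set u₂ := y * u₁ * y⁻¹ with hu₂
  have hu₁U : u₁ ∈ U := hψ hu
  have hu₂U : u₂ ∈ U := hψ hu₁U
  have h1 : k ∈ K0 Q y := h.K1_le hk
  have hinvU : u⁻¹ = u := inv_eq_of_mul_eq_one_left (hsq hu)
  rcases h.cases_K0 h1 with h2 | h2 | h2
  · -- `k ∈ R`
    have hkR := h.mem_R hk h2
    have e : ⁅u, k⁆ = 1 := by
      rw [commutatorElement_eq_one_iff_mul_comm]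
      exact (h.R_comm_U hkR hu).symm
    rw [e]
    group
  · -- `k = y r`
    have hr : y⁻¹ * k ∈ pCoreOf 2 (K1 Q y) :=
      h.mem_R ((K1 Q y).mul_mem ((K1 Q y).inv_mem h.y_mem_K1) hk) h2
    have hk1 : k * u⁻¹ * k⁻¹ = u₁ := by
      rw [hinvU]
      refine (h.act (g := y) h.y_mem_K1 ?_ hu)
      have e : k * y⁻¹ = y * (y⁻¹ * k) * y⁻¹ := by group
      rw [e]
      exact conj_mem (le_normalizer_pCoreOf _ h.y_mem_K1) hr
    have e : ⁅u, k⁆ = u * u₁ := by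
      rw [commutatorElement_def, ← hk1]
      group
    rw [e]
    have e1 : y * (u * u₁) * y⁻¹ = u₁ * u₂ := by rw [hu₂, hu₁]; group
    have e2 : y * (u₁ * u₂) * y⁻¹ = u₂ * u := by
      calc y * (u₁ * u₂) * y⁻¹ = u₂ * (y * u₂ * y⁻¹) := by rw [hu₂]; group
        _ = u₂ * u := by rw [hp3]
    rw [e1, e2]
    calc u * u₁ * (u₁ * u₂) * (u₂ * u) = u * (u₁ * u₁) * (u₂ * u₂) * u := by group
      _ = 1 := by rw [hsq hu₁U, hsq hu₂U, mul_one, mul_one, hsq hu]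
  · -- `k = y⁻¹ r`
    have hr : y * k ∈ pCoreOf 2 (K1 Q y) :=
      h.mem_R ((K1 Q y).mul_mem h.y_mem_K1 hk) h2
    have hy2 : y⁻¹ * u * y = u₂ := by
      have := h.yinv_eq u
      rw [this]
    have hk1 : k * u⁻¹ * k⁻¹ = u₂ := by
      rw [hinvU, ← hy2]
      have := h.act (g' := k) (g := y⁻¹) (w := u) ((K1 Q y).inv_mem h.y_mem_K1) ?_ hu
      · rw [this]
        group
      · have e : k * y⁻¹⁻¹ = y⁻¹ * (y * k) * y := by group
        rw [e]
        exact conj_inv_mem (le_normalizer_pCoreOf _ h.y_mem_K1) hr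
    have e : ⁅u, k⁆ = u * u₂ := by
      rw [commutatorElement_def, ← hk1]
      group
    rw [e]
    have e1 : y * (u * u₂) * y⁻¹ = u₁ * u := by
      calc y * (u * u₂) * y⁻¹ = u₁ * (y * u₂ * y⁻¹) := by rw [hu₁]; group
        _ = u₁ * u := by rw [hp3]
    have e2 : y * (u₁ * u) * y⁻¹ = u₂ * u₁ := by
      calc y * (u₁ * u) * y⁻¹ = (y * u₁ * y⁻¹) * (y * u * y⁻¹) := by group
        _ = u₂ * u₁ := rfl
    rw [e1, e2]
    have hx : u * u₂ * u₁ ∈ U := mul_mem (mul_mem hu hu₂U) hu₁U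
    have := hsq hx
    calc u * u₂ * (u₁ * u) * (u₂ * u₁) = (u * u₂ * u₁) * (u * u₂ * u₁) := by group
      _ = 1 := this

theorem hN_all {w : G} (hw : w ∈ wOf (K1 Q y)) :
    w * (y * w * y⁻¹) * (y * (y * w * y⁻¹) * y⁻¹) = 1 := by
  have hmemU : ∀ {x : G}, x ∈ wOf (K1 Q y) → x ∈ omegaCenterOf (pCoreOf 2 (K1 Q y)) :=
    fun hx => wOf_le_omega _ hx
  have hUe : IsAbExp 2 (omegaCenterOf (pCoreOf 2 (K1 Q y))) := omega_isAbExp _
  have hψ : ∀ {x : G}, x ∈ omegaCenterOf (pCoreOf 2 (K1 Q y)) →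
      y * x * y⁻¹ ∈ omegaCenterOf (pCoreOf 2 (K1 Q y)) := fun hx =>
    conj_mem (K_le_normalizer_omega (K1 Q y) h.y_mem_K1) hx
  have hcl : wOf (K1 Q y) = closure {g | ∃ u ∈ omegaCenterOf (pCoreOf 2 (K1 Q y)), ∃ k ∈ K1 Q y, ⁅u, k⁆ = g} := by
    rw [wOf, Subgroup.commutator_def]
  rw [hcl] at hw
  induction hw using closure_induction with
  | mem x hx =>
    obtain ⟨u, hu, k, hk, rfl⟩ := hx
    exact h.hN_gen hu hk
  | one => group
  | mul x₀ z₀ hx hz ihx ihz =>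
    rw [← hcl] at hx hz
    have hxU := hmemU hx
    have hzU := hmemU hz
    have hx₁ := hψ hxU
    have hz₁ := hψ hzU
    have hx₂ := hψ hx₁
    have hz₂ := hψ hz₁
    set x₁ := y * x₀ * y⁻¹ with hx₁d
    set z₁ := y * z₀ * y⁻¹ with hz₁d
    set x₂ := y * x₁ * y⁻¹ with hx₂d
    set z₂ := y * z₁ * y⁻¹ with hz₂d
    have e1 : y * (x₀ * z₀) * y⁻¹ = x₁ * z₁ := by rw [hx₁d, hz₁d]; group
    have e2 : y * (x₁ * z₁) * y⁻¹ = x₂ * z₂ := by rw [hx₂d, hz₂d]; group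
    rw [e1, e2]
    have c1 : z₀ * x₁ = x₁ * z₀ := hUe.comm hzU hx₁
    have c2 : (z₀ * z₁) * x₂ = x₂ * (z₀ * z₁) := hUe.comm (mul_mem hzU hz₁) hx₂
    calc x₀ * z₀ * (x₁ * z₁) * (x₂ * z₂) = x₀ * (z₀ * x₁) * z₁ * (x₂ * z₂) := by group
      _ = x₀ * x₁ * ((z₀ * z₁) * x₂) * z₂ := by rw [c1]; group
      _ = (x₀ * x₁ * x₂) * (z₀ * z₁ * z₂) := by rw [c2]; group
      _ = 1 := by rw [ihx, ihz, one_mul]
  | inv x₀ hx ihx =>
    rw [← hcl] at hx
    have hxU := hmemU hx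
    have hx' : x₀⁻¹ = x₀ := by
      have := hUe.pow hxU
      rw [pow_two] at this
      exact inv_eq_of_mul_eq_one_left this
    rw [hx']
    exact ihx

theorem W_ne_bot : wOf (K1 Q y) ≠ ⊥ := by
  intro hbot
  obtain ⟨v, hv, hvy⟩ := h.hyV
  have hyN := h.hLV h.hyL
  have hvQ : v ∈ Q := h.hVQ hv
  have hv₁V : y * v * y⁻¹ ∈ V := conj_mem hyN hv
  have hv₂V : y * (y * v * y⁻¹) * y⁻¹ ∈ V := conj_mem hyN hv₁V
  set v₁ := y * v * y⁻¹ with hv₁
  set v₂ := y * v₁ * y⁻¹ with hv₂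
  set t := v⁻¹ * v₁ with ht
  have hVc : ∀ {p q : G}, p ∈ V → q ∈ V → p * q = q * p := fun hp hq =>
    h.hQV _ (h.hVQ hp) _ hq
  have htV : t ∈ V := by
    have : v⁻¹ = v := inv_eq_of_mul_eq_one_left (h.hVe v hv)
    rw [ht, this]
    have hV : v * v₁ ∈ V := by
      have hvv₁ := (V.mul_mem hv hv₁V)
      exact hvv₁
    exact hV
  have htK : t ∈ K1 Q y := by
    have e : t = (v⁻¹ * y * v) * y⁻¹ := by rw [ht, hv₁]; group
    rw [e]
    exact (K1 Q y).mul_mem (conj_inv_mem (h.K0_norm_K1 (h.Q_le hvQ)) h.y_mem_K1)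
      ((K1 Q y).inv_mem h.y_mem_K1)
  have htR : t ∈ pCoreOf 2 (K1 Q y) := h.mem_R htK (h.hVQ htV)
  have htU : t ∈ omegaCenterOf (pCoreOf 2 (K1 Q y)) := by
    refine mem_Z₁.mpr ⟨htR, fun r hr => h.hQV r (h.core_le_Q hr) t htV, ?_⟩
    rw [pow_two]
    exact h.hVe t htV
  have hcm : ⁅t, y⁆ ∈ wOf (K1 Q y) := commutator_mem_commutator htU h.y_mem_K1
  rw [hbot, mem_bot, commutatorElement_eq_one_iff_mul_comm] at hcm
  -- `y` fixes `t`
  have hyt : y * t * y⁻¹ = t := by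
    rw [← hcm]
    group
  have e : y * t * y⁻¹ = v₁⁻¹ * v₂ := by
    calc y * t * y⁻¹ = y * (v⁻¹ * v₁) * y⁻¹ := by rw [ht]
      _ = (y * v * y⁻¹)⁻¹ * (y * v₁ * y⁻¹) := by group
      _ = v₁⁻¹ * v₂ := rfl
  rw [e, ht] at hyt
  -- so `v₂ = v`
  have hv₁inv : v₁⁻¹ = v₁ := inv_eq_of_mul_eq_one_left (h.hVe _ hv₁V)
  have hvinv : v⁻¹ = v := inv_eq_of_mul_eq_one_left (h.hVe v hv)
  rw [hv₁inv, hvinv, hVc hv hv₁V] at hyt
  have h3 : v₂ = v := mul_left_cancel hyt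
  apply hvy
  have h4 := h.psi3 v
  rw [← hv₁, ← hv₂, h3] at h4
  exact h4

theorem F4_data : Cfsg.Agent.Lib.JSub.F4.F4 T A (wOf (K1 Q y)) y a := by
  have hWU : wOf (K1 Q y) ≤ omegaCenterOf (pCoreOf 2 (K1 Q y)) := wOf_le_omega _
  have hnormJ : ∀ {b : G}, b ∈ A → b ∈ normalizer ((K1 Q y : Subgroup G) : Set G) := fun hb =>
    h.J_norm_K1 (by
      rw [thompsonSubgroupOf_eq]
      exact h.hA.le_jOf hb)
  have hbW : ∀ {b : G}, b ∈ A → ∀ w ∈ wOf (K1 Q y), b * w * b⁻¹ ∈ wOf (K1 Q y) := fun hb w hw =>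
    conj_mem (normalizer_le_wOf (hnormJ hb)) hw
  have hbK : ∀ {b : G}, b ∈ A → b * y * b⁻¹ ∈ K1 Q y := fun hb => conj_mem (hnormJ hb) h.y_mem_K1
  have hconj : ∀ {b g w : G}, g ∈ K1 Q y → b * y * b⁻¹ * g⁻¹ ∈ pCoreOf 2 (K1 Q y) → b ∈ A → w ∈ wOf (K1 Q y) →
      b * (y * w * y⁻¹) * b⁻¹ = g * (b * w * b⁻¹) * g⁻¹ := by
    intro b g w hg hr hb hw
    have e : b * (y * w * y⁻¹) * b⁻¹ = (b * y * b⁻¹) * (b * w * b⁻¹) * (b * y * b⁻¹)⁻¹ := by group
    rw [e]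
    exact h.act hg hr (hWU (hbW hb w hw))
  refine ⟨h.hTp, h.hA, hWU.trans (omegaCenterOf_le.trans h.core_le_T), h.W_AbExp, h.W_ne_bot, h.hy3,
    fun w hw => conj_mem (K_le_normalizer_wOf _ h.y_mem_K1) hw, fun w hw => h.hN_all hw,
    fun b hb => hbW hb, h.haA, ?_, ?_⟩
  · intro w hw
    have hr : a * y * a⁻¹ * (y⁻¹)⁻¹ ∈ pCoreOf 2 (K1 Q y) := by
      rw [inv_inv]
      exact h.mem_R ((K1 Q y).mul_mem (hbK h.haA) h.y_mem_K1) h.hay
    have := hconj ((K1 Q y).inv_mem h.y_mem_K1) hr h.haA hw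
    rw [inv_inv] at this
    exact this
  · intro b hb
    have hbJ : b ∈ thompsonSubgroupOf 2 T := by
      rw [thompsonSubgroupOf_eq]
      exact h.hA.le_jOf hb
    rcases h.hj b hbJ with h1 | h1
    · left
      intro w hw
      exact hconj h.y_mem_K1 (h.mem_R ((K1 Q y).mul_mem (hbK hb) ((K1 Q y).inv_mem h.y_mem_K1)) h1) hb hw
    · right
      intro w hw
      have hr : b * y * b⁻¹ * (y⁻¹)⁻¹ ∈ pCoreOf 2 (K1 Q y) := by
        rw [inv_inv]
        exact h.mem_R ((K1 Q y).mul_mem (hbK hb) h.y_mem_K1) h1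
      have := hconj ((K1 Q y).inv_mem h.y_mem_K1) hr hb hw
      rw [inv_inv] at this
      exact this

/-- The conclusion. -/
theorem isJ : IsJComponent T (K1 Q y) := by
  refine ⟨h.closure_odd, h.comm_eq, h.relIndex_core, ?_, h.F4_data.card_eq, fun w hw => ?_⟩
  · intro S hS hJS
    exact thompson_of_le h.hT hS.2.1 (hS.1.trans (sup_le h.K1_leL h.hJL)) hJS
  · have := h.W_AbExp.pow hw
    rwa [pow_two] at this

end BD

/-- The main construction. -/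
theorem exists_of_BD {L T Q V A : Subgroup G} {y a : G} (h : BD L T Q V A y a) :
    ∃ K, IsJComponent T K ∧ K ≤ L ∧ y ∈ K :=
  ⟨K1 Q y, h.isJ, h.K1_leL, h.y_mem_K1⟩

end Cfsg.Agent.Lib.JSub.Build
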