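import Cfsg.Agent.Lib.JSub.Build

/-!
# Coordinates in a normal subgroup isomorphic to a product of copies of `S₃`
-/

set_option autoImplicit false
set_option linter.unusedSectionVars false
set_option linter.unusedSimpArgs false
set_option linter.style.haveILetI false

open scoped commutatorElement

namespace Cfsg.Agent.Lib.JSub.Coord

open Cfsg Subgroup
open Cfsg.Agent.Lib.JSub.Core (perm3_pow_three_mul perm3_comm perm3_pow_six perm3_pow_three_of_odd)

section S3

/-- The three-cycle. -/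
def sig : Equiv.Perm (Fin 3) := finRotate 3

set_option maxRecDepth 100000 in
theorem conj_sig : ∀ τ : Equiv.Perm (Fin 3), τ * sig * τ⁻¹ = sig ∨ τ * sig * τ⁻¹ = sig⁻¹ := by
  decide

set_option maxRecDepth 100000 in
theorem conj_sig_inv : ∀ τ : Equiv.Perm (Fin 3), τ ≠ 1 → τ ^ 2 = 1 → τ * sig * τ⁻¹ = sig⁻¹ := by
  decide

set_option maxRecDepth 100000 in
theorem cube_cases : ∀ τ : Equiv.Perm (Fin 3), τ ^ 3 = 1 → τ = 1 ∨ τ = sig ∨ τ = sig⁻¹ := by
  decide

theorem sig_cube : sig ^ 3 = 1 := by decide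

theorem sig_ne : sig ≠ 1 := by decide

set_option maxRecDepth 100000 in
theorem sq_cube : ∀ τ : Equiv.Perm (Fin 3), (τ ^ 2) ^ 3 = 1 := by decide

theorem sq_of_two (τ : Equiv.Perm (Fin 3)) {k : ℕ} (h : τ ^ (2 ^ k) = 1) : τ ^ 2 = 1 := by
  have h1 : orderOf τ ∣ 2 ^ k := orderOf_dvd_of_pow_eq_one h
  have h2 : orderOf τ ∣ 6 := orderOf_dvd_of_pow_eq_one (perm3_pow_six τ)
  obtain ⟨m, -, hm⟩ := (Nat.dvd_prime_pow Nat.prime_two).mp h1
  rw [hm] at h2
  have h3 : m ≤ 1 := by
    by_contra hne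
    have h4 : 2 ^ 2 ∣ 2 ^ m := pow_dvd_pow 2 (by omega)
    have h5 := h4.trans h2
    omega
  apply orderOf_dvd_iff_pow_eq_one.mp
  rw [hm]
  exact pow_dvd_pow 2 h3

end S3

variable {n : ℕ}

theorem conj_mulSingle (f : Fin n → Equiv.Perm (Fin 3)) (i : Fin n) (s : Equiv.Perm (Fin 3)) :
    f * Pi.mulSingle i s * f⁻¹ = Pi.mulSingle i (f i * s * (f i)⁻¹) := by
  funext k
  by_cases hk : k = i
  · subst hk
    simp
  · simp [Pi.mulSingle_eq_of_ne hk]

/-- The coordinates. -/
theorem coords {Γ : Type*} [Group Γ] {L : Subgroup Γ} (hL : L.Normal)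
    (e : ↥L ≃* (Fin n → Equiv.Perm (Fin 3))) :
    ∃ (E : Subgroup Γ) (D : Fin n → Γ), E.Normal ∧ (∀ x ∈ E, ∀ y ∈ E, x * y = y * x) ∧
      (∀ x ∈ E, x ^ 3 = 1) ∧ (∀ y ∈ L, Odd (orderOf y) → y ∈ E) ∧ E ≤ L ∧
      (∀ y ∈ L, y ^ 2 ∈ E) ∧ (∀ y ∈ L, ∀ k : ℕ, y ^ (2 ^ k) = 1 → y ^ 2 = 1) ∧
      (∀ i, D i ∈ E) ∧ (∀ i, ∀ j ∈ L, j * D i * j⁻¹ = D i ∨ j * D i * j⁻¹ = (D i)⁻¹) ∧
      E ≤ closure (Set.range D) ∧
      (∀ j ∈ L, j ≠ 1 → (∃ k : ℕ, j ^ (2 ^ k) = 1) → ∃ i, j * D i * j⁻¹ = (D i)⁻¹ ∧ D i ≠ 1) := by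
  classical
  have hcube : ∀ y : L, (y : Γ) ^ 3 = 1 ↔ ∀ i, (e y i) ^ 3 = 1 := by
    intro y
    constructor
    · intro h i
      have h1 : y ^ 3 = 1 := Subtype.ext (by simpa using h)
      have h2 : e (y ^ 3) = 1 := by rw [h1, map_one]
      rw [map_pow] at h2
      have := congrFun h2 i
      simpa using this
    · intro h
      have h2 : (e y) ^ 3 = 1 := funext fun i => by simpa using h i
      have h3 : e (y ^ 3) = e 1 := by rw [map_pow, h2, map_one]
      have h4 := e.injective h3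
      simpa using congrArg Subtype.val h4
  let E : Subgroup Γ :=
    { carrier := {x | x ∈ L ∧ x ^ 3 = 1}
      one_mem' := ⟨L.one_mem, one_pow _⟩
      mul_mem' := by
        rintro a b ⟨ha, ha3⟩ ⟨hb, hb3⟩
        refine ⟨L.mul_mem ha hb, ?_⟩
        have h1 := (hcube ⟨a, ha⟩).mp ha3
        have h2 := (hcube ⟨b, hb⟩).mp hb3
        have h3 := (hcube (⟨a, ha⟩ * ⟨b, hb⟩)).mpr (fun i => by
          rw [map_mul]
          exact perm3_pow_three_mul _ _ (h1 i) (h2 i))
        simpa using h3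
      inv_mem' := by
        rintro a ⟨ha, ha3⟩
        exact ⟨L.inv_mem ha, by rw [inv_pow, ha3, inv_one]⟩ }
  -- the coordinate elements
  let Dl : Fin n → L := fun i => e.symm (Pi.mulSingle i sig)
  have heD : ∀ i, e (Dl i) = Pi.mulSingle i sig := fun i => e.apply_symm_apply _
  have hD3 : ∀ i, ((Dl i : L) : Γ) ^ 3 = 1 := by
    intro i
    refine (hcube (Dl i)).mpr fun k => ?_
    rw [heD]
    by_cases hk : k = i
    · subst hk
      rw [Pi.mulSingle_eq_same]
      exact sig_cube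
    · rw [Pi.mulSingle_eq_of_ne hk]
      exact one_pow _
  have hconj : ∀ (j : L) (i : Fin n), e (j * Dl i * j⁻¹) = Pi.mulSingle i (e j i * sig * (e j i)⁻¹) := by
    intro j i
    rw [map_mul, map_mul, map_inv, heD, conj_mulSingle]
  have hDinv : ∀ i, e (Dl i)⁻¹ = Pi.mulSingle i sig⁻¹ := by
    intro i
    rw [map_inv, heD]
    funext k
    by_cases hk : k = i
    · subst hk
      simp
    · simp [Pi.mulSingle_eq_of_ne hk]
  have hsq2 : ∀ y : L, ∀ k : ℕ, (y : Γ) ^ (2 ^ k) = 1 → ∀ i, (e y i) ^ 2 = 1 := by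
    intro y k hy i
    have h1 : y ^ (2 ^ k) = 1 := Subtype.ext (by simpa using hy)
    have h2 : e (y ^ (2 ^ k)) = 1 := by rw [h1, map_one]
    rw [map_pow] at h2
    have h3 := congrFun h2 i
    exact sq_of_two _ (by simpa using h3)
  refine ⟨E, fun i => (Dl i : Γ), ?_, ?_, fun x hx => hx.2, ?_, fun x hx => hx.1, ?_, ?_,
    fun i => ⟨(Dl i).2, hD3 i⟩, ?_, ?_, ?_⟩
  · constructor
    rintro x ⟨hx, hx3⟩ g
    refine ⟨hL.conj_mem x hx g, ?_⟩
    rw [conj_pow, hx3]
    simp
  · rintro x ⟨hx, hx3⟩ y ⟨hy, hy3⟩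
    have h1 := (hcube ⟨x, hx⟩).mp hx3
    have h2 := (hcube ⟨y, hy⟩).mp hy3
    have h3 : e ⟨x, hx⟩ * e ⟨y, hy⟩ = e ⟨y, hy⟩ * e ⟨x, hx⟩ :=
      funext fun i => perm3_comm _ _ (h1 i) (h2 i)
    rw [← map_mul, ← map_mul] at h3
    simpa using congrArg Subtype.val (e.injective h3)
  · intro y hy hodd
    refine ⟨hy, (hcube ⟨y, hy⟩).mpr fun i => ?_⟩
    have h1 : (⟨y, hy⟩ : L) ^ orderOf y = 1 := Subtype.ext (by simpa using pow_orderOf_eq_one y)
    have h2 : (e ⟨y, hy⟩ i) ^ orderOf y = 1 := by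
      have h3 : e ((⟨y, hy⟩ : L) ^ orderOf y) = 1 := by rw [h1, map_one]
      rw [map_pow] at h3
      have := congrFun h3 i
      simpa using this
    exact perm3_pow_three_of_odd _ hodd h2
  · intro y hy
    refine ⟨L.pow_mem hy 2, ?_⟩
    have := (hcube (⟨y, hy⟩ ^ 2)).mpr (fun i => by
      rw [map_pow]
      exact sq_cube _)
    simpa using this
  · intro y hy k hk
    have h1 := hsq2 ⟨y, hy⟩ k hk
    have h2 : (e ⟨y, hy⟩) ^ 2 = 1 := funext fun i => by simpa using h1 i
    have h3 : e ((⟨y, hy⟩ : L) ^ 2) = e 1 := by rw [map_pow, h2, map_one]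
    have h4 := e.injective h3
    simpa using congrArg Subtype.val h4
  · intro i j hj
    rcases conj_sig (e ⟨j, hj⟩ i) with h1 | h1
    · left
      have h2 : e (⟨j, hj⟩ * Dl i * (⟨j, hj⟩ : L)⁻¹) = e (Dl i) := by
        rw [hconj, h1, heD]
      have h3 := e.injective h2
      simpa using congrArg Subtype.val h3
    · right
      have h2 : e (⟨j, hj⟩ * Dl i * (⟨j, hj⟩ : L)⁻¹) = e (Dl i)⁻¹ := by
        rw [hconj, h1, hDinv]
      have h3 := e.injective h2
      simpa using congrArg Subtype.val h3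
  · -- generation
    rintro x ⟨hx, hx3⟩
    have h1 := (hcube ⟨x, hx⟩).mp hx3
    -- the image of the closure
    set D' : Subgroup (Fin n → Equiv.Perm (Fin 3)) :=
      (closure (Set.range fun i => (Dl i : Γ))).comap (L.subtype.comp e.symm.toMonoidHom) with hD'
    have hmem : ∀ i, Pi.mulSingle i sig ∈ D' := by
      intro i
      exact subset_closure ⟨i, rfl⟩
    have hsingle : ∀ i, Pi.mulSingle i (e ⟨x, hx⟩ i) ∈ D' := by
      intro i
      rcases cube_cases _ (h1 i) with h3 | h3 | h3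
      · rw [h3, Pi.mulSingle_one]
        exact one_mem _
      · rw [h3]
        exact hmem i
      · rw [h3]
        have h4 : Pi.mulSingle i sig⁻¹ = (Pi.mulSingle i sig : Fin n → Equiv.Perm (Fin 3))⁻¹ := by
          funext k
          by_cases hk : k = i
          · subst hk
            simp
          · simp [Pi.mulSingle_eq_of_ne hk]
        rw [h4]
        exact inv_mem (hmem i)
    have hpart : ∀ s : Finset (Fin n), (fun k => if k ∈ s then e ⟨x, hx⟩ k else 1) ∈ D' := by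
      intro s
      induction s using Finset.induction_on with
      | empty =>
        have : (fun k : Fin n => if k ∈ (∅ : Finset (Fin n)) then e ⟨x, hx⟩ k else 1) = 1 := by
          funext k
          simp
        rw [this]
        exact one_mem _
      | insert i s his ih =>
        have : (fun k => if k ∈ insert i s then e ⟨x, hx⟩ k else 1) =
            (fun k => if k ∈ s then e ⟨x, hx⟩ k else 1) * Pi.mulSingle i (e ⟨x, hx⟩ i) := by
          funext k
          by_cases hk : k = i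
          · subst hk
            simp [his]
          · simp [hk, Pi.mulSingle_eq_of_ne hk]
        rw [this]
        exact mul_mem ih (hsingle i)
    have hS : e ⟨x, hx⟩ ∈ D' := by
      have := hpart Finset.univ
      simpa using this
    have h5 : ((e.symm (e ⟨x, hx⟩) : L) : Γ) ∈ closure (Set.range fun i => (Dl i : Γ)) := hS
    simpa using h5
  · rintro j hj hj1 ⟨k, hk⟩
    have h1 : e ⟨j, hj⟩ ≠ 1 := by
      intro h
      apply hj1
      have h2 := e.injective (h.trans (map_one e).symm)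
      exact congrArg Subtype.val h2
    obtain ⟨i, hi⟩ := Function.ne_iff.mp h1
    refine ⟨i, ?_, ?_⟩
    · have h2 := conj_sig_inv _ hi (hsq2 ⟨j, hj⟩ k hk i)
      have h3 : e (⟨j, hj⟩ * Dl i * (⟨j, hj⟩ : L)⁻¹) = e (Dl i)⁻¹ := by
        rw [hconj, h2, hDinv]
      have h4 := e.injective h3
      simpa using congrArg Subtype.val h4
    · intro h2
      have h3 : Dl i = 1 := Subtype.ext h2
      have h4 := heD i
      rw [h3, map_one] at h4
      have h5 := congrFun h4 i
      simp at h5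
      exact sig_ne h5.symm

end Cfsg.Agent.Lib.JSub.Coord
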