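import Cfsg.Agent.Lib.SolvFF.Main

/-!
# Elementary abelian Thompson factorization in solvable groups of characteristic two

For a solvable group `X`, `V` a normal elementary abelian subgroup of a subgroup `T` with `O₂(X / C(V)) = 1`, the largest
elementary abelian subgroups of `T` are best offenders on `V`, and the normal closure of their join induces a direct
product of copies of `S₃` on `V`.
-/

set_option autoImplicit false
set_option linter.unusedSectionVars false
set_option linter.unusedSimpArgs false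
set_option linter.style.haveILetI false

open scoped commutatorElement

namespace Cfsg.Agent.Lib.JSub.Core

open Cfsg.Agent.Lib.SolvFF.Core Cfsg.Agent.Lib.SolvFF.Main
open Cfsg.Agent.Lib.QuadAct.Replacement Cfsg.Agent.Lib.QuadAct.Basic
open Cfsg.Agent.Lib.QuadAct.FFBasic Cfsg.Agent.Lib.QuadAct.FFQuot
open Cfsg.Agent.Lib.SFourFree.Offender
open Cfsg.Agent.Lib.Core.Basic

universe u

variable {X : Type u} [Group X] [Finite X]

/-- `A` is a largest elementary abelian `2`-subgroup of `T`. -/
def LE2 (T A : Subgroup X) : Prop :=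
  A ≤ T ∧ Cfsg.IsElementaryAbelian 2 A ∧
    ∀ B : Subgroup X, B ≤ T → Cfsg.IsElementaryAbelian 2 B → Nat.card B ≤ Nat.card A

theorem comm_of_ea {A : Subgroup X} (hA : Cfsg.IsElementaryAbelian 2 A) {a b : X} (ha : a ∈ A)
    (hb : b ∈ A) : a * b = b * a :=
  comm_of_isMulCommutative hA.1 ha hb

/-- Largest elementary abelian subgroups offend. -/
theorem offender_of_LE2 {T V A : Subgroup X} (hVT : V ≤ T) (hV : Cfsg.IsElementaryAbelian 2 V)
    (hA : LE2 T A) :
    Nat.card V * Nat.card ↥(A ⊓ Subgroup.centralizer (V : Set X)) ≤ offProd V A := by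
  set c := A ⊓ Subgroup.centralizer (V : Set X) with hc
  have hsupT : c ⊔ V ≤ T := sup_le (inf_le_left.trans hA.1) hVT
  have hsupe : Cfsg.IsElementaryAbelian 2 (c ⊔ V) := by
    rw [← Subgroup.closure_eq c, ← Subgroup.closure_eq V, ← Subgroup.closure_union]
    apply Cfsg.Agent.Lib.QuadAct.OmegaZ.isElementaryAbelian_closure
    · rintro x (hx | hx) y (hy | hy)
      · exact comm_of_ea hA.2.1 (hx : x ∈ c).1 (hy : y ∈ c).1
      · exact (Subgroup.mem_centralizer_iff.mp (hx : x ∈ c).2 y hy).symm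
      · exact Subgroup.mem_centralizer_iff.mp (hy : y ∈ c).2 x hx
      · exact comm_of_ea hV hx hy
    · rintro x (hx | hx)
      · exact hA.2.1.2 x (hx : x ∈ c).1
      · exact hV.2 x hx
  have h1 := hA.2.2 _ hsupT hsupe
  have hn : c ≤ Subgroup.normalizer (V : Set X) :=
    inf_le_right.trans (Subgroup.centralizer_le_normalizer _)
  have h2 := card_sup_mul_card_inf_of_le_normalizer c V hn
  have h3 : Nat.card ↥(c ⊓ V) ≤ Nat.card ↥(V ⊓ Subgroup.centralizer (A : Set X)) := by
    apply Subgroup.card_le_of_le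
    rintro x ⟨hxc, hxV⟩
    refine ⟨hxV, Subgroup.mem_centralizer_iff.mpr fun a ha => ?_⟩
    exact comm_of_ea hA.2.1 ha hxc.1
  unfold offProd
  calc Nat.card V * Nat.card c = Nat.card c * Nat.card V := mul_comm _ _
    _ = Nat.card ↥(c ⊔ V) * Nat.card ↥(c ⊓ V) := h2.symm
    _ ≤ _ := Nat.mul_le_mul h1 h3

/-- The quotient by the core of the centralizer of central elements of a Sylow subgroup has
trivial `O₂`. -/
theorem pCore_quot_eq_bot' (T : Sylow 2 X) (Z N : Subgroup X) [hNn : N.Normal]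
    (hZ : ∀ z ∈ Z, ∀ t ∈ (T : Subgroup X), t * z = z * t)
    (hN : N = (Subgroup.centralizer (Z : Set X)).normalCore) :
    Cfsg.pCore 2 (X ⧸ N) = ⊥ := by
  let π : X →* X ⧸ N := QuotientGroup.mk' N
  have hπ : Function.Surjective π := QuotientGroup.mk'_surjective N
  let T' : Sylow 2 (X ⧸ N) := T.mapSurjective hπ
  have hT' : (T' : Subgroup (X ⧸ N)) = (T : Subgroup X).map π := Sylow.coe_mapSurjective _ _
  set D : Subgroup X := (Cfsg.pCore 2 (X ⧸ N)).comap π with hD
  haveI hDn : D.Normal := Subgroup.Normal.comap inferInstance π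
  have hDle : D ≤ Subgroup.centralizer (Z : Set X) := by
    intro g hg
    have h1 : π g ∈ (T' : Subgroup (X ⧸ N)) := pCore_le_sylow T' hg
    rw [hT'] at h1
    obtain ⟨t, ht, hte⟩ := h1
    have h2 : t⁻¹ * g ∈ N := by
      rw [← QuotientGroup.ker_mk' N, MonoidHom.mem_ker, map_mul, map_inv]
      show (π t)⁻¹ * π g = 1
      rw [hte, inv_mul_cancel]
    have h3 : t⁻¹ * g ∈ Subgroup.centralizer (Z : Set X) := by
      have := (Subgroup.normalCore_le _) (hN ▸ h2)
      exact this
    have h4 : t ∈ Subgroup.centralizer (Z : Set X) := by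
      rw [Subgroup.mem_centralizer_iff]
      intro z hz
      exact (hZ z hz t ht).symm
    have h5 := Subgroup.mul_mem _ h4 h3
    simpa using h5
  have h6 : D ≤ N := by
    rw [hN, Subgroup.normal_le_normalCore]
    exact hDle
  rw [eq_bot_iff]
  intro q hq
  obtain ⟨g, rfl⟩ := hπ q
  have h7 : g ∈ N := h6 hq
  rw [Subgroup.mem_bot]
  have : g ∈ π.ker := by rwa [QuotientGroup.ker_mk']
  exact this

section structure_thm

variable {V : Subgroup X} [hVn : V.Normal]

/-- The normal closure of a join of best offenders induces a direct product of copies of `S₃`. -/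
theorem exists_equiv_closure (hsep : Cfsg.IsPSolvable 2 X) (hVe : Cfsg.IsElementaryAbelian 2 V)
    (hO : Cfsg.pCore 2 (X ⧸ Subgroup.centralizer (V : Set X)) = ⊥) (F : Set (Subgroup X))
    (hbest : ∀ A ∈ F, Cfsg.IsBestOffenderOn 2 V A) :
    ∃ n : ℕ, Nonempty
      (↥((Subgroup.normalClosure ((sSup F : Subgroup X) : Set X)).map (piV V)) ≃*
        (Fin n → Equiv.Perm (Fin 3))) := by
  classical
  set J : Subgroup X := sSup F with hJ
  set Y := Subgroup.normalClosure (J : Set X) with hYd
  haveI hYn : Y.Normal := Subgroup.normalClosure_normal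
  obtain ⟨M, _, _, _, ρ, ι, D⟩ := Cfsg.Agent.Lib.QuadAct.FFQuot.exists_coordQ (p := 2) hVe
  set L := Y.map (piV V) with hL
  have hLn : L.Normal := hYn.map _ piV_surj
  have hsep' : Cfsg.IsPSolvable 2 (X ⧸ Subgroup.centralizer (V : Set X)) :=
    Cfsg.Agent.Lib.Core.PSolvable.isPSolvable_of_surjective _ piV_surj hsep
  have hgen : ∀ g : L, g ∈ ⨆ A : {A : Subgroup L // Best (ρ.comp L.subtype) A},
      (A : Subgroup L) := by
    have h1 : L ≤ (⨆ A : {A : Subgroup L // Best (ρ.comp L.subtype) A},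
        (A : Subgroup L)).map L.subtype := by
      rw [hL, Subgroup.map_le_iff_le_comap, hYd, Subgroup.normalClosure, Subgroup.closure_le]
      intro x hx
      obtain ⟨j, hj, hjx⟩ := Group.mem_conjugatesOfSet_iff.mp hx
      obtain ⟨g, rfl⟩ := isConj_iff.mp hjx
      have h2 : J ≤ (Subgroup.comap (piV V) ((⨆ A : {A : Subgroup L // Best (ρ.comp L.subtype) A},
          (A : Subgroup L)).map L.subtype)).comap (MulAut.conj g).toMonoidHom := by
        rw [hJ]
        refine sSup_le fun A hA => ?_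
        rw [← Subgroup.map_le_iff_le_comap, ← Subgroup.map_le_iff_le_comap]
        have h3 : Best ρ (A.map (piV V)) := best_map_of_isBest D (hbest A hA)
        have h4 := best_conj h3 (piV V g)
        have hAJ : A ≤ J := by
          rw [hJ]
          exact le_sSup hA
        have e : (A.map (MulAut.conj g).toMonoidHom).map (piV V) =
            (A.map (piV V)).map (MulAut.conj (piV V g)).toMonoidHom := by
          rw [Subgroup.map_map, Subgroup.map_map]
          congr 1
        rw [e]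
        have hle : (A.map (piV V)).map (MulAut.conj (piV V g)).toMonoidHom ≤ L := by
          rw [← e]
          apply Subgroup.map_mono
          rintro _ ⟨a, ha, rfl⟩
          exact hYn.conj_mem a (Subgroup.le_normalClosure (hAJ ha)) g
        have h5 := best_comp_subtype h4 hle
        have h6 := le_iSup (fun A : {A : Subgroup L // Best (ρ.comp L.subtype) A} =>
          (A : Subgroup L)) ⟨_, h5⟩
        have h7 := Subgroup.map_mono (f := L.subtype) h6
        rwa [Subgroup.map_subgroupOf_eq_of_le hle] at h7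
      exact h2 hj
    intro g
    obtain ⟨g', hg', e⟩ := h1 g.2
    have : g' = g := Subtype.ext e
    rwa [← this]
  obtain ⟨n, ⟨e⟩⟩ := exists_equiv_pi (D.faithL L) (hS1_of hsep' hO hLn) hgen
  exact ⟨n, ⟨e⟩⟩

end structure_thm

/-! ### The `3`-part of a product of copies of `S₃` -/

section S3

set_option maxRecDepth 100000 in
theorem perm3_pow_three_mul : ∀ a b : Equiv.Perm (Fin 3), a ^ 3 = 1 → b ^ 3 = 1 → (a * b) ^ 3 = 1 := by
  decide

set_option maxRecDepth 100000 in
theorem perm3_comm : ∀ a b : Equiv.Perm (Fin 3), a ^ 3 = 1 → b ^ 3 = 1 → a * b = b * a := by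
  decide

set_option maxRecDepth 100000 in
theorem perm3_pow_six : ∀ a : Equiv.Perm (Fin 3), a ^ 6 = 1 := by decide

theorem perm3_pow_three_of_odd (a : Equiv.Perm (Fin 3)) {m : ℕ} (hm : Odd m) (h : a ^ m = 1) :
    a ^ 3 = 1 := by
  have h1 : orderOf a ∣ m := orderOf_dvd_of_pow_eq_one h
  have h2 : orderOf a ∣ 6 := orderOf_dvd_of_pow_eq_one (perm3_pow_six a)
  have h3 : ¬ 2 ∣ orderOf a := fun hd => by
    have := hd.trans h1
    obtain ⟨k, hk⟩ := hm
    omega
  have h4 : orderOf a ∣ 3 := by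
    have : orderOf a ≤ 6 := Nat.le_of_dvd (by norm_num) h2
    interval_cases (orderOf a) <;> omega
  exact orderOf_dvd_iff_pow_eq_one.mp h4

end S3

/-- The elements of exponent `3` in a normal subgroup isomorphic to a product of copies of `S₃`. -/
theorem exists_three_part {Γ : Type*} [Group Γ] {L : Subgroup Γ} (hL : L.Normal) {n : ℕ}
    (e : ↥L ≃* (Fin n → Equiv.Perm (Fin 3))) :
    ∃ E : Subgroup Γ, E.Normal ∧ (∀ x ∈ E, ∀ y ∈ E, x * y = y * x) ∧ (∀ x ∈ E, x ^ 3 = 1) ∧
      ∀ y ∈ L, Odd (orderOf y) → y ∈ E := by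
  have hcube : ∀ y : L, (y : Γ) ^ 3 = 1 ↔ ∀ i, (e y i) ^ 3 = 1 := by
    intro y
    constructor
    · intro h i
      have h1 : y ^ 3 = 1 := Subtype.ext (by simpa using h)
      have h2 : e (y ^ 3) = 1 := by rw [h1, map_one]
      rw [map_pow] at h2
      have := congrFun h2 i
      simpa using this
    · intro h
      have h2 : (e y) ^ 3 = 1 := funext fun i => by simpa using h i
      have h3 : e (y ^ 3) = e 1 := by rw [map_pow, h2, map_one]
      have h4 := e.injective h3
      simpa using congrArg Subtype.val h4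
  let E : Subgroup Γ :=
    { carrier := {x | x ∈ L ∧ x ^ 3 = 1}
      one_mem' := ⟨L.one_mem, one_pow _⟩
      mul_mem' := by
        rintro a b ⟨ha, ha3⟩ ⟨hb, hb3⟩
        refine ⟨L.mul_mem ha hb, ?_⟩
        have h1 := (hcube ⟨a, ha⟩).mp ha3
        have h2 := (hcube ⟨b, hb⟩).mp hb3
        have h3 := (hcube (⟨a, ha⟩ * ⟨b, hb⟩)).mpr (fun i => by
          rw [map_mul]
          exact perm3_pow_three_mul _ _ (h1 i) (h2 i))
        simpa using h3
      inv_mem' := by
        rintro a ⟨ha, ha3⟩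
        exact ⟨L.inv_mem ha, by rw [inv_pow, ha3, inv_one]⟩ }
  refine ⟨E, ?_, ?_, fun x hx => hx.2, ?_⟩
  · constructor
    rintro x ⟨hx, hx3⟩ g
    refine ⟨hL.conj_mem x hx g, ?_⟩
    rw [conj_pow, hx3]
    simp
  · rintro x ⟨hx, hx3⟩ y ⟨hy, hy3⟩
    have h1 := (hcube ⟨x, hx⟩).mp hx3
    have h2 := (hcube ⟨y, hy⟩).mp hy3
    have h3 : e ⟨x, hx⟩ * e ⟨y, hy⟩ = e ⟨y, hy⟩ * e ⟨x, hx⟩ :=
      funext fun i => perm3_comm _ _ (h1 i) (h2 i)
    rw [← map_mul, ← map_mul] at h3
    simpa using congrArg Subtype.val (e.injective h3)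
  · intro y hy hodd
    refine ⟨hy, (hcube ⟨y, hy⟩).mpr fun i => ?_⟩
    have h1 : (⟨y, hy⟩ : L) ^ orderOf y = 1 := Subtype.ext (by simpa using pow_orderOf_eq_one y)
    have h2 : (e ⟨y, hy⟩ i) ^ orderOf y = 1 := by
      have h3 : e ((⟨y, hy⟩ : L) ^ orderOf y) = 1 := by rw [h1, map_one]
      rw [map_pow] at h3
      have := congrFun h3 i
      simpa using this
    exact perm3_pow_three_of_odd _ hodd h2

/-- The structure of `X` modulo the centralizer of the normal closure of central elements. -/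
theorem exists_E (hsep : Cfsg.IsPSolvable 2 X) (T : Sylow 2 X) {Z : Subgroup X}
    (hZ : ∀ z ∈ Z, ∀ t ∈ (T : Subgroup X), t * z = z * t)
    (hVe : Cfsg.IsElementaryAbelian 2 (Subgroup.normalClosure (Z : Set X)))
    (hVT : Subgroup.normalClosure (Z : Set X) ≤ T) (F : Set (Subgroup X))
    (hF : ∀ A ∈ F, LE2 (T : Subgroup X) A) :
    ∃ E : Subgroup X, E.Normal ∧
      Subgroup.centralizer (Subgroup.normalClosure (Z : Set X) : Set X) ≤ E ∧
      (∀ x ∈ E, ∀ y ∈ E, x * y * x⁻¹ * y⁻¹ ∈
        Subgroup.centralizer (Subgroup.normalClosure (Z : Set X) : Set X)) ∧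
      (∀ x ∈ E, x ^ 3 ∈ Subgroup.centralizer (Subgroup.normalClosure (Z : Set X) : Set X)) ∧
      ∀ y ∈ Subgroup.normalClosure ((sSup F : Subgroup X) : Set X), Odd (orderOf y) → y ∈ E := by
  set V := Subgroup.normalClosure (Z : Set X) with hV
  haveI hVn : V.Normal := Subgroup.normalClosure_normal
  have hcore : (Subgroup.centralizer (Z : Set X)).normalCore = Subgroup.centralizer (V : Set X) :=
    normalCore_eq rfl
  have hO : Cfsg.pCore 2 (X ⧸ Subgroup.centralizer (V : Set X)) = ⊥ :=
    pCore_quot_eq_bot' T Z _ hZ hcore.symm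
  have hTp : IsPGroup 2 (T : Subgroup X) := T.isPGroup'
  have hbest : ∀ A ∈ F, Cfsg.IsBestOffenderOn 2 V A := by
    intro A hA
    refine Cfsg.Agent.Lib.SolvFF.Core.isBestOffenderOn_of_offender hsep hVe hO ?_
      (hTp.to_le (hF A hA).1) (offender_of_LE2 hVT hVe (hF A hA))
    have : ⁅A, A⁆ = ⊥ := by
      rw [eq_bot_iff, Subgroup.commutator_le]
      intro a ha b hb
      rw [Subgroup.mem_bot, commutatorElement_eq_one_iff_mul_comm]
      exact comm_of_ea (hF A hA).2.1 ha hb
    rw [this]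
    exact bot_le
  obtain ⟨n, ⟨e⟩⟩ := exists_equiv_closure hsep hVe hO F hbest
  have hLn : ((Subgroup.normalClosure ((sSup F : Subgroup X) : Set X)).map (piV V)).Normal :=
    (Subgroup.normalClosure_normal).map _ piV_surj
  obtain ⟨E, hEn, hEc, hE3, hEo⟩ := exists_three_part hLn e
  have hπ : ∀ x : X, piV V x = 1 ↔ x ∈ Subgroup.centralizer (V : Set X) := by
    intro x
    rw [← MonoidHom.mem_ker, piV_ker]
  refine ⟨E.comap (piV V), hEn.comap _, ?_, ?_, ?_, ?_⟩
  · intro x hx
    rw [Subgroup.mem_comap, (hπ x).mpr hx]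
    exact E.one_mem
  · intro x hx y hy
    rw [← hπ, map_mul, map_mul, map_mul, map_inv, map_inv, hEc _ hx _ hy]
    simp
  · intro x hx
    rw [← hπ, map_pow]
    exact hE3 _ hx
  · intro y hy hodd
    refine hEo _ (Subgroup.mem_map_of_mem _ hy) ?_
    have h1 : orderOf (piV V y) ∣ orderOf y := orderOf_map_dvd _ _
    exact Odd.of_dvd_nat hodd h1

/-- `O₂(X / C(V)) = 1` for the normal closure of central elements of a Sylow subgroup. -/
theorem hO_of (T : Sylow 2 X) {Z : Subgroup X}
    (hZ : ∀ z ∈ Z, ∀ t ∈ (T : Subgroup X), t * z = z * t) :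
    haveI : (Subgroup.normalClosure (Z : Set X)).Normal := Subgroup.normalClosure_normal
    Cfsg.pCore 2 (X ⧸ Subgroup.centralizer (Subgroup.normalClosure (Z : Set X) : Set X)) = ⊥ := by
  haveI : (Subgroup.normalClosure (Z : Set X)).Normal := Subgroup.normalClosure_normal
  exact pCore_quot_eq_bot' T Z _ hZ (normalCore_eq rfl).symm

/-- Largest elementary abelian subgroups are best offenders. -/
theorem hbest_of {V : Subgroup X} [hVn : V.Normal] (hsep : Cfsg.IsPSolvable 2 X) {T : Subgroup X}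
    (hTp : IsPGroup 2 T) (hVe : Cfsg.IsElementaryAbelian 2 V) (hVT : V ≤ T)
    (hO : Cfsg.pCore 2 (X ⧸ Subgroup.centralizer (V : Set X)) = ⊥) {A : Subgroup X}
    (hA : LE2 T A) : Cfsg.IsBestOffenderOn 2 V A := by
  refine Cfsg.Agent.Lib.SolvFF.Core.isBestOffenderOn_of_offender hsep hVe hO ?_
    (hTp.to_le hA.1) (offender_of_LE2 hVT hVe hA)
  have : ⁅A, A⁆ = ⊥ := by
    rw [eq_bot_iff, Subgroup.commutator_le]
    intro a ha b hb
    rw [Subgroup.mem_bot, commutatorElement_eq_one_iff_mul_comm]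
    exact comm_of_ea hA.2.1 ha hb
  rw [this]
  exact bot_le

end Cfsg.Agent.Lib.JSub.Core
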