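import Cfsg.Agent.Lib.JSub.Coord

/-!
# Existence of `J(T)`-components
-/

set_option autoImplicit false
set_option linter.unusedSectionVars false
set_option linter.unusedSimpArgs false
set_option linter.style.haveILetI false

open scoped commutatorElement

namespace Cfsg.Agent.Lib.JSub.Exist

open Cfsg Subgroup
open Cfsg.Agent.Lib.JSub.Core
open Cfsg.Agent.Lib.JSub.Main
open Cfsg.Agent.Lib.JSub.Zero
open Cfsg.Agent.Lib.JSub.Build
open Cfsg.Agent.Lib.JSub.Coord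
open Cfsg.Agent.Lib.JSub.Norm (odd_mem mem_of_sq_mem)
open Cfsg.Agent.Lib.PointStab.Step (nrm_of_conj conj_mem conj_inv_mem mem_Z₁ Z₁ conj_mem_closure
  isSylowIn_of_le mem_of_SN_of_sylow)
open Cfsg.Agent.Lib.PLocal.Thompson (IsMaxIn jOf thompsonSubgroupOf_eq IsAbExp jOf_eq_of_le jOf_conj)
open Cfsg.Agent.Lib.LocalStruct.PCoreOf
open Cfsg.Agent.Lib.LocalEven.Util (mem_normalizer_of_conj_le)
open Cfsg.Agent.Lib.QuadAct.FFQuot (piV piV_ker piV_surj)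
open Cfsg.Agent.Lib.Coprime.Action (IsSylowIn le_of_normal_of_isSylowIn card_eq_card_mul_relIndex)
open Cfsg.Agent.Lib.Subnormal.Basic
open Cfsg.Agent.Lib.QuadAct.Basic (comm_of_isMulCommutative)

universe u

section X

variable {X : Type u} [Group X] [Finite X]

/-- The structure of `X` modulo the centralizer of the normal closure of central elements, with coordinates. -/
theorem exists_E2 (hsep : Cfsg.IsPSolvable 2 X) (T : Sylow 2 X) {Z : Subgroup X}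
    (hZ : ∀ z ∈ Z, ∀ t ∈ (T : Subgroup X), t * z = z * t)
    (hVe : Cfsg.IsElementaryAbelian 2 (Subgroup.normalClosure (Z : Set X)))
    (hVT : Subgroup.normalClosure (Z : Set X) ≤ T) (F : Set (Subgroup X))
    (hF : ∀ A ∈ F, LE2 (T : Subgroup X) A) :
    ∃ (E : Subgroup X) (n : ℕ) (D : Fin n → X), E.Normal ∧
      Subgroup.centralizer (Subgroup.normalClosure (Z : Set X) : Set X) ≤ E ∧
      (∀ x ∈ E, ∀ y ∈ E, x * y * x⁻¹ * y⁻¹ ∈
        Subgroup.centralizer (Subgroup.normalClosure (Z : Set X) : Set X)) ∧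
      (∀ x ∈ E, x ^ 3 ∈ Subgroup.centralizer (Subgroup.normalClosure (Z : Set X) : Set X)) ∧
      (∀ y ∈ Subgroup.normalClosure ((sSup F : Subgroup X) : Set X), Odd (orderOf y) → y ∈ E) ∧
      (∀ y ∈ Subgroup.normalClosure ((sSup F : Subgroup X) : Set X), y ^ 2 ∈ E) ∧
      (∀ y ∈ Subgroup.normalClosure ((sSup F : Subgroup X) : Set X), ∀ k : ℕ, y ^ (2 ^ k) = 1 →
        y ^ 2 ∈ Subgroup.centralizer (Subgroup.normalClosure (Z : Set X) : Set X)) ∧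
      (∀ i, D i ∈ E) ∧
      (∀ i, ∀ j ∈ Subgroup.normalClosure ((sSup F : Subgroup X) : Set X),
        j * D i * j⁻¹ * (D i)⁻¹ ∈ Subgroup.centralizer (Subgroup.normalClosure (Z : Set X) : Set X) ∨
        j * D i * j⁻¹ * D i ∈ Subgroup.centralizer (Subgroup.normalClosure (Z : Set X) : Set X)) ∧
      E ≤ Subgroup.centralizer (Subgroup.normalClosure (Z : Set X) : Set X) ⊔ closure (Set.range D) ∧
      (∀ j ∈ Subgroup.normalClosure ((sSup F : Subgroup X) : Set X),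
        j ∉ Subgroup.centralizer (Subgroup.normalClosure (Z : Set X) : Set X) →
        (∃ k : ℕ, j ^ (2 ^ k) = 1) → ∃ i, j * D i * j⁻¹ * D i ∈
          Subgroup.centralizer (Subgroup.normalClosure (Z : Set X) : Set X) ∧
          D i ∉ Subgroup.centralizer (Subgroup.normalClosure (Z : Set X) : Set X)) := by
  classical
  set V := Subgroup.normalClosure (Z : Set X) with hV
  haveI hVn : V.Normal := Subgroup.normalClosure_normal
  have hO : Cfsg.pCore 2 (X ⧸ Subgroup.centralizer (V : Set X)) = ⊥ := hO_of T hZ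
  have hTp : IsPGroup 2 (T : Subgroup X) := T.isPGroup'
  have hbest : ∀ A ∈ F, Cfsg.IsBestOffenderOn 2 V A := fun A hA =>
    hbest_of hsep hTp hVe hVT hO (hF A hA)
  obtain ⟨n, ⟨e⟩⟩ := exists_equiv_closure hsep hVe hO F hbest
  set Y := Subgroup.normalClosure ((sSup F : Subgroup X) : Set X) with hY
  have hLn : (Y.map (piV V)).Normal := (Subgroup.normalClosure_normal).map _ piV_surj
  obtain ⟨E₀, D₀, hE₀n, hE₀c, hE₀3, hE₀o, hE₀L, hE₀s, hE₀t, hD₀E, hD₀c, hE₀g, hD₀m⟩ := coords hLn e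
  have hπ : ∀ x : X, piV V x = 1 ↔ x ∈ Subgroup.centralizer (V : Set X) := by
    intro x
    rw [← MonoidHom.mem_ker, piV_ker]
  choose D hD using fun i => piV_surj (V := V) (D₀ i)
  refine ⟨E₀.comap (piV V), n, D, hE₀n.comap _, ?_, ?_, ?_, ?_, ?_, ?_, ?_, ?_, ?_, ?_⟩
  · intro x hx
    rw [Subgroup.mem_comap, (hπ x).mpr hx]
    exact E₀.one_mem
  · intro x hx y hy
    rw [← hπ, map_mul, map_mul, map_mul, map_inv, map_inv, hE₀c _ hx _ hy]
    simp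
  · intro x hx
    rw [← hπ, map_pow]
    exact hE₀3 _ hx
  · intro y hy hodd
    refine hE₀o _ (Subgroup.mem_map_of_mem _ hy) ?_
    have h1 : orderOf (piV V y) ∣ orderOf y := orderOf_map_dvd _ _
    exact Odd.of_dvd_nat hodd h1
  · intro y hy
    rw [Subgroup.mem_comap, map_pow]
    exact hE₀s _ (Subgroup.mem_map_of_mem _ hy)
  · intro y hy k hk
    rw [← hπ, map_pow]
    refine hE₀t _ (Subgroup.mem_map_of_mem _ hy) k ?_
    rw [← map_pow, hk, map_one]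
  · intro i
    rw [Subgroup.mem_comap, hD]
    exact hD₀E i
  · intro i j hj
    rcases hD₀c i _ (Subgroup.mem_map_of_mem (piV V) hj) with h1 | h1
    · left
      rw [← hπ, map_mul, map_mul, map_mul, map_inv, map_inv, hD, h1]
      simp
    · right
      rw [← hπ, map_mul, map_mul, map_mul, map_inv, hD, h1]
      simp
  · intro x hx
    have h1 : piV V x ∈ closure (Set.range D₀) := hE₀g hx
    have hmap : closure (Set.range D₀) ≤ (closure (Set.range D)).map (piV V) := by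
      rw [closure_le]
      rintro _ ⟨i, rfl⟩
      exact ⟨D i, subset_closure ⟨i, rfl⟩, hD i⟩
    obtain ⟨z, hz, hzx⟩ := hmap h1
    have h2 : z⁻¹ * x ∈ Subgroup.centralizer (V : Set X) := by
      rw [← hπ, map_mul, map_inv, hzx]
      simp
    have e3 : x = z * (z⁻¹ * x) := by group
    rw [e3, sup_comm]
    exact Subgroup.mul_mem_sup hz h2
  · intro j hj hjC hk
    have h1 : piV V j ≠ 1 := fun h => hjC ((hπ j).mp h)
    obtain ⟨k, hk⟩ := hk
    obtain ⟨i, hi1, hi2⟩ := hD₀m _ (Subgroup.mem_map_of_mem (piV V) hj) h1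
      ⟨k, by rw [← map_pow, hk, map_one]⟩
    refine ⟨i, ?_, ?_⟩
    · rw [← hπ, map_mul, map_mul, map_mul, map_inv, hD, hi1]
      simp
    · intro h
      apply hi2
      rw [← hD, (hπ _).mpr h]

end X

variable {G : Type*} [Group G] [Finite G]

/-- The structure of `L` given by Thompson factorization, with coordinates. -/
theorem exists_CE4 {L T : Subgroup G} (hsolv : Group.IsSolvable L) (hTL : IsSylowTwoIn T L)
    (hRc : centralizer (pCoreOf 2 L : Set G) ≤ pCoreOf 2 L) :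
    ∃ C E Y V : Subgroup G, C ≤ E ∧ E ≤ L ∧ L ≤ normalizer (C : Set G) ∧ L ≤ normalizer (E : Set G) ∧
      pCoreOf 2 L ≤ C ∧ (∀ c ∈ C, ∀ z ∈ omegaCenterOf T, c * z = z * c) ∧
      (∀ x ∈ E, ∀ y ∈ E, x * y * x⁻¹ * y⁻¹ ∈ C) ∧ (∀ x ∈ E, x ^ 3 ∈ C) ∧
      thompsonSubgroupOf 2 T ≤ Y ∧ Y ≤ L ∧ L ≤ normalizer (Y : Set G) ∧
      (∀ y ∈ Y, Odd (orderOf y) → y ∈ E) ∧ (∀ y ∈ Y, y ^ 2 ∈ E) ∧
      (∀ y ∈ Y, ∀ k : ℕ, y ^ (2 ^ k) = 1 → y ^ 2 ∈ C) ∧
      L ≤ normalizer (V : Set G) ∧ (∀ c ∈ C, ∀ v ∈ V, c * v = v * c) ∧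
      (∀ c ∈ L, (∀ v ∈ V, c * v = v * c) → c ∈ C) ∧
      V ≤ pCoreOf 2 L ∧ (∀ v ∈ V, v * v = 1) ∧
      (∀ H : Subgroup G, C ≤ H → (∀ d ∈ E, (∀ j ∈ Y, j * d * j⁻¹ * d⁻¹ ∈ C ∨ j * d * j⁻¹ * d ∈ C) → d ∈ H) →
        E ≤ H) ∧
      (∀ j ∈ Y, j ∉ C → (∃ k : ℕ, j ^ (2 ^ k) = 1) → ∃ d ∈ E, d ∉ C ∧
        (∀ j' ∈ Y, j' * d * j'⁻¹ * d⁻¹ ∈ C ∨ j' * d * j'⁻¹ * d ∈ C) ∧ j * d * j⁻¹ * d ∈ C) := by
  classical
  have hsep : Cfsg.IsPSolvable 2 L := Cfsg.Agent.Lib.Core.PSolvable2.isPSolvable_of_isSolvable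
  have hT2 : IsPGroup 2 (T.subgroupOf L) := hTL.2.1.comap_subtype
  have hidx : ¬ 2 ∣ (T.subgroupOf L).index := (isSylowIn_of_two hTL).2.2
  let TX : Sylow 2 L := hT2.toSylow hidx
  have hTX : (TX : Subgroup L) = T.subgroupOf L := rfl
  have hRT : pCoreOf 2 L ≤ T :=
    le_of_normal_of_isSylowIn (isSylowIn_of_two hTL) (pCoreOf_le L) (isPGroup_pCoreOf L)
      (le_normalizer_pCoreOf L)
  set Z : Subgroup L := (omegaCenterOf T).subgroupOf L with hZd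
  have mZ : ∀ z : L, z ∈ Z → (z : G) ∈ T ∧ (∀ t ∈ T, t * (z : G) = z * t) ∧ (z : G) ^ 2 = 1 := by
    intro z hz
    rw [hZd, Subgroup.mem_subgroupOf] at hz
    exact mem_Z₁.mp hz
  have hZ : ∀ z ∈ Z, ∀ t ∈ (TX : Subgroup L), t * z = z * t := by
    intro z hz t ht
    exact Subtype.ext ((mZ z hz).2.1 t ht)
  set RX := Cfsg.pCore 2 L with hRX
  haveI hRXn : RX.Normal := pCore_normal 2 L
  have hRXT : ∀ r ∈ RX, (r : G) ∈ T := fun r hr => hRT ⟨r, hr, rfl⟩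
  set Ω : Subgroup L := omegaOne 2 (RX ⊓ centralizer (RX : Set L)) with hΩ
  haveI hΩn : Ω.Normal := Cfsg.Agent.Lib.QuadAct.Stable.omegaOne_normal inferInstance
  have hΩe : IsElementaryAbelian 2 Ω :=
    Cfsg.Agent.Lib.QuadAct.OmegaZ.isElementaryAbelian_closure
      (fun x hx y hy => (mem_centralizer_iff.mp hy.1.2 x hx.1.1))
      (fun x hx => hx.2)
  have hZΩ : (Z : Set L) ⊆ Ω := by
    intro z hz
    obtain ⟨h1, h2, h3⟩ := mZ z hz
    have h4 : (z : G) ∈ pCoreOf 2 L := hRc (mem_centralizer_iff.mpr fun r hr => h2 r (hRT hr))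
    obtain ⟨r, hr, hre⟩ := h4
    have h5 : r = z := Subtype.ext hre
    refine Subgroup.subset_closure ⟨⟨h5 ▸ hr, mem_centralizer_iff.mpr fun u hu => ?_⟩, ?_⟩
    · exact Subtype.ext (h2 u (hRXT u hu))
    · exact Subtype.ext h3
  set V := normalClosure (Z : Set L) with hV
  have hVΩ : V ≤ Ω := normalClosure_le_normal hZΩ
  have hVe : IsElementaryAbelian 2 V :=
    ⟨⟨⟨fun a b => Subtype.ext
        (Cfsg.Agent.Lib.QuadAct.Basic.comm_of_isMulCommutative hΩe.1 (hVΩ a.2) (hVΩ b.2))⟩⟩,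
      fun a ha => hΩe.2 a (hVΩ ha)⟩
  have hΩR : Ω ≤ RX := by
    rw [hΩ, omegaOne, closure_le]
    exact fun x hx => hx.1.1
  have hVT : V ≤ (TX : Subgroup L) := fun v hv => hRXT v (hΩR (hVΩ hv))
  have hΩC : Ω ≤ centralizer (RX : Set L) := by
    rw [hΩ, omegaOne, closure_le]
    exact fun x hx => hx.1.2
  let F : Set (Subgroup L) := {B | ∃ A : Subgroup G, IsMaxIn 2 T A ∧ B = A.subgroupOf L}
  have hF : ∀ A ∈ F, LE2 (TX : Subgroup L) A := by
    rintro _ ⟨A, hA, rfl⟩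
    have hAL : A ≤ L := hA.1.trans hTL.1
    refine ⟨fun a ha => hA.1 ha, ?_, fun B hBT hBe => ?_⟩
    · exact IsAbExp.comap_of_injective hA.2.1 L.subtype L.subtype_injective
    · have h1 : B.map L.subtype ≤ T := by
        rintro _ ⟨b, hb, rfl⟩
        exact hBT hb
      have h2 := hA.2.2 (B.map L.subtype) h1 (IsAbExp.map hBe L.subtype)
      have h3 : Nat.card (B.map L.subtype) = Nat.card B :=
        (Nat.card_congr (B.equivMapOfInjective _ L.subtype_injective).toEquiv).symm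
      have h4 : Nat.card (A.subgroupOf L) = Nat.card A :=
        Nat.card_congr (Subgroup.subgroupOfEquivOfLe hAL).toEquiv
      rw [h4, ← h3]
      exact h2
  obtain ⟨E, n, D, hEn, hCE, hEc, hE3, hEo, hEs, hEt, hDE, hDc, hEg, hDm⟩ := exists_E2 hsep TX hZ hVe hVT F hF
  haveI hVn : V.Normal := normalClosure_normal
  have hCn : (centralizer (V : Set L)).Normal := inferInstance
  set Y₀ := normalClosure ((sSup F : Subgroup L) : Set L) with hY₀
  have hY₀n : Y₀.Normal := normalClosure_normal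
  have hnorm : ∀ {N : Subgroup L}, N.Normal → L ≤ normalizer ((N.map L.subtype : Subgroup G) : Set G) := by
    intro N hN l hl
    refine nrm_of_conj ?_ ?_
    · rintro _ ⟨n, hn, rfl⟩
      exact ⟨⟨l, hl⟩ * n * ⟨l, hl⟩⁻¹, hN.conj_mem n hn _, by simp⟩
    · rintro _ ⟨n, hn, rfl⟩
      exact ⟨⟨l, hl⟩⁻¹ * n * ⟨l, hl⟩⁻¹⁻¹, hN.conj_mem n hn _, by simp⟩
  have hcoe : ∀ {x : L}, x ∈ centralizer (V : Set L) ↔
      (x : G) ∈ (centralizer (V : Set L)).map L.subtype := by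
    intro x
    constructor
    · intro h
      exact ⟨x, h, rfl⟩
    · rintro ⟨x', hx', e⟩
      have : x' = x := Subtype.ext e
      rwa [← this]
  refine ⟨(centralizer (V : Set L)).map L.subtype, E.map L.subtype, Y₀.map L.subtype,
    V.map L.subtype,
    Subgroup.map_mono hCE, map_subtype_le _, hnorm hCn, hnorm hEn, ?_, ?_, ?_, ?_, ?_,
    map_subtype_le _, hnorm hY₀n, ?_, ?_, ?_, hnorm hVn, ?_, ?_, ?_, ?_, ?_, ?_⟩
  · rintro _ ⟨r, hr, rfl⟩
    refine ⟨r, mem_centralizer_iff.mpr fun v hv => ?_, rfl⟩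
    exact (mem_centralizer_iff.mp (hΩC (hVΩ hv)) r hr).symm
  · rintro _ ⟨c, hc, rfl⟩ z hz
    have hzL : z ∈ L := hTL.1 ((mem_Z₁.mp hz).1)
    have hzZ : (⟨z, hzL⟩ : L) ∈ V := Subgroup.le_normalClosure (by
      show (⟨z, hzL⟩ : L) ∈ Z
      rw [hZd, Subgroup.mem_subgroupOf]
      exact hz)
    have := mem_centralizer_iff.mp hc _ hzZ
    exact (congrArg Subtype.val this).symm
  · rintro _ ⟨x, hx, rfl⟩ _ ⟨y, hy, rfl⟩
    exact ⟨_, hEc x hx y hy, by simp⟩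
  · rintro _ ⟨x, hx, rfl⟩
    exact ⟨_, hE3 x hx, by simp⟩
  · rw [thompsonSubgroupOf_eq]
    refine sSup_le fun A hA a ha => ?_
    have hAL : A ≤ L := hA.1.trans hTL.1
    refine ⟨⟨a, hAL ha⟩, Subgroup.le_normalClosure ?_, rfl⟩
    exact (le_sSup (show A.subgroupOf L ∈ F from ⟨A, hA, rfl⟩)) (by
      rw [Subgroup.mem_subgroupOf]
      exact ha)
  · rintro _ ⟨y, hy, rfl⟩ hodd
    refine ⟨y, hEo y hy ?_, rfl⟩
    rwa [← Subgroup.orderOf_coe]
  · rintro _ ⟨y, hy, rfl⟩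
    exact ⟨_, hEs y hy, by simp⟩
  · rintro _ ⟨y, hy, rfl⟩ k hk
    refine ⟨_, hEt y hy k (Subtype.ext (by simpa using hk)), by simp⟩
  · rintro _ ⟨c, hc, rfl⟩ _ ⟨v, hv, rfl⟩
    exact (congrArg Subtype.val (mem_centralizer_iff.mp hc v hv)).symm
  · intro c hc hcv
    refine ⟨⟨c, hc⟩, mem_centralizer_iff.mpr fun v hv => ?_, rfl⟩
    exact Subtype.ext (hcv v ⟨v, hv, rfl⟩).symm
  · rintro _ ⟨v, hv, rfl⟩
    exact ⟨v, hΩR (hVΩ hv), rfl⟩
  · rintro _ ⟨v, hv, rfl⟩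
    have := hVe.2 v hv
    rw [pow_two] at this
    exact congrArg Subtype.val this
  · intro H hCH hgen
    have hDH : ∀ i, ((D i : L) : G) ∈ H := by
      intro i
      refine hgen _ ⟨D i, hDE i, rfl⟩ ?_
      rintro _ ⟨j, hj, rfl⟩
      rcases hDc i j hj with h1 | h1
      · left
        exact ⟨_, h1, by simp⟩
      · right
        exact ⟨_, h1, by simp⟩
    have hle : (centralizer (V : Set L) ⊔ closure (Set.range D)).map L.subtype ≤ H := by
      rw [Subgroup.map_sup]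
      refine sup_le hCH ?_
      rw [MonoidHom.map_closure, closure_le]
      rintro _ ⟨_, ⟨i, rfl⟩, rfl⟩
      exact hDH i
    exact (Subgroup.map_mono hEg).trans hle
  · rintro _ ⟨j, hj, rfl⟩ hjC ⟨k, hk⟩
    have hjC' : j ∉ centralizer (V : Set L) := fun h => hjC (hcoe.mp h)
    obtain ⟨i, hi1, hi2⟩ := hDm j hj hjC' ⟨k, Subtype.ext (by simpa using hk)⟩
    refine ⟨(D i : G), ⟨D i, hDE i, rfl⟩, fun h => hi2 (hcoe.mpr h), ?_, ⟨_, hi1, by simp⟩⟩
    rintro _ ⟨j', hj', rfl⟩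
    rcases hDc i j' hj' with h1 | h1
    · left
      exact ⟨_, h1, by simp⟩
    · right
      exact ⟨_, h1, by simp⟩

/-- The structure of a member of the family `ℒ(T)`. -/
structure CE (L T C E Y V : Subgroup G) : Prop where
  hT : IsPGroup 2 T
  hTL : IsSylowTwoIn T L
  hCE : C ≤ E
  hEL : E ≤ L
  hLC : L ≤ normalizer (C : Set G)
  hLE : L ≤ normalizer (E : Set G)
  hRC : pCoreOf 2 L ≤ C
  hEc : ∀ x ∈ E, ∀ y ∈ E, x * y * x⁻¹ * y⁻¹ ∈ C
  hE3 : ∀ x ∈ E, x ^ 3 ∈ C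
  hJY : thompsonSubgroupOf 2 T ≤ Y
  hYL : Y ≤ L
  hLY : L ≤ normalizer (Y : Set G)
  hYE : ∀ y ∈ Y, Odd (orderOf y) → y ∈ E
  hYs : ∀ y ∈ Y, y ^ 2 ∈ E
  hYt : ∀ y ∈ Y, ∀ k : ℕ, y ^ (2 ^ k) = 1 → y ^ 2 ∈ C
  hLV : L ≤ normalizer (V : Set G)
  hCV : ∀ c ∈ C, ∀ v ∈ V, c * v = v * c
  hVC : ∀ c ∈ L, (∀ v ∈ V, c * v = v * c) → c ∈ C
  hVR : V ≤ pCoreOf 2 L
  hVe : ∀ v ∈ V, v * v = 1
  hgen : ∀ H : Subgroup G, C ≤ H → (∀ d ∈ E, (∀ j ∈ Y, j * d * j⁻¹ * d⁻¹ ∈ C ∨ j * d * j⁻¹ * d ∈ C) → d ∈ H) →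
        E ≤ H
  hexist : ∀ j ∈ Y, j ∉ C → (∃ k : ℕ, j ^ (2 ^ k) = 1) → ∃ d ∈ E, d ∉ C ∧
        (∀ j' ∈ Y, j' * d * j'⁻¹ * d⁻¹ ∈ C ∨ j' * d * j'⁻¹ * d ∈ C) ∧ j * d * j⁻¹ * d ∈ C
  hCT : C ≤ normalizer (T : Set G)
  h2R : ∀ y ∈ C, ∀ n : ℕ, orderOf y = 2 ^ n → y ∈ pCoreOf 2 L
  hTC : ∀ c ∈ C, ∀ t ∈ T, c * t * c⁻¹ * t⁻¹ ∈ pCoreOf 2 L

theorem exists_CE5 {L T : Subgroup G}
    (hZ : ∀ S : Sylow 2 G, centralizer (omegaCenterOf (S : Subgroup G) : Set G) ≤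
      normalizer ((S : Subgroup G) : Set G)) (hsolv : Group.IsSolvable L) (hT : IsPGroup 2 T)
    (hTL : IsSylowTwoIn T L)
    (hRc : centralizer (pCoreOf 2 L : Set G) ≤ pCoreOf 2 L) :
    ∃ C E Y V : Subgroup G, CE L T C E Y V := by
  obtain ⟨C, E, Y, V, hCE, hEL, hLC, hLE, hRC, hCZ, hEc, hE3, hJY, hYL, hLY, hYE, hYs, hYt, hLV, hCV, hVC,
    hVR, hVe, hgen, hexist⟩ := exists_CE4 hsolv hTL hRc
  refine ⟨C, E, Y, V, ?_⟩
  set R := pCoreOf 2 L with hR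
  have hCL : C ≤ L := hCE.trans hEL
  have hs := isSylowIn_of_two hTL
  have hCT : C ≤ normalizer (T : Set G) := fun c hc =>
    nrm_of_conj (fun t ht => conj_mem_T hZ hT hTL hRc (hCL hc) (hCZ c hc) ht)
      (fun t ht => by
        have := conj_mem_T hZ hT hTL hRc (L.inv_mem (hCL hc)) (hCZ _ (C.inv_mem hc)) ht
        simpa using this)
  have h2T : ∀ y ∈ C, ∀ n : ℕ, orderOf y = 2 ^ n → y ∈ T := by
    intro y hy n hn
    have hD : T ⊔ C ≤ L := sup_le hTL.1 hCL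
    have hDs := isSylowIn_of_le hs (le_sup_left : T ≤ T ⊔ C) hD
    exact mem_of_SN_of_sylow (SN.of_le_normalizer le_sup_left (sup_le Subgroup.le_normalizer hCT))
      hDs le_rfl (Subgroup.mem_sup_right hy) hn
  have h2R : ∀ y ∈ C, ∀ n : ℕ, orderOf y = 2 ^ n → y ∈ R := by
    intro y hy n hn
    set X : Set G := {x | x ∈ C ∧ ∃ m : ℕ, orderOf x = 2 ^ m} with hX
    have hMT : closure X ≤ T := (closure_le _).mpr fun x hx => by
      obtain ⟨h1, m, hm⟩ := hx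
      exact h2T x h1 m hm
    have hXconj : ∀ g ∈ L, ∀ x ∈ X, g * x * g⁻¹ ∈ X := by
      rintro g hg x ⟨h1, m, hm⟩
      refine ⟨conj_mem (hLC hg) h1, m, ?_⟩
      have := MulEquiv.orderOf_eq (MulAut.conj g) x
      rw [MulAut.conj_apply] at this
      rw [this, hm]
    have hMR : closure X ≤ R := by
      refine le_pCoreOf (hMT.trans hTL.1) ?_ (hT.to_le hMT)
      intro g hg
      refine nrm_of_conj (Cfsg.Agent.Lib.PointStab.Step.conj_mem_closure (hXconj g hg)) ?_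
      intro z hz
      have := Cfsg.Agent.Lib.PointStab.Step.conj_mem_closure (hXconj g⁻¹ (L.inv_mem hg)) z hz
      rwa [inv_inv] at this
    exact hMR (Subgroup.subset_closure ⟨hy, n, hn⟩)
  have hTC : ∀ c ∈ C, ∀ t ∈ T, c * t * c⁻¹ * t⁻¹ ∈ R := by
    intro c hc t ht
    have h1 : c * t * c⁻¹ * t⁻¹ ∈ T := T.mul_mem (conj_mem (hCT hc) ht) (T.inv_mem ht)
    have h2 : c * t * c⁻¹ * t⁻¹ ∈ C := by
      have e : c * t * c⁻¹ * t⁻¹ = c * (t * c⁻¹ * t⁻¹) := by group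
      rw [e]
      exact C.mul_mem hc (conj_mem (hLC (hTL.1 ht)) (C.inv_mem hc))
    obtain ⟨k, hk⟩ := (IsPGroup.iff_orderOf.mp hT) ⟨_, h1⟩
    exact h2R _ h2 k (by rwa [Subgroup.orderOf_mk] at hk)
  exact ⟨hT, hTL, hCE, hEL, hLC, hLE, hRC, hEc, hE3, hJY, hYL, hLY, hYE, hYs, hYt, hLV, hCV, hVC, hVR, hVe,
    hgen, hexist, hCT, h2R, hTC⟩

theorem exists_three_mul (s : ℕ) : ∃ t, 4 ^ s = 3 * t + 1 := by
  induction s with
  | zero => exact ⟨0, rfl⟩
  | succ s ih =>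
    obtain ⟨t, ht⟩ := ih
    exact ⟨4 * t + 1, by rw [pow_succ, ht]; ring⟩

namespace CE

variable {L T C E Y V : Subgroup G} (h : CE L T C E Y V)

include h

theorem hCL : C ≤ L := h.hCE.trans h.hEL

theorem hJT : thompsonSubgroupOf 2 T ≤ T := by
  rw [thompsonSubgroupOf_eq]
  exact Cfsg.Agent.Lib.PLocal.Thompson.jOf_le 2 T

theorem hRT : pCoreOf 2 L ≤ T :=
  le_of_normal_of_isSylowIn (isSylowIn_of_two h.hTL) (pCoreOf_le L) (isPGroup_pCoreOf L)
    (le_normalizer_pCoreOf L)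

/-- Elements of `T` lying in `Y` square into `O₂(L)`. -/
theorem sq_mem {j : G} (hjT : j ∈ T) (hjY : j ∈ Y) : j * j ∈ pCoreOf 2 L := by
  obtain ⟨k, hk⟩ := (IsPGroup.iff_orderOf.mp h.hT) ⟨j, hjT⟩
  have hk' : orderOf j = 2 ^ k := by rwa [Subgroup.orderOf_mk] at hk
  have h1 : j ^ 2 ∈ C := h.hYt j hjY k (by rw [← hk', pow_orderOf_eq_one])
  rw [pow_two] at h1
  obtain ⟨m, hm⟩ := (IsPGroup.iff_orderOf.mp h.hT) ⟨j * j, T.mul_mem hjT hjT⟩
  exact h.h2R _ h1 m (by rwa [Subgroup.orderOf_mk] at hm)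

/-- An element of `J` moving `d` yields an element `a` of a maximal subgroup inverting `d`. -/
theorem exists_a {d j₀ : G} (hdE : d ∈ E) (hdC : d ∉ C)
    (hpm : ∀ j ∈ Y, j * d * j⁻¹ * d⁻¹ ∈ C ∨ j * d * j⁻¹ * d ∈ C)
    (hj₀ : j₀ ∈ thompsonSubgroupOf 2 T) (hmove : j₀ * d * j₀⁻¹ * d ∈ C) :
    ∃ A, IsMaxIn 2 T A ∧ ∃ a ∈ A, a * d * a⁻¹ * d ∈ C := by
  by_contra hcon
  push Not at hcon
  have hdL : d ∈ L := h.hEL hdE
  have hall : ∀ j ∈ thompsonSubgroupOf 2 T, j * d * j⁻¹ * d⁻¹ ∈ C := by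
    let Sd : Subgroup G :=
      { carrier := {g | g ∈ L ∧ g * d * g⁻¹ * d⁻¹ ∈ C}
        one_mem' := ⟨one_mem _, by simp⟩
        mul_mem' := by
          rintro g₁ g₂ ⟨h1, h2⟩ ⟨h3, h4⟩
          refine ⟨mul_mem h1 h3, ?_⟩
          have e : g₁ * g₂ * d * (g₁ * g₂)⁻¹ * d⁻¹ =
              (g₁ * (g₂ * d * g₂⁻¹ * d⁻¹) * g₁⁻¹) * (g₁ * d * g₁⁻¹ * d⁻¹) := by group
          rw [e]
          exact C.mul_mem (conj_mem (h.hLC h1) h4) h2
        inv_mem' := by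
          rintro g ⟨h1, h2⟩
          refine ⟨inv_mem h1, ?_⟩
          have e : g⁻¹ * d * g⁻¹⁻¹ * d⁻¹ = g⁻¹ * (g * d * g⁻¹ * d⁻¹)⁻¹ * g := by group
          rw [e]
          exact conj_inv_mem (h.hLC h1) (C.inv_mem h2) }
    have hle : thompsonSubgroupOf 2 T ≤ Sd := by
      rw [thompsonSubgroupOf_eq]
      refine sSup_le fun A hA a ha => ⟨h.hTL.1 (hA.1 ha), ?_⟩
      have haY : a ∈ Y := h.hJY (by rw [thompsonSubgroupOf_eq]; exact hA.le_jOf ha)
      rcases hpm a haY with h1 | h1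
      · exact h1
      · exact absurd h1 (hcon A hA a ha)
    exact fun j hj => (hle hj).2
  have h1 := hall j₀ hj₀
  have h2 : d * d ∈ C := by
    have e' : (j₀ * d * j₀⁻¹ * d⁻¹)⁻¹ * (j₀ * d * j₀⁻¹ * d) = d * d := by group
    rw [← e']
    exact C.mul_mem (C.inv_mem h1) hmove
  apply hdC
  have h3 := h.hE3 d hdE
  have e : d = d ^ 3 * (d * d)⁻¹ := by
    rw [eq_mul_inv_iff_mul_eq]
    simp only [pow_succ, pow_zero, one_mul, mul_assoc]
  rw [e]
  exact C.mul_mem h3 (C.inv_mem h2)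

/-- From `d` to an element of order three inverted by `a`. -/
theorem exists_y {A : Subgroup G} {a d : G} (hA : IsMaxIn 2 T A) (haA : a ∈ A) (hdE : d ∈ E) (hdC : d ∉ C)
    (hmove : a * d * a⁻¹ * d ∈ C) :
    ∃ y ∈ E, y ^ 3 = 1 ∧ a * y * a⁻¹ = y⁻¹ ∧ y * d⁻¹ ∈ C := by
  have haa : a * a = 1 := by
    have := hA.2.1.pow haA
    rwa [pow_two] at this
  have hainv : a⁻¹ = a := inv_eq_of_mul_eq_one_left haa
  have haT : a ∈ T := hA.1 haA
  have haL : a ∈ L := h.hTL.1 haT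
  have hdL : d ∈ L := h.hEL hdE
  set y₀ := d⁻¹ * (a * d * a⁻¹) with hy₀
  have hy₀E : y₀ ∈ E := E.mul_mem (E.inv_mem hdE) (conj_mem (h.hLE haL) hdE)
  have hy₀inv : a * y₀ * a⁻¹ = y₀⁻¹ := by
    rw [hy₀, hainv]
    calc a * (d⁻¹ * (a * d * a)) * a = a * d⁻¹ * a * d * (a * a) := by group
      _ = a⁻¹ * d⁻¹ * a⁻¹ * d := by rw [haa, hainv]; group
      _ = _ := by group
  have hy₀d : y₀ * d⁻¹ ∈ C := by
    set c := a * d * a⁻¹ * d with hc
    have e : y₀ * d⁻¹ = (d⁻¹ * c * d) * (d ^ 3)⁻¹ := by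
      rw [hy₀, hc]
      simp only [pow_succ, pow_zero, one_mul]
      group
    rw [e]
    exact C.mul_mem (conj_inv_mem (h.hLC hdL) hmove) (C.inv_mem (h.hE3 d hdE))
  obtain ⟨s, m, hm, hn⟩ := Nat.exists_eq_two_pow_mul_odd (orderOf_pos y₀).ne'
  obtain ⟨t, ht⟩ := exists_three_mul s
  set y := y₀ ^ (4 ^ s) with hy
  have hyE : y ∈ E := E.pow_mem hy₀E _
  have hyodd : Odd (orderOf y) := by
    have h1 : y ^ m = 1 := by
      have e : y ^ m = (y₀ ^ (2 ^ s * m)) ^ (2 ^ s) := by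
        rw [hy, ← pow_mul, ← pow_mul]
        congr 1
        rw [show (4 : ℕ) = 2 ^ 2 by norm_num, ← pow_mul, mul_comm 2 s, pow_mul]
        ring
      rw [e, ← hn, pow_orderOf_eq_one, one_pow]
    exact Odd.of_dvd_nat hm (orderOf_dvd_of_pow_eq_one h1)
  have hyy₀ : y * y₀⁻¹ ∈ C := by
    have e : y * y₀⁻¹ = (y₀ ^ 3) ^ t := by
      rw [hy, ht, pow_succ, ← pow_mul]
      group
    rw [e]
    exact C.pow_mem (h.hE3 _ hy₀E) t
  have hyd : y * d⁻¹ ∈ C := by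
    have e : y * d⁻¹ = (y * y₀⁻¹) * (y₀ * d⁻¹) := by group
    rw [e]
    exact C.mul_mem hyy₀ hy₀d
  have hyinv : a * y * a⁻¹ = y⁻¹ := by
    rw [hy, ← conj_pow, hy₀inv, inv_pow]
  -- `y ^ 3 = 1`
  have hy3C : y ^ 3 ∈ C := h.hE3 y hyE
  have hconj3 : a * (y ^ 3)⁻¹ * a⁻¹ = y ^ 3 := by
    have e : a * (y ^ 3)⁻¹ * a⁻¹ = ((a * y * a⁻¹) ^ 3)⁻¹ := by
      rw [conj_pow]
      group
    rw [e, hyinv, inv_pow, inv_inv]
  have h6 : y ^ 3 * y ^ 3 ∈ pCoreOf 2 L := by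
    have := h.hTC _ hy3C a haT
    have e : y ^ 3 * a * (y ^ 3)⁻¹ * a⁻¹ = y ^ 3 * (a * (y ^ 3)⁻¹ * a⁻¹) := by group
    rwa [e, hconj3] at this
  have h61 : y ^ 3 * y ^ 3 = 1 := by
    obtain ⟨k, hk⟩ := (IsPGroup.iff_orderOf.mp (isPGroup_pCoreOf (p := 2) L)) ⟨_, h6⟩
    have hk' : orderOf (y ^ 3 * y ^ 3) = 2 ^ k := by rwa [Subgroup.orderOf_mk] at hk
    have h1 : orderOf (y ^ 3 * y ^ 3) ∣ orderOf y := by
      rw [← pow_add]
      exact orderOf_pow_dvd _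
    rw [hk'] at h1
    have h2 : k = 0 := by
      by_contra hne
      have h3 : 2 ∣ orderOf y := (dvd_pow_self 2 hne).trans h1
      obtain ⟨q, hq⟩ := hyodd
      omega
    rw [h2, pow_zero] at hk'
    exact orderOf_eq_one_iff.mp hk'
  have hy3 : y ^ 3 = 1 := by
    have h1 : orderOf y ∣ 2 * 3 := by
      apply orderOf_dvd_of_pow_eq_one
      have e : y ^ (2 * 3) = y ^ 3 * y ^ 3 := by rw [two_mul, pow_add]
      rw [e, h61]
    have hco : Nat.Coprime (orderOf y) 2 := Nat.coprime_two_right.mpr hyodd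
    have h2 : orderOf y ∣ 3 := hco.dvd_of_dvd_mul_left h1
    exact orderOf_dvd_iff_pow_eq_one.mp h2
  exact ⟨y, hyE, hy3, hyinv, hyd⟩

/-- Moving to `O₂(L)`. -/
theorem plus_mem {y t : G} (hy : y ∈ L) (htT : t ∈ T) (htY : t ∈ Y) (hc : t * y * t⁻¹ * y⁻¹ ∈ C) :
    t * y * t⁻¹ * y⁻¹ ∈ pCoreOf 2 L := by
  have hR := le_normalizer_pCoreOf (p := 2) L
  set c := t * y * t⁻¹ * y⁻¹ with hcd
  have ht2 := h.sq_mem htT htY
  have h1 : t * t * y * (t * t)⁻¹ * y⁻¹ ∈ pCoreOf 2 L := by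
    have e : t * t * y * (t * t)⁻¹ * y⁻¹ = (t * t) * (y * (t * t)⁻¹ * y⁻¹) := by group
    rw [e]
    exact mul_mem ht2 (conj_mem (hR hy) (inv_mem ht2))
  have e2 : t * t * y * (t * t)⁻¹ * y⁻¹ = (t * c * t⁻¹) * c := by
    rw [hcd]
    group
  set u := c * t * c⁻¹ * t⁻¹ with hu
  have huR : u ∈ pCoreOf 2 L := h.hTC c hc t htT
  have e3 : t * c * t⁻¹ = u⁻¹ * c := by
    rw [hu]
    group
  rw [e2, e3] at h1
  have h2 : c * c ∈ pCoreOf 2 L := by
    have e4 : c * c = u * (u⁻¹ * c * c) := by group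
    rw [e4]
    exact mul_mem huR h1
  exact mem_of_sq_mem h.h2R hc h2

/-- The action of `J` on `y`. -/
theorem j_act {A : Subgroup G} {a d y j : G} (hA : IsMaxIn 2 T A) (haA : a ∈ A) (hdE : d ∈ E)
    (hpm : ∀ j ∈ Y, j * d * j⁻¹ * d⁻¹ ∈ C ∨ j * d * j⁻¹ * d ∈ C) (hyE : y ∈ E)
    (hyinv : a * y * a⁻¹ = y⁻¹) (hyd : y * d⁻¹ ∈ C) (hj : j ∈ thompsonSubgroupOf 2 T) :
    j * y * j⁻¹ * y⁻¹ ∈ pCoreOf 2 L ∨ j * y * j⁻¹ * y ∈ pCoreOf 2 L := by
  have hjT : j ∈ T := h.hJT hj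
  have hjY : j ∈ Y := h.hJY hj
  have hjL : j ∈ L := h.hTL.1 hjT
  have hyL : y ∈ L := h.hEL hyE
  have hdL : d ∈ L := h.hEL hdE
  have haJ : a ∈ thompsonSubgroupOf 2 T := by
    rw [thompsonSubgroupOf_eq]
    exact hA.le_jOf haA
  set w := y * d⁻¹ with hw
  have hwj : j * w * j⁻¹ ∈ C := conj_mem (h.hLC hjL) hyd
  rcases hpm j hjY with h1 | h1
  · left
    apply h.plus_mem hyL hjT hjY
    have e : j * y * j⁻¹ * y⁻¹ = (j * w * j⁻¹) * (j * d * j⁻¹ * d⁻¹) * w⁻¹ := by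
      rw [hw]
      group
    rw [e]
    exact C.mul_mem (C.mul_mem hwj h1) (C.inv_mem hyd)
  · right
    have hc : j * y * j⁻¹ * y ∈ C := by
      have e : j * y * j⁻¹ * y = (j * w * j⁻¹) * (j * d * j⁻¹ * d) * (d⁻¹ * w * d) := by
        rw [hw]
        group
      rw [e]
      exact C.mul_mem (C.mul_mem hwj h1) (conj_inv_mem (h.hLC hdL) hyd)
    set c := j * y * j⁻¹ * y with hcd
    -- pass to `t = j a`
    have htJ : j * a ∈ thompsonSubgroupOf 2 T := mul_mem hj haJ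
    have e1 : (j * a) * y * (j * a)⁻¹ * y⁻¹ = (y * c * y⁻¹)⁻¹ := by
      have e2 : (j * a) * y * (j * a)⁻¹ = j * (a * y * a⁻¹) * j⁻¹ := by group
      rw [e2, hyinv, hcd]
      group
    have h2 : (j * a) * y * (j * a)⁻¹ * y⁻¹ ∈ C := by
      rw [e1]
      exact C.inv_mem (conj_mem (h.hLC hyL) hc)
    have h3 := h.plus_mem hyL (h.hJT htJ) (h.hJY htJ) h2
    rw [e1] at h3
    have hR := le_normalizer_pCoreOf (p := 2) L
    have h4 := conj_inv_mem (hR hyL) (inv_mem h3)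
    rw [inv_inv] at h4
    have e3 : y⁻¹ * (y * c * y⁻¹) * y = c := by group
    rwa [e3] at h4

/-- Construction of a component from a moved coordinate element. -/
theorem exists_K {d j₀ : G} (hdE : d ∈ E) (hdC : d ∉ C)
    (hpm : ∀ j ∈ Y, j * d * j⁻¹ * d⁻¹ ∈ C ∨ j * d * j⁻¹ * d ∈ C)
    (hj₀ : j₀ ∈ thompsonSubgroupOf 2 T) (hmove : j₀ * d * j₀⁻¹ * d ∈ C) :
    ∃ K, IsJComponent T K ∧ K ≤ L ∧ ∃ y ∈ K, y * d⁻¹ ∈ C := by
  obtain ⟨A, hA, a, haA, ha⟩ := h.exists_a hdE hdC hpm hj₀ hmove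
  obtain ⟨y, hyE, hy3, hyinv, hyd⟩ := h.exists_y hA haA hdE hdC ha
  have hyC : y ∉ C := by
    intro hy
    apply hdC
    have e : d = (y * d⁻¹)⁻¹ * y := by group
    rw [e]
    exact C.mul_mem (C.inv_mem hyd) hy
  have hBD : BD L T (pCoreOf 2 L) V A y a := by
    refine ⟨h.hTL, h.hRT, le_normalizer_pCoreOf L, h.hEL hyE, hy3, fun hm => hyC (h.hRC hm),
      fun j hj => h.j_act hA haA hdE hpm hyE hyinv hyd hj, hA, haA, ?_, h.hVR,
      fun q hq v hv => h.hCV q (h.hRC hq) v hv, h.hVe, h.hLV, ?_⟩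
    · rw [hyinv, inv_mul_cancel]
      exact one_mem _
    · by_contra hcon
      push Not at hcon
      apply hyC
      refine h.hVC y (h.hEL hyE) fun v hv => ?_
      have := hcon v hv
      rwa [mul_inv_eq_iff_eq_mul] at this
  obtain ⟨K, hK, hKL, hyK⟩ := exists_of_BD hBD
  exact ⟨K, hK, hKL, y, hyK, hyd⟩

end CE

/-- Existence of `J(T)`-components in members of `ℒ(T)`. -/
theorem exists_jcomp {L T : Subgroup G}
    (hZ : ∀ S : Sylow 2 G, centralizer (omegaCenterOf (S : Subgroup G) : Set G) ≤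
      normalizer ((S : Subgroup G) : Set G)) (hsolv : Group.IsSolvable L) (hT : IsPGroup 2 T)
    (hTL : IsSylowTwoIn T L)
    (hRc : centralizer (pCoreOf 2 L : Set G) ≤ pCoreOf 2 L)
    (hJ : ¬ thompsonSubgroupOf 2 T ≤ pCoreOf 2 L) :
    ∃ K, IsJComponent T K ∧ K ≤ L := by
  obtain ⟨C, E, Y, V, h⟩ := exists_CE5 hZ hsolv hT hTL hRc
  obtain ⟨j, hj, hjR⟩ := SetLike.not_le_iff_exists.mp hJ
  have hjT : j ∈ T := h.hJT hj
  obtain ⟨k, hk⟩ := (IsPGroup.iff_orderOf.mp hT) ⟨j, hjT⟩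
  have hk' : orderOf j = 2 ^ k := by rwa [Subgroup.orderOf_mk] at hk
  have hjC : j ∉ C := fun hc => hjR (h.h2R j hc k hk')
  obtain ⟨d, hdE, hdC, hpm, hmove⟩ := h.hexist j (h.hJY hj) hjC ⟨k, by rw [← hk', pow_orderOf_eq_one]⟩
  obtain ⟨K, hK, hKL, -⟩ := h.exists_K hdE hdC hpm hj hmove
  exact ⟨K, hK, hKL⟩

/-- `T ∩ X` is Sylow in `X` if `T` is Sylow in `L ≥ X` and normalizes `X`. -/
theorem isSylow_inf {L T X : Subgroup G} (hT : IsSylowTwoIn T L) (hX : X ≤ L)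
    (hn : T ≤ normalizer (X : Set G)) : IsSylowTwoIn (T ⊓ X) X := by
  refine ⟨inf_le_right, hT.2.1.to_le inf_le_left, ?_⟩
  have h1 := Cfsg.Agent.Lib.QuadAct.Basic.card_sup_mul_card_inf_of_le_normalizer T X hn
  have h2 := card_eq_card_mul_relIndex (inf_le_left : T ⊓ X ≤ T)
  have h2' := card_eq_card_mul_relIndex (inf_le_right : T ⊓ X ≤ X)
  have h3 := card_eq_card_mul_relIndex (le_sup_left : T ≤ T ⊔ X)
  have hs := isSylowIn_of_le (isSylowIn_of_two hT) (le_sup_left : T ≤ T ⊔ X) (sup_le hT.1 hX)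
  have h4 : (T ⊓ X).relIndex X = T.relIndex (T ⊔ X) := by
    have h5 : 0 < Nat.card ↥(T ⊓ X) := Nat.card_pos
    have h6 : 0 < Nat.card T := Nat.card_pos
    apply Nat.eq_of_mul_eq_mul_left (Nat.mul_pos h5 h6)
    calc Nat.card ↥(T ⊓ X) * Nat.card T * (T ⊓ X).relIndex X
        = Nat.card T * (Nat.card ↥(T ⊓ X) * (T ⊓ X).relIndex X) := by ring
      _ = Nat.card T * Nat.card X := by rw [← h2']
      _ = Nat.card ↥(T ⊔ X) * Nat.card ↥(T ⊓ X) := h1.symm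
      _ = Nat.card T * T.relIndex (T ⊔ X) * Nat.card ↥(T ⊓ X) := by rw [← h3]
      _ = _ := by ring
  rw [h4, ← Nat.not_even_iff_odd, even_iff_two_dvd]
  exact hs.2.2

/-- Frattini. -/
theorem frattini {S N : Subgroup G} (h : IsSylowTwoIn S N) {g : G}
    (hg : g ∈ normalizer (N : Set G)) : ∃ x ∈ N, x⁻¹ * g ∈ normalizer (S : Set G) := by
  have h1 := isSylow_map h g
  have hNe : N.map (MulAut.conj g).toMonoidHom = N := Subgroup.mem_normalizer_iff_map_conj_eq.mp hg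
  rw [hNe] at h1
  obtain ⟨x, hx, hxe⟩ := exists_conj_sylow h h1
  refine ⟨x, hx, mem_normalizer_of_conj_le fun s hs => ?_⟩
  have h2 : g * s * g⁻¹ ∈ S.map (MulAut.conj x).toMonoidHom := by
    rw [← hxe]
    exact ⟨s, hs, rfl⟩
  obtain ⟨s', hs', he⟩ := h2
  have he' : x * s' * x⁻¹ = g * s * g⁻¹ := he
  have e : x⁻¹ * g * s * (x⁻¹ * g)⁻¹ = s' := by
    have : x⁻¹ * g * s * (x⁻¹ * g)⁻¹ = x⁻¹ * (g * s * g⁻¹) * x := by group
    rw [this, ← he']
    group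
  rw [e]
  exact hs'

/-- `J(T)` is normalized by the normalizer of `T`. -/
theorem norm_thompson {T : Subgroup G} {g : G} (hg : g ∈ normalizer (T : Set G)) :
    g ∈ normalizer (thompsonSubgroupOf 2 T : Set G) := by
  rw [thompsonSubgroupOf_eq, Subgroup.mem_normalizer_iff_map_conj_eq]
  have h1 := Cfsg.Agent.Lib.PLocal.Thompson.jOf_conj 2 T g
  have hTe : T.map (MulAut.conj g).toMonoidHom = T := Subgroup.mem_normalizer_iff_map_conj_eq.mp hg
  rw [hTe] at h1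
  exact h1

namespace CE

variable {L T C E Y V : Subgroup G} (h : CE L T C E Y V)

include h

/-- The generation statement: `L` is generated by `T`, `N_L(J(T))` and the `J(T)`-components. -/
theorem L_le {H : Subgroup G} (hTH : T ≤ H)
    (hNH : L ⊓ normalizer (thompsonSubgroupOf 2 T : Set G) ≤ H)
    (hK : ∀ K, IsJComponent T K → K ≤ L → K ≤ H) : L ≤ H := by
  haveI : Fact (Nat.Prime 2) := ⟨Nat.prime_two⟩
  set J := thompsonSubgroupOf 2 T with hJ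
  have hJT : J ≤ T := h.hJT
  have hTL := h.hTL.1
  have hCH : C ≤ H := fun c hc => hNH ⟨h.hCL hc, norm_thompson (h.hCT hc)⟩
  have hJH : J ≤ H := hJT.trans hTH
  have hJt : T ≤ normalizer (J : Set G) := le_normalizer_thompson T
  have hEH : E ≤ H := by
    refine h.hgen H hCH fun d hdE hpm => ?_
    have hdL : d ∈ L := h.hEL hdE
    by_cases hdC : d ∈ C
    · exact hCH hdC
    by_cases hmoved : ∃ j ∈ J, j * d * j⁻¹ * d ∈ C
    · obtain ⟨j, hj, hm⟩ := hmoved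
      obtain ⟨K, hK', hKL, y, hyK, hyd⟩ := h.exists_K hdE hdC hpm hj hm
      have hy : y ∈ H := hK K hK' hKL hyK
      have e : d = (y * d⁻¹)⁻¹ * y := by group
      rw [e]
      exact H.mul_mem (H.inv_mem (hCH hyd)) hy
    · push Not at hmoved
      have hfix : ∀ j ∈ J, j * d * j⁻¹ * d⁻¹ ∈ C := fun j hj =>
        (hpm j (h.hJY hj)).resolve_right (hmoved j hj)
      set X := J ⊔ C with hX
      have hXL : X ≤ L := sup_le (hJT.trans hTL) h.hCL
      have hXH : X ≤ H := sup_le hJH hCH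
      have hTX : T ≤ normalizer (X : Set G) := by
        intro t ht
        apply mem_normalizer_of_conj_le
        have hle : X.map (MulAut.conj t).toMonoidHom ≤ X := by
          rw [hX, Subgroup.map_sup]
          refine sup_le ?_ ?_
          · rintro _ ⟨j, hj, rfl⟩
            exact mem_sup_left (conj_mem (hJt ht) hj)
          · rintro _ ⟨c, hc, rfl⟩
            exact mem_sup_right (conj_mem (h.hLC (hTL ht)) hc)
        exact fun x hx => hle ⟨x, hx, rfl⟩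
      have hs := isSylow_inf h.hTL hXL hTX
      have hdX : d ∈ normalizer (X : Set G) := by
        apply mem_normalizer_of_conj_le
        have hle : X.map (MulAut.conj d).toMonoidHom ≤ X := by
          rw [hX, Subgroup.map_sup]
          refine sup_le ?_ ?_
          · rintro _ ⟨j, hj, rfl⟩
            show d * j * d⁻¹ ∈ _
            have e : d * j * d⁻¹ = (j * d * j⁻¹ * d⁻¹)⁻¹ * j := by group
            rw [e]
            exact mul_mem (mem_sup_right (C.inv_mem (hfix j hj))) (mem_sup_left hj)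
          · rintro _ ⟨c, hc, rfl⟩
            exact mem_sup_right (conj_mem (h.hLC hdL) hc)
        exact fun x hx => hle ⟨x, hx, rfl⟩
      obtain ⟨x, hx, hxn⟩ := frattini hs hdX
      have hJeq : thompsonSubgroupOf 2 (T ⊓ X) = J := by
        rw [thompsonSubgroupOf_eq, hJ, thompsonSubgroupOf_eq]
        refine jOf_eq_of_le inf_le_left ?_
        rw [← thompsonSubgroupOf_eq, ← hJ]
        exact le_inf hJT le_sup_left
      have h2 := norm_thompson hxn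
      rw [hJeq] at h2
      have h3 : x⁻¹ * d ∈ H := hNH ⟨L.mul_mem (L.inv_mem (hXL hx)) hdL, h2⟩
      have e : d = x * (x⁻¹ * d) := by group
      rw [e]
      exact H.mul_mem (hXH hx) h3
  -- the normal subgroup
  set N := Y ⊔ E with hN
  have hNL : N ≤ L := sup_le h.hYL h.hEL
  have hLN : L ≤ normalizer (N : Set G) := by
    intro g hg
    apply mem_normalizer_of_conj_le
    have hle : N.map (MulAut.conj g).toMonoidHom ≤ N := by
      rw [hN, Subgroup.map_sup]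
      refine sup_le ?_ ?_
      · rintro _ ⟨j, hj, rfl⟩
        exact mem_sup_left (conj_mem (h.hLY hg) hj)
      · rintro _ ⟨c, hc, rfl⟩
        exact mem_sup_right (conj_mem (h.hLE hg) hc)
    exact fun x hx => hle ⟨x, hx, rfl⟩
  have hs := isSylow_inf h.hTL hNL (hTL.trans hLN)
  have hNE : N ≤ normalizer (E : Set G) := hNL.trans h.hLE
  have hsq : ∀ x ∈ N, x ^ 2 ∈ E := by
    intro x hx
    obtain ⟨y, hy, e, he, rfl⟩ := Cfsg.Agent.Lib.Components.Basic.mem_sup_of_le_normalizer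
      (h.hYL.trans h.hLE) hx
    have e1 : (y * e) ^ 2 = y ^ 2 * (y⁻¹ * e * y) * e := by
      simp only [pow_two]
      group
    rw [e1]
    exact E.mul_mem (E.mul_mem (h.hYs y hy) (conj_inv_mem (h.hLE (h.hYL hy)) he)) he
  have hNH' : N ≤ H := by
    set D := N ⊓ H with hD
    have h1 : D.relIndex N ∣ (T ⊓ N).relIndex N :=
      Subgroup.relIndex_dvd_of_le_left _ (le_inf inf_le_right (inf_le_left.trans hTH))
    have h2 : D.relIndex N ∣ E.relIndex N :=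
      Subgroup.relIndex_dvd_of_le_left _ (le_inf le_sup_right hEH)
    haveI hEn : (E.subgroupOf N).Normal := Subgroup.normal_subgroupOf_of_le_normalizer hNE
    have hQ : IsPGroup 2 (↥N ⧸ E.subgroupOf N) := by
      intro q
      obtain ⟨x, rfl⟩ := QuotientGroup.mk_surjective q
      refine ⟨1, ?_⟩
      rw [pow_one, ← QuotientGroup.mk_pow, QuotientGroup.eq_one_iff, Subgroup.mem_subgroupOf]
      simpa using hsq x x.2
    obtain ⟨m, hm⟩ := IsPGroup.iff_card.mp hQ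
    have h3 : E.relIndex N = 2 ^ m := by
      rw [Subgroup.relIndex, Subgroup.index_eq_card, hm]
    rw [h3] at h2
    have hodd := hs.2.2
    have h4 : Odd (D.relIndex N) := Odd.of_dvd_nat hodd h1
    obtain ⟨b, -, hb⟩ := (Nat.dvd_prime_pow Nat.prime_two).mp h2
    have hb0 : b = 0 := by
      by_contra hne
      have h5 : 2 ∣ D.relIndex N := by
        rw [hb]
        exact dvd_pow_self 2 hne
      obtain ⟨q, hq⟩ := h4
      omega
    rw [hb0, pow_zero] at hb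
    exact (Subgroup.relIndex_eq_one.mp hb).trans inf_le_right
  intro g hg
  obtain ⟨x, hx, hxn⟩ := frattini hs (hLN hg)
  have hJeq : thompsonSubgroupOf 2 (T ⊓ N) = J := by
    rw [thompsonSubgroupOf_eq, hJ, thompsonSubgroupOf_eq]
    refine jOf_eq_of_le inf_le_left ?_
    rw [← thompsonSubgroupOf_eq, ← hJ]
    exact le_inf hJT (h.hJY.trans le_sup_left)
  have h2 := norm_thompson hxn
  rw [hJeq] at h2
  have h3 : x⁻¹ * g ∈ H := hNH ⟨L.mul_mem (L.inv_mem (hNL hx)) hg, h2⟩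
  have e : g = x * (x⁻¹ * g) := by group
  rw [e]
  exact H.mul_mem (hNH' hx) h3

end CE

end Cfsg.Agent.Lib.JSub.Exist
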