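import Cfsg.Agent.Lib.JSub.Sn

/-!
# An elementary abelian subgroup of a `2`-group with an order-three action inverted by an element of a
largest elementary abelian subgroup is a four-group
-/

set_option autoImplicit false
set_option linter.unusedSectionVars false
set_option linter.unusedSimpArgs false
set_option linter.style.haveILetI false

namespace Cfsg.Agent.Lib.JSub.F4

open Cfsg Subgroup
open Cfsg.Agent.Lib.PLocal.Thompson (IsMaxIn jOf thompsonSubgroupOf_eq IsAbExp)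
open Cfsg.Agent.Lib.LocalEven.JComp (two_mul_card_le zpow_mem_of_sq)
open Cfsg.Agent.Lib.LocalEven.JComp.Setup (mem_sup_zpowers)
open Cfsg.Agent.Lib.LocalEven.Util (mem_normalizer_of_conj_le)
open Cfsg.Agent.Lib.QuadAct.Basic (card_sup_mul_card_inf_of_le_normalizer)

variable {G : Type*} [Group G] [Finite G]

theorem card_le_two_mul_of_cover {B A : Subgroup G} {a : G} (h : ∀ b ∈ A, b ∈ B ∨ a * b ∈ B) :
    Nat.card A ≤ 2 * Nat.card B := by
  classical
  have hsub : (A : Set G) ⊆ (B : Set G) ∪ (fun y => a⁻¹ * y) '' (B : Set G) := by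
    intro b hb
    rcases h b hb with h1 | h1
    · left
      exact h1
    · right
      exact ⟨a * b, h1, by simp⟩
  have h1 := Set.ncard_le_ncard hsub (Set.toFinite _)
  have h2 := Set.ncard_union_le (B : Set G) ((fun y => a⁻¹ * y) '' (B : Set G))
  have h3 : ((fun y => a⁻¹ * y) '' (B : Set G)).ncard ≤ (B : Set G).ncard :=
    Set.ncard_image_le (Set.toFinite _)
  have e1 : Nat.card A = (A : Set G).ncard := (Nat.card_coe_set_eq _)
  have e2 : Nat.card B = (B : Set G).ncard := (Nat.card_coe_set_eq _)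
  omega

/-- A fixed point of a `2`-group on a quotient of normal sections. -/
theorem exists_fix_above {P N K : Subgroup G} (hP : IsPGroup 2 P) (hNK : N < K) (hKP : K ≤ P)
    (hNn : P ≤ normalizer (N : Set G)) (hKn : P ≤ normalizer (K : Set G)) :
    ∃ v ∈ K, v ∉ N ∧ ∀ b ∈ P, v⁻¹ * (b * v * b⁻¹) ∈ N := by
  classical
  haveI : Fact (Nat.Prime 2) := ⟨Nat.prime_two⟩
  haveI hN' : (N.subgroupOf P).Normal := Subgroup.normal_subgroupOf_of_le_normalizer hNn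
  haveI hK' : (K.subgroupOf P).Normal := Subgroup.normal_subgroupOf_of_le_normalizer hKn
  have hlt : N.subgroupOf P < K.subgroupOf P := by
    obtain ⟨x, hxK, hxN⟩ := SetLike.exists_of_lt hNK
    refine lt_of_le_of_ne (Subgroup.comap_mono hNK.le) ?_
    intro he
    have h1 : (⟨x, hKP hxK⟩ : P) ∈ K.subgroupOf P := Subgroup.mem_subgroupOf.mpr hxK
    rw [← he] at h1
    exact hxN (Subgroup.mem_subgroupOf.mp h1)
  obtain ⟨L, hLn, hNL, hLK, hi⟩ :=
    Cfsg.Agent.Lib.PGroups.Basic.exists_normal_relIndex_above (G := P) (p := 2) hP hlt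
  have hne : ¬ L ≤ N.subgroupOf P := by
    intro h
    have := Subgroup.relIndex_eq_one.mpr h
    omega
  obtain ⟨v, hvL, hvN⟩ := SetLike.not_le_iff_exists.mp hne
  have hidx : ((N.subgroupOf P).subgroupOf L).index = 2 := hi
  refine ⟨(v : G), Subgroup.mem_subgroupOf.mp (hLK hvL), fun h => hvN (Subgroup.mem_subgroupOf.mpr h), ?_⟩
  intro b hb
  set b' : P := ⟨b, hb⟩ with hb'
  have hx : b' * v * b'⁻¹ ∈ L := hLn.conj_mem v hvL b'
  have hxN : b' * v * b'⁻¹ ∉ N.subgroupOf P := by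
    intro h
    apply hvN
    have := hN'.conj_mem _ h b'⁻¹
    simpa [mul_assoc] using this
  have hm := Subgroup.mul_mem_iff_of_index_two hidx (a := (⟨v⁻¹, L.inv_mem hvL⟩ : L))
    (b := (⟨_, hx⟩ : L))
  have hv1 : (⟨v⁻¹, L.inv_mem hvL⟩ : L) ∉ (N.subgroupOf P).subgroupOf L := by
    intro h
    have h2 : v⁻¹ ∈ N.subgroupOf P := Subgroup.mem_subgroupOf.mp h
    exact hvN (by simpa using (N.subgroupOf P).inv_mem h2)
  have hv2 : (⟨_, hx⟩ : L) ∉ (N.subgroupOf P).subgroupOf L := by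
    intro h
    exact hxN (Subgroup.mem_subgroupOf.mp h)
  have h3 : (⟨v⁻¹, L.inv_mem hvL⟩ : L) * (⟨_, hx⟩ : L) ∈ (N.subgroupOf P).subgroupOf L :=
    hm.mpr (by simp [hv1, hv2])
  have h4 : v⁻¹ * (b' * v * b'⁻¹) ∈ N.subgroupOf P := Subgroup.mem_subgroupOf.mp h3
  have h5 := Subgroup.mem_subgroupOf.mp h4
  simpa using h5

/-- The hypotheses of the four-group lemma. -/
structure F4 (T A W : Subgroup G) (y a : G) : Prop where
  hT : IsPGroup 2 T
  hA : IsMaxIn 2 T A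
  hWT : W ≤ T
  hWe : IsAbExp 2 W
  hW1 : W ≠ ⊥
  hy3 : y ^ 3 = 1
  hyW : ∀ w ∈ W, y * w * y⁻¹ ∈ W
  hN : ∀ w ∈ W, w * (y * w * y⁻¹) * (y * (y * w * y⁻¹) * y⁻¹) = 1
  hAW : ∀ b ∈ A, ∀ w ∈ W, b * w * b⁻¹ ∈ W
  haA : a ∈ A
  hinv : ∀ w ∈ W, a * (y * w * y⁻¹) * a⁻¹ = y⁻¹ * (a * w * a⁻¹) * y
  hcases : ∀ b ∈ A, (∀ w ∈ W, b * (y * w * y⁻¹) * b⁻¹ = y * (b * w * b⁻¹) * y⁻¹) ∨
    (∀ w ∈ W, b * (y * w * y⁻¹) * b⁻¹ = y⁻¹ * (b * w * b⁻¹) * y)

namespace F4

variable {T A W : Subgroup G} {y a : G} (h : F4 T A W y a)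

include h

theorem sq {w : G} (hw : w ∈ W) : w * w = 1 := by
  have := h.hWe.pow hw
  rwa [pow_two] at this

theorem comm {w v : G} (hw : w ∈ W) (hv : v ∈ W) : w * v = v * w := h.hWe.comm hw hv

theorem sqA {b : G} (hb : b ∈ A) : b * b = 1 := by
  have := h.hA.2.1.pow hb
  rwa [pow_two] at this

theorem commA {b c : G} (hb : b ∈ A) (hc : c ∈ A) : b * c = c * b := h.hA.2.1.comm hb hc

theorem invA {b : G} (hb : b ∈ A) : b⁻¹ = b := inv_eq_of_mul_eq_one_left (h.sqA hb)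

theorem yinv : y⁻¹ = y * y := Cfsg.Agent.Lib.JSub.TV.inv_eq_of_cube h.hy3

theorem yinv_conj (w : G) : y⁻¹ * w * y = y * (y * w * y⁻¹) * y⁻¹ := by
  have e : y * (y * w * y⁻¹) * y⁻¹ = (y * y) * w * (y⁻¹ * y⁻¹) := by group
  rw [e, ← h.yinv]
  have e2 : y⁻¹ * y⁻¹ = y := by
    rw [h.yinv]
    have h3 := h.hy3
    have : y * y * (y * y) = y ^ 3 * y := by
      simp only [pow_succ, pow_zero, one_mul, mul_assoc]
    rw [this, h3, one_mul]
  rw [e2]

theorem yinv_mem {w : G} (hw : w ∈ W) : y⁻¹ * w * y ∈ W := by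
  rw [h.yinv_conj]
  exact h.hyW _ (h.hyW _ hw)

theorem eq_one_of_fix {w : G} (hw : w ∈ W) (hf : y * w * y⁻¹ = w) : w = 1 := by
  have h1 := h.hN w hw
  rw [hf, hf, h.sq hw, one_mul] at h1
  exact h1

theorem eq_one_of_fix2 {w : G} (hw : w ∈ W) (hf : y⁻¹ * w * y = y * w * y⁻¹) : w = 1 := by
  rw [h.yinv_conj] at hf
  have h1 : y * w * y⁻¹ = w := by
    have h2 : y * (y * w * y⁻¹) = y * w := mul_right_cancel hf
    exact mul_left_cancel h2
  exact h.eq_one_of_fix hw h1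

/-- `y` and `y⁻¹`-conjugation in the inversion relation. -/
theorem hinv' {w : G} (hw : w ∈ W) : a * (y⁻¹ * w * y) * a⁻¹ = y * (a * w * a⁻¹) * y⁻¹ := by
  have h1 := h.hinv _ (h.yinv_mem hw)
  have e : y * (y⁻¹ * w * y) * y⁻¹ = w := by group
  rw [e] at h1
  rw [h1]
  group

/-- The elements of `A` which commute with `y` on `W`. -/
def A1 : Subgroup G where
  carrier := {b | b ∈ A ∧ ∀ w ∈ W, b * (y * w * y⁻¹) * b⁻¹ = y * (b * w * b⁻¹) * y⁻¹}
  one_mem' := ⟨A.one_mem, fun w _ => by simp⟩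
  mul_mem' := by
    rintro b c ⟨hb, hb'⟩ ⟨hc, hc'⟩
    refine ⟨A.mul_mem hb hc, fun w hw => ?_⟩
    have e : b * c * (y * w * y⁻¹) * (b * c)⁻¹ = b * (c * (y * w * y⁻¹) * c⁻¹) * b⁻¹ := by group
    have e2 : y * (b * c * w * (b * c)⁻¹) * y⁻¹ = y * (b * (c * w * c⁻¹) * b⁻¹) * y⁻¹ := by group
    rw [e, hc' w hw, hb' _ (h.hAW c hc w hw), e2]
  inv_mem' := by
    rintro b ⟨hb, hb'⟩
    have e : b⁻¹ = b := h.invA hb
    show b⁻¹ ∈ A ∧ _
    rw [e]
    exact ⟨hb, hb'⟩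

theorem mem_A1 {b : G} : b ∈ h.A1 ↔ b ∈ A ∧ ∀ w ∈ W, b * (y * w * y⁻¹) * b⁻¹ = y * (b * w * b⁻¹) * y⁻¹ :=
  Iff.rfl

theorem A1_le : h.A1 ≤ A := fun _ hb => hb.1

theorem card_A_le : Nat.card A ≤ 2 * Nat.card h.A1 := by
  apply card_le_two_mul_of_cover (a := a)
  intro b hb
  rcases h.hcases b hb with h1 | h1
  · left
    exact ⟨hb, h1⟩
  · right
    refine ⟨A.mul_mem h.haA hb, fun w hw => ?_⟩
    have e : a * b * (y * w * y⁻¹) * (a * b)⁻¹ = a * (b * (y * w * y⁻¹) * b⁻¹) * a⁻¹ := by group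
    have e2 : y * (a * b * w * (a * b)⁻¹) * y⁻¹ = y * (a * (b * w * b⁻¹) * a⁻¹) * y⁻¹ := by group
    rw [e, h1 w hw, h.hinv' (h.hAW b hb w hw), e2]

theorem inv_cover {b : G} (hb : b ∈ A) : b ∈ h.A1 ∨ a * b ∈ h.A1 := by
  rcases h.hcases b hb with h1 | h1
  · left
    exact ⟨hb, h1⟩
  · right
    refine ⟨A.mul_mem h.haA hb, fun w hw => ?_⟩
    have e : a * b * (y * w * y⁻¹) * (a * b)⁻¹ = a * (b * (y * w * y⁻¹) * b⁻¹) * a⁻¹ := by group
    have e2 : y * (a * b * w * (a * b)⁻¹) * y⁻¹ = y * (a * (b * w * b⁻¹) * a⁻¹) * y⁻¹ := by group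
    rw [e, h1 w hw, h.hinv' (h.hAW b hb w hw), e2]

/-- The fixed points of `A` on `W`. -/
def F (_ : F4 T A W y a) : Subgroup G := W ⊓ centralizer (A : Set G)

theorem mem_F {x : G} : x ∈ h.F ↔ x ∈ W ∧ ∀ b ∈ A, b * x = x * b :=
  ⟨fun hx => ⟨hx.1, fun b hb => (mem_centralizer_iff.mp hx.2 b hb)⟩,
    fun hx => ⟨hx.1, mem_centralizer_iff.mpr hx.2⟩⟩

theorem F_le_A : h.F ≤ A := by
  intro x hx
  obtain ⟨h1, h2⟩ := h.mem_F.mp hx
  exact h.hA.mem_of_commute (h.hWT h1) (h.hWe.pow h1) h2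

/-- The basic count. -/
theorem count {B D : Subgroup G} (hB : B ≤ A) (hD : D ≤ W) (hc : ∀ b ∈ B, ∀ d ∈ D, b * d = d * b) :
    Nat.card B * Nat.card D ≤ Nat.card A * Nat.card ↥(B ⊓ D) := by
  have h1 : IsAbExp 2 (B ⊔ D) := (h.hA.2.1.mono hB).sup (h.hWe.mono hD) hc
  have h2 : B ⊔ D ≤ T := sup_le (hB.trans h.hA.1) (hD.trans h.hWT)
  have h3 := h.hA.2.2 _ h2 h1
  have hn : B ≤ normalizer (D : Set G) := by
    intro b hb
    apply mem_normalizer_of_conj_le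
    intro d hd
    rw [hc b hb d hd, mul_inv_cancel_right]
    exact hd
  have h4 := card_sup_mul_card_inf_of_le_normalizer B D hn
  rw [← h4]
  exact Nat.mul_le_mul_right _ h3

theorem inf_le_F {B D : Subgroup G} (hB : B ≤ A) (hD : D ≤ W) : B ⊓ D ≤ h.F := by
  intro x hx
  exact h.mem_F.mpr ⟨hD hx.2, fun b hb => h.commA hb (hB hx.1)⟩

theorem count' {B D : Subgroup G} (hB : B ≤ A) (hD : D ≤ W) (hc : ∀ b ∈ B, ∀ d ∈ D, b * d = d * b) :
    Nat.card B * Nat.card D ≤ Nat.card A * Nat.card h.F :=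
  (h.count hB hD hc).trans
    (Nat.mul_le_mul_left _ (Nat.card_le_card_of_injective _ (Subgroup.inclusion_injective (h.inf_le_F hB hD))))

theorem le_P : W ⊔ A ≤ T := sup_le h.hWT h.hA.1

theorem isP : IsPGroup 2 (W ⊔ A : Subgroup G) := h.hT.to_le h.le_P

theorem W_norm : W ⊔ A ≤ normalizer (W : Set G) := by
  refine sup_le Subgroup.le_normalizer ?_
  intro b hb
  exact mem_normalizer_of_conj_le (h.hAW b hb)

theorem F_ne_bot : ∃ e ∈ h.F, e ≠ 1 := by
  have hne : (⊥ : Subgroup G) < W := bot_lt_iff_ne_bot.mpr h.hW1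
  obtain ⟨v, hv, hv1, hv2⟩ := exists_fix_above h.isP hne le_sup_left
    (by
      intro x _
      apply mem_normalizer_of_conj_le
      intro z hz
      rw [mem_bot] at hz ⊢
      simp [hz]) h.W_norm
  refine ⟨v, h.mem_F.mpr ⟨hv, fun b hb => ?_⟩, fun hv3 => hv1 (by rw [hv3]; exact one_mem _)⟩
  have h1 := hv2 b (mem_sup_right hb)
  rw [mem_bot] at h1
  have h2 : b * v * b⁻¹ = v := by
    have := inv_mul_eq_one.mp h1
    exact this.symm
  rw [mul_inv_eq_iff_eq_mul] at h2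
  exact h2

theorem card_F_le : Nat.card h.F ≤ 2 := by
  set F' : Subgroup G := h.F.map (MulAut.conj y).toMonoidHom with hF'
  have hmemF' : ∀ x ∈ F', ∃ f ∈ h.F, x = y * f * y⁻¹ := by
    rintro _ ⟨f, hf, rfl⟩
    exact ⟨f, hf, rfl⟩
  have hF'W : F' ≤ W := by
    intro x hx
    obtain ⟨f, hf, rfl⟩ := hmemF' x hx
    exact h.hyW _ (h.mem_F.mp hf).1
  have hc : ∀ b ∈ h.A1, ∀ d ∈ F', b * d = d * b := by
    intro b hb d hd
    obtain ⟨f, hf, rfl⟩ := hmemF' d hd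
    obtain ⟨hf1, hf2⟩ := h.mem_F.mp hf
    have h1 := hb.2 f hf1
    have h2 : b * f * b⁻¹ = f := by
      rw [hf2 b hb.1, mul_inv_cancel_right]
    rw [h2] at h1
    rw [mul_inv_eq_iff_eq_mul] at h1
    exact h1
  have h1 := h.count h.A1_le hF'W hc
  have hbot : h.A1 ⊓ F' = ⊥ := by
    rw [eq_bot_iff]
    rintro x ⟨hx1, hx2⟩
    obtain ⟨f, hf, rfl⟩ := hmemF' x hx2
    obtain ⟨hf1, hf2⟩ := h.mem_F.mp hf
    have h3 := h.hinv f hf1
    have h4 : a * f * a⁻¹ = f := by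
      rw [hf2 a h.haA, mul_inv_cancel_right]
    rw [h4] at h3
    have h5 : a * (y * f * y⁻¹) * a⁻¹ = y * f * y⁻¹ := by
      rw [h.commA h.haA hx1.1, mul_inv_cancel_right]
    rw [h5] at h3
    have h6 := h.eq_one_of_fix2 hf1 h3.symm
    rw [mem_bot, h6]
    group
  rw [hbot, Subgroup.card_bot, mul_one] at h1
  have h2 : Nat.card F' = Nat.card h.F :=
    Subgroup.card_map_of_injective (MulAut.conj y).injective
  rw [h2] at h1
  have h3 := h.card_A_le
  have h4 : 0 < Nat.card h.A1 := Nat.card_pos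
  have h5 : Nat.card h.A1 * Nat.card h.F ≤ Nat.card h.A1 * 2 := by
    rw [mul_comm (Nat.card h.A1) 2]
    exact h1.trans h3
  exact Nat.le_of_mul_le_mul_left h5 h4

theorem exists_e : ∃ e ∈ h.F, e ≠ 1 ∧ ∀ x ∈ h.F, x = 1 ∨ x = e := by
  obtain ⟨e, he, he1⟩ := h.F_ne_bot
  have hee : e * e = 1 := h.sq (h.mem_F.mp he).1
  refine ⟨e, he, he1, ?_⟩
  have hle : zpowers e ≤ h.F := zpowers_le.mpr he
  have hcard : Nat.card (zpowers e) = 2 := by
    rw [Nat.card_zpowers]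
    haveI : Fact (Nat.Prime 2) := ⟨Nat.prime_two⟩
    exact orderOf_eq_prime (by rw [pow_two]; exact hee) he1
  have heq : zpowers e = h.F := Subgroup.eq_of_le_of_card_ge hle (by rw [hcard]; exact h.card_F_le)
  intro x hx
  rw [← heq] at hx
  exact zpow_mem_of_sq hee hx

/-- The fixed points of `A1` on `W`. -/
def E1 : Subgroup G := W ⊓ centralizer (h.A1 : Set G)

theorem mem_E1 {x : G} : x ∈ h.E1 ↔ x ∈ W ∧ ∀ b ∈ h.A1, b * x = x * b :=
  ⟨fun hx => ⟨hx.1, fun b hb => (mem_centralizer_iff.mp hx.2 b hb)⟩,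
    fun hx => ⟨hx.1, mem_centralizer_iff.mpr hx.2⟩⟩

theorem conj_fix {b x : G} (hb : b ∈ h.A1) (hx : x ∈ h.E1) : b * x * b⁻¹ = x := by
  rw [(h.mem_E1.mp hx).2 b hb, mul_inv_cancel_right]

theorem E1_psi {x : G} (hx : x ∈ h.E1) : y * x * y⁻¹ ∈ h.E1 := by
  refine h.mem_E1.mpr ⟨h.hyW _ (h.mem_E1.mp hx).1, fun b hb => ?_⟩
  have h1 := hb.2 x (h.mem_E1.mp hx).1
  rw [h.conj_fix hb hx, mul_inv_eq_iff_eq_mul] at h1
  exact h1

theorem E1_psi_inv {x : G} (hx : x ∈ h.E1) : y⁻¹ * x * y ∈ h.E1 := by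
  rw [h.yinv_conj]
  exact h.E1_psi (h.E1_psi hx)

theorem card_E1_le : Nat.card h.E1 ≤ 4 := by
  have h1 := h.count' h.A1_le (inf_le_left : h.E1 ≤ W) (fun b hb d hd => (h.mem_E1.mp hd).2 b hb)
  have h2 := h.card_A_le
  have h3 := h.card_F_le
  have h4 : 0 < Nat.card h.A1 := Nat.card_pos
  have h5 : Nat.card h.A1 * Nat.card h.E1 ≤ Nat.card h.A1 * 4 := by
    calc _ ≤ Nat.card A * Nat.card h.F := h1
      _ ≤ (2 * Nat.card h.A1) * 2 := Nat.mul_le_mul h2 h3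
      _ = _ := by ring
  exact Nat.le_of_mul_le_mul_left h5 h4

theorem F_le_E1 : h.F ≤ h.E1 := by
  intro x hx
  obtain ⟨h1, h2⟩ := h.mem_F.mp hx
  exact h.mem_E1.mpr ⟨h1, fun b hb => h2 b hb.1⟩

theorem card_E1_ge : 4 ≤ Nat.card h.E1 := by
  obtain ⟨e, he, he1, -⟩ := h.exists_e
  have heW := (h.mem_F.mp he).1
  have hee : e * e = 1 := h.sq heW
  have hle : zpowers e ≤ h.E1 := zpowers_le.mpr (h.F_le_E1 he)
  have hcard : Nat.card (zpowers e) = 2 := by
    rw [Nat.card_zpowers]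
    haveI : Fact (Nat.Prime 2) := ⟨Nat.prime_two⟩
    exact orderOf_eq_prime (by rw [pow_two]; exact hee) he1
  have hnot : y * e * y⁻¹ ∉ zpowers e := by
    intro hm
    rcases zpow_mem_of_sq hee hm with h1 | h1
    · apply he1
      have : y * e * y⁻¹ = y * 1 * y⁻¹ := by rw [h1]; group
      have h2 : y * e = y * 1 := mul_right_cancel this
      exact mul_left_cancel h2
    · exact he1 (h.eq_one_of_fix heW h1)
  have := two_mul_card_le hle (h.E1_psi (h.F_le_E1 he)) hnot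
  omega

/-- `A` normalizes `E1`. -/
theorem P_norm_E1 : W ⊔ A ≤ normalizer (h.E1 : Set G) := by
  refine sup_le ?_ ?_
  · intro w hw
    apply mem_normalizer_of_conj_le
    intro x hx
    rw [h.comm hw (h.mem_E1.mp hx).1, mul_inv_cancel_right]
    exact hx
  · intro c hc
    apply mem_normalizer_of_conj_le
    intro x hx
    refine h.mem_E1.mpr ⟨h.hAW c hc x (h.mem_E1.mp hx).1, fun b hb => ?_⟩
    have h1 : b * x = x * b := (h.mem_E1.mp hx).2 b hb
    have hbc : b * c = c * b := h.commA hb.1 hc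
    have hbc' : b * c⁻¹ = c⁻¹ * b := by
      rw [h.invA hc]
      exact hbc
    calc b * (c * x * c⁻¹) = (b * c) * x * c⁻¹ := by group
      _ = c * (b * x) * c⁻¹ := by rw [hbc]; group
      _ = c * x * (b * c⁻¹) := by rw [h1]; group
      _ = c * x * c⁻¹ * b := by rw [hbc']; group

/-- The main point: `A1` acts trivially on `W`. -/
theorem E1_eq : h.E1 = W := by
  by_contra hne
  have hlt : h.E1 < W := lt_of_le_of_ne inf_le_left hne
  obtain ⟨v, hvW, hvE, hv⟩ := exists_fix_above h.isP hlt le_sup_left h.P_norm_E1 h.W_norm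
  obtain ⟨e, he, he1, hF⟩ := h.exists_e
  have heW := (h.mem_F.mp he).1
  have hvv : v * v = 1 := h.sq hvW
  -- the values of the commutators
  have hφF : ∀ b ∈ h.A1, v⁻¹ * (b * v * b⁻¹) ∈ h.F := by
    intro b hb
    refine h.mem_F.mpr ⟨(h.mem_E1.mp (hv b (mem_sup_right hb.1))).1, fun c hc => ?_⟩
    set x := v⁻¹ * (c * v * c⁻¹) with hx
    have hxE : x ∈ h.E1 := hv c (mem_sup_right hc)
    have hcx : c * v * c⁻¹ = v * x := by rw [hx]; group
    have hbx : b * x * b⁻¹ = x := h.conj_fix hb hxE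
    have hbc : c * b = b * c := h.commA hc hb.1
    set p := v⁻¹ * (b * v * b⁻¹) with hp
    have hpW : p ∈ W := (h.mem_E1.mp (hv b (mem_sup_right hb.1))).1
    have e1 : c * p * c⁻¹ = (c * v * c⁻¹)⁻¹ * (b * (c * v * c⁻¹) * b⁻¹) := by
      calc c * p * c⁻¹ = (c * v * c⁻¹)⁻¹ * ((c * b) * v * (c * b)⁻¹) := by rw [hp]; group
        _ = (c * v * c⁻¹)⁻¹ * ((b * c) * v * (b * c)⁻¹) := by rw [hbc]
        _ = _ := by group
    have e2 : c * p * c⁻¹ = p := by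
      rw [e1, hcx]
      have e3 : (v * x)⁻¹ * (b * (v * x) * b⁻¹) = x⁻¹ * p * (b * x * b⁻¹) := by rw [hp]; group
      rw [e3, hbx, mul_assoc, h.comm hpW (h.mem_E1.mp hxE).1]
      group
    rw [mul_inv_eq_iff_eq_mul] at e2
    exact e2
  -- an element moving `v`
  have hb₀ : ∃ b₀ ∈ h.A1, b₀ * v ≠ v * b₀ := by
    by_contra hcon
    push Not at hcon
    exact hvE (h.mem_E1.mpr ⟨hvW, hcon⟩)
  obtain ⟨b₀, hb₀, hb₀v⟩ := hb₀
  have hφ₀ : v⁻¹ * (b₀ * v * b₀⁻¹) = e := by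
    rcases hF _ (hφF b₀ hb₀) with h1 | h1
    · exfalso
      apply hb₀v
      have h2 : b₀ * v * b₀⁻¹ = v := by
        have := inv_mul_eq_one.mp h1
        exact this.symm
      rw [mul_inv_eq_iff_eq_mul] at h2
      exact h2
    · exact h1
  have hb₀e : b₀ * v * b₀⁻¹ = v * e := by rw [← hφ₀]; group
  have heb₀ : b₀ * e * b₀⁻¹ = e := by
    rw [(h.mem_F.mp he).2 b₀ hb₀.1, mul_inv_cancel_right]
  -- the stabilizer of `v`
  set B : Subgroup G := h.A1 ⊓ centralizer ({v} : Set G) with hB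
  have hmemB : ∀ {b : G}, b ∈ h.A1 → b * v * b⁻¹ = v → b ∈ B := by
    intro b hb hbv
    refine ⟨hb, mem_centralizer_singleton_iff.mpr ?_⟩
    rw [mul_inv_eq_iff_eq_mul] at hbv
    exact hbv
  have hcovB : ∀ b ∈ h.A1, b ∈ B ∨ b₀ * b ∈ B := by
    intro b hb
    rcases hF _ (hφF b hb) with h1 | h1
    · left
      have h2 : b * v * b⁻¹ = v := (inv_mul_eq_one.mp h1).symm
      exact hmemB hb h2
    · right
      have h2 : b * v * b⁻¹ = v * e := by rw [← h1]; group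
      refine hmemB (h.A1.mul_mem hb₀ hb) ?_
      have e1 : b₀ * b * v * (b₀ * b)⁻¹ = b₀ * (b * v * b⁻¹) * b₀⁻¹ := by group
      have e2 : b₀ * (v * e) * b₀⁻¹ = (b₀ * v * b₀⁻¹) * (b₀ * e * b₀⁻¹) := by group
      rw [e1, h2, e2, hb₀e, heb₀, mul_assoc, h.sq heW, mul_one]
  have hcardB : Nat.card h.A1 ≤ 2 * Nat.card B := card_le_two_mul_of_cover hcovB
  have hBA : B ≤ A := inf_le_left.trans h.A1_le
  -- the fixed points of `B`
  set D : Subgroup G := W ⊓ centralizer (B : Set G) with hD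
  have hmemD : ∀ {x : G}, x ∈ W → (∀ b ∈ B, b * x = x * b) → x ∈ D := fun hx hc =>
    ⟨hx, mem_centralizer_iff.mpr hc⟩
  have hE1D : h.E1 ≤ D := fun x hx =>
    hmemD (h.mem_E1.mp hx).1 fun b hb => (h.mem_E1.mp hx).2 b hb.1
  have hbv : ∀ b ∈ B, b * v = v * b := fun b hb =>
    (mem_centralizer_singleton_iff.mp hb.2)
  have hvD : v ∈ D := hmemD hvW hbv
  have hψv : y * v * y⁻¹ ∈ D := by
    refine hmemD (h.hyW _ hvW) fun b hb => ?_
    have h1 := hb.1.2 v hvW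
    have h2 : b * v * b⁻¹ = v := by rw [hbv b hb, mul_inv_cancel_right]
    rw [h2, mul_inv_eq_iff_eq_mul] at h1
    exact h1
  have hcount := h.count' hBA (inf_le_left : D ≤ W) (fun b hb d hd =>
    mem_centralizer_iff.mp hd.2 b hb)
  have hD8 : Nat.card D ≤ 8 := by
    have h2 := h.card_A_le
    have h3 := h.card_F_le
    have h4 : 0 < Nat.card B := Nat.card_pos
    have h5 : Nat.card B * Nat.card D ≤ Nat.card B * 8 := by
      calc _ ≤ Nat.card A * Nat.card h.F := hcount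
        _ ≤ (2 * (2 * Nat.card B)) * 2 := Nat.mul_le_mul (h2.trans (Nat.mul_le_mul_left _ hcardB)) h3
        _ = _ := by ring
    exact Nat.le_of_mul_le_mul_left h5 h4
  -- the lower bound
  set X : Subgroup G := h.E1 ⊔ zpowers v with hX
  have hXD : X ≤ D := sup_le hE1D (zpowers_le.mpr hvD)
  have h8 : 2 * Nat.card h.E1 ≤ Nat.card X :=
    two_mul_card_le le_sup_left (mem_sup_right (mem_zpowers v)) hvE
  have hnotX : y * v * y⁻¹ ∉ X := by
    intro hm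
    rcases mem_sup_zpowers hvv (fun b hb => h.comm (h.mem_E1.mp hb).1 hvW) hm with h1 | ⟨x, hx, h1⟩
    · apply hvE
      have := h.E1_psi_inv h1
      have e : y⁻¹ * (y * v * y⁻¹) * y = v := by group
      rwa [e] at this
    · apply hvE
      have hxW := (h.mem_E1.mp hx).1
      have h2 := h.hN v hvW
      have e : y * (y * v * y⁻¹) * y⁻¹ = (y * v * y⁻¹) * (y * x * y⁻¹) := by
        calc y * (y * v * y⁻¹) * y⁻¹ = y * (v * x) * y⁻¹ := by rw [h1]
          _ = (y * v * y⁻¹) * (y * x * y⁻¹) := by group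
      rw [e, h1] at h2
      have hxv : x * v = v * x := h.comm hxW hvW
      have e3 : v * (v * x) * (v * x * (y * x * y⁻¹)) = (v * v) * (x * v) * x * (y * x * y⁻¹) := by group
      rw [e3, hvv, one_mul, hxv, mul_assoc v x x, h.sq hxW, mul_one] at h2
      have h3 : v = (y * x * y⁻¹)⁻¹ := eq_inv_of_mul_eq_one_left h2
      rw [h3]
      exact inv_mem (h.E1_psi hx)
  have h16 : 2 * Nat.card X ≤ Nat.card D := two_mul_card_le hXD hψv hnotX
  have h4 := h.card_E1_ge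
  omega

/-- The conclusion. -/
theorem card_eq : Nat.card W = 4 := by
  have h1 := h.card_E1_le
  have h2 := h.card_E1_ge
  rw [h.E1_eq] at h1 h2
  omega

end F4

end Cfsg.Agent.Lib.JSub.F4
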