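import Cfsg.Agent.Lib.LocalEven.JComp

/-!
# Families of commuting four-groups with operators
-/

set_option autoImplicit false
set_option linter.unusedSectionVars false
set_option linter.unusedSimpArgs false
set_option linter.style.haveILetI false

namespace Cfsg.Agent.Lib.JSub.Fam

open Subgroup
open Cfsg.Agent.Lib.LocalEven.JComp (IsFour IsFour.coords comm_of_exp_two)

variable {G : Type*} [Group G] [Finite G]

/-- An operator on a member of a family. -/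
structure Op (𝔚 : Set (Subgroup G)) (L W : Subgroup G) (d : G) : Prop where
  hL : d ∈ L
  hN : ∀ w ∈ W, d * w * d⁻¹ ∈ W
  hfix : ∀ w ∈ W, w ≠ 1 → d * w * d⁻¹ ≠ w
  hcent : ∀ W' ∈ 𝔚, W' ≠ W → ∀ w ∈ W', d * w * d⁻¹ = w
  hcov : ∀ y ∈ W, y ≠ 1 → ∀ z ∈ W, z = 1 ∨ z = y ∨ z = d * y * d⁻¹ ∨ z = (d * d) * y * (d * d)⁻¹

/-- A family of commuting four-groups with operators. -/
structure WF (𝔚 : Set (Subgroup G)) (L V : Subgroup G) : Prop where
  hVe : ∀ v ∈ V, v * v = 1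
  hWV : ∀ W ∈ 𝔚, W ≤ V
  four : ∀ W ∈ 𝔚, IsFour W
  disj : ∀ W ∈ 𝔚, ∀ W' ∈ 𝔚, W ≠ W' → W ⊓ W' = ⊥
  act : ∀ l ∈ L, ∀ W ∈ 𝔚, W.map (MulAut.conj l).toMonoidHom ∈ 𝔚
  op : ∀ W ∈ 𝔚, ∃ d, Op 𝔚 L W d

variable {𝔚 : Set (Subgroup G)} {L V : Subgroup G}

theorem comm_of_le (hV : ∀ v ∈ V, v * v = 1) {a b : G} (ha : a ∈ V) (hb : b ∈ V) : a * b = b * a :=
  comm_of_exp_two hV ha hb

theorem mem_sup_of_comm (hV : ∀ v ∈ V, v * v = 1) {A B : Subgroup G} (hA : A ≤ V) (hB : B ≤ V) {x : G}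
    (hx : x ∈ A ⊔ B) : ∃ a ∈ A, ∃ b ∈ B, a * b = x := by
  have hAB : A ≤ normalizer (B : Set G) := by
    intro a ha
    refine Cfsg.Agent.Lib.LocalEven.Util.mem_normalizer_of_conj_le fun b hb => ?_
    have := comm_of_le hV (hA ha) (hB hb)
    rw [this]
    simpa using hb
  exact Cfsg.Agent.Lib.Components.Basic.mem_sup_of_le_normalizer hAB hx

theorem conj_eq_of_mem_sSup {𝔖 : Set (Subgroup G)} {d : G} (h : ∀ W' ∈ 𝔖, ∀ w ∈ W', d * w * d⁻¹ = w)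
    {b : G} (hb : b ∈ sSup 𝔖) : d * b * d⁻¹ = b := by
  have hle : sSup 𝔖 ≤ centralizer ({d} : Set G) := by
    refine sSup_le fun W' hW' w hw => ?_
    rw [Subgroup.mem_centralizer_singleton_iff]
    have := h W' hW' w hw
    rw [mul_inv_eq_iff_eq_mul] at this
    exact this.symm
  have h1 := Subgroup.mem_centralizer_singleton_iff.mp (hle hb)
  rw [← h1]
  group

namespace WF

variable (F : WF 𝔚 L V)

include F

theorem sSup_le_V {𝔖 : Set (Subgroup G)} (h𝔖 : 𝔖 ⊆ 𝔚) : sSup 𝔖 ≤ V :=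
  sSup_le fun W hW => F.hWV W (h𝔖 hW)

/-- Elements of the product fixed by the operators are trivial. -/
theorem eq_one_of_fix {a : G} (ha : a ∈ sSup 𝔚) (hfix : ∀ W ∈ 𝔚, ∃ d, Op 𝔚 L W d ∧ d * a * d⁻¹ = a) :
    a = 1 := by
  have key : ∀ 𝔖 : Set (Subgroup G), 𝔖 ⊆ 𝔚 → a ∈ sSup 𝔖 → a = 1 := by
    intro 𝔖
    refine Set.Finite.induction_on (motive := fun 𝔖 _ => 𝔖 ⊆ 𝔚 → a ∈ sSup 𝔖 → a = 1) 𝔖 (Set.toFinite 𝔖) ?_ ?_
    · intro _ h
      simpa using h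
    · intro W 𝔖' hW𝔖' _ ih hsub hmem
      have hW : W ∈ 𝔚 := hsub (Set.mem_insert _ _)
      have hsub' : 𝔖' ⊆ 𝔚 := fun x hx => hsub (Set.mem_insert_of_mem _ hx)
      rw [sSup_insert] at hmem
      obtain ⟨w, hw, b, hb, rfl⟩ := mem_sup_of_comm F.hVe (F.hWV W hW) (F.sSup_le_V hsub') hmem
      obtain ⟨d, hd, hda⟩ := hfix W hW
      have hdb : d * b * d⁻¹ = b := conj_eq_of_mem_sSup (fun W' hW' x hx =>
        hd.hcent W' (hsub' hW') (fun h => hW𝔖' (h ▸ hW')) x hx) hb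
      have hw1 : w = 1 := by
        by_contra hne
        apply hd.hfix w hw hne
        have e : d * (w * b) * d⁻¹ = (d * w * d⁻¹) * (d * b * d⁻¹) := by group
        rw [e, hdb] at hda
        exact mul_right_cancel hda
      subst hw1
      rw [one_mul]
      have h5 := ih hsub' (by rwa [one_mul])
      rwa [one_mul] at h5
  exact key 𝔚 subset_rfl ha

/-- Elements of the product can be conjugated into `Z` by `L`. -/
theorem exists_conj (Z : Subgroup G) (hz : ∀ W ∈ 𝔚, ∃ z ∈ W, z ≠ 1 ∧ z ∈ Z) {v : G} (hv : v ∈ sSup 𝔚) :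
    ∃ e ∈ L, e * v * e⁻¹ ∈ sSup 𝔚 ∧ e * v * e⁻¹ ∈ Z := by
  have key : ∀ 𝔖 : Set (Subgroup G), 𝔖 ⊆ 𝔚 → ∀ v ∈ sSup 𝔖, ∃ e ∈ L,
      (∀ W' ∈ 𝔚, W' ∉ 𝔖 → ∀ w ∈ W', e * w * e⁻¹ = w) ∧ e * v * e⁻¹ ∈ sSup 𝔖 ∧ e * v * e⁻¹ ∈ Z := by
    intro 𝔖
    refine Set.Finite.induction_on (motive := fun 𝔖 _ => 𝔖 ⊆ 𝔚 → ∀ v ∈ sSup 𝔖, ∃ e ∈ L,
      (∀ W' ∈ 𝔚, W' ∉ 𝔖 → ∀ w ∈ W', e * w * e⁻¹ = w) ∧ e * v * e⁻¹ ∈ sSup 𝔖 ∧ e * v * e⁻¹ ∈ Z)
      𝔖 (Set.toFinite 𝔖) ?_ ?_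
    · intro _ v hv
      have hv1 : v = 1 := by simpa using hv
      subst hv1
      exact ⟨1, L.one_mem, fun _ _ _ w _ => by group, by simp, by simp⟩
    · intro W 𝔖' hW𝔖' _ ih hsub v hmem
      have hW : W ∈ 𝔚 := hsub (Set.mem_insert _ _)
      have hsub' : 𝔖' ⊆ 𝔚 := fun x hx => hsub (Set.mem_insert_of_mem _ hx)
      rw [sSup_insert] at hmem
      obtain ⟨w, hw, b, hb, rfl⟩ := mem_sup_of_comm F.hVe (F.hWV W hW) (F.sSup_le_V hsub') hmem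
      obtain ⟨e', he'L, he'c, he'b, he'Z⟩ := ih hsub' b hb
      obtain ⟨d, hd⟩ := F.op W hW
      obtain ⟨z, hzW, hz1, hzZ⟩ := hz W hW
      -- the correcting element
      have hcor : ∃ c ∈ L, (∀ W' ∈ 𝔚, W' ≠ W → ∀ x ∈ W', c * x * c⁻¹ = x) ∧ c * w * c⁻¹ ∈ W ∧
          c * w * c⁻¹ ∈ Z := by
        have hdinv : ∀ W' ∈ 𝔚, W' ≠ W → ∀ x ∈ W', d⁻¹ * x * d⁻¹⁻¹ = x := by
          intro W' hW' hne x hx
          have := hd.hcent W' hW' hne x hx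
          calc d⁻¹ * x * d⁻¹⁻¹ = d⁻¹ * (d * x * d⁻¹) * d⁻¹⁻¹ := by rw [this]
            _ = x := by group
        rcases hd.hcov z hzW hz1 w hw with h | h | h | h
        · refine ⟨1, L.one_mem, fun _ _ _ x _ => by group, ?_, ?_⟩ <;> rw [h] <;> simp
        · refine ⟨1, L.one_mem, fun _ _ _ x _ => by group, ?_, ?_⟩ <;> rw [h] <;> simpa using by assumption
        · refine ⟨d⁻¹, L.inv_mem hd.hL, hdinv, ?_, ?_⟩
          · rw [h]
            have e : d⁻¹ * (d * z * d⁻¹) * d⁻¹⁻¹ = z := by group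
            rw [e]
            exact hzW
          · rw [h]
            have e : d⁻¹ * (d * z * d⁻¹) * d⁻¹⁻¹ = z := by group
            rw [e]
            exact hzZ
        · refine ⟨(d * d)⁻¹, L.inv_mem (L.mul_mem hd.hL hd.hL), ?_, ?_, ?_⟩
          · intro W' hW' hne x hx
            have h1 := hdinv W' hW' hne x hx
            calc (d * d)⁻¹ * x * (d * d)⁻¹⁻¹ = d⁻¹ * (d⁻¹ * x * d⁻¹⁻¹) * d⁻¹⁻¹ := by
                  simp only [mul_inv_rev, inv_inv, mul_assoc]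
              _ = x := by rw [h1, h1]
          · rw [h]
            have e : (d * d)⁻¹ * ((d * d) * z * (d * d)⁻¹) * (d * d)⁻¹⁻¹ = z := by group
            rw [e]
            exact hzW
          · rw [h]
            have e : (d * d)⁻¹ * ((d * d) * z * (d * d)⁻¹) * (d * d)⁻¹⁻¹ = z := by group
            rw [e]
            exact hzZ
      obtain ⟨c, hcL, hcc, hcW, hcZ⟩ := hcor
      have hcb : c * (e' * b * e'⁻¹) * c⁻¹ = e' * b * e'⁻¹ := conj_eq_of_mem_sSup (fun W' hW' x hx =>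
        hcc W' (hsub' hW') (fun h => hW𝔖' (h ▸ hW')) x hx) he'b
      have he'w : e' * w * e'⁻¹ = w := he'c W hW hW𝔖' w hw
      have e1 : (c * e') * (w * b) * (c * e')⁻¹ = (c * w * c⁻¹) * (e' * b * e'⁻¹) := by
        calc (c * e') * (w * b) * (c * e')⁻¹
            = c * (e' * w * e'⁻¹) * c⁻¹ * (c * (e' * b * e'⁻¹) * c⁻¹) := by group
          _ = (c * w * c⁻¹) * (e' * b * e'⁻¹) := by rw [he'w, hcb]
      refine ⟨c * e', L.mul_mem hcL he'L, ?_, ?_, ?_⟩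
      · intro W' hW' hnot x hx
        have hne : W' ≠ W := fun h => hnot (h ▸ Set.mem_insert _ _)
        have hnot' : W' ∉ 𝔖' := fun h => hnot (Set.mem_insert_of_mem _ h)
        have h1 := he'c W' hW' hnot' x hx
        have h2 := hcc W' hW' hne x hx
        calc (c * e') * x * (c * e')⁻¹ = c * (e' * x * e'⁻¹) * c⁻¹ := by group
          _ = x := by rw [h1, h2]
      · rw [e1, sSup_insert]
        exact Subgroup.mul_mem_sup hcW he'b
      · rw [e1]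
        exact Z.mul_mem hcZ he'Z
  obtain ⟨e, he, -, h1, h2⟩ := key 𝔚 subset_rfl v hv
  exact ⟨e, he, h1, h2⟩

end WF

/-- Four elements of a four-group. -/
theorem four_cover {W : Subgroup G} (hW : IsFour W) {e₁ e₂ : G} (h₁ : e₁ ∈ W) (h₂ : e₂ ∈ W)
    (h₁1 : e₁ ≠ 1) (h₂1 : e₂ ≠ 1) (hne : e₁ ≠ e₂) : ∀ x ∈ W, x = 1 ∨ x = e₁ ∨ x = e₂ ∨ x = e₁ * e₂ := by
  obtain ⟨u, hu, hu1, hue, hc⟩ := hW.coords h₁ h₁1
  have h11 : e₁ * e₁ = 1 := hW.2 _ h₁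
  rcases hc e₂ h₂ with h | h | h | h
  · exact absurd h h₂1
  · exact absurd h.symm hne
  · subst h
    exact hc
  · have hu' : u = e₁ * e₂ := by
      rw [h, ← mul_assoc, h11, one_mul]
    intro x hx
    rcases hc x hx with h3 | h3 | h3 | h3
    · exact Or.inl h3
    · exact Or.inr (Or.inl h3)
    · exact Or.inr (Or.inr (Or.inr (h3.trans hu')))
    · exact Or.inr (Or.inr (Or.inl (h3.trans h.symm)))


namespace WF

variable (F : WF 𝔚 L V)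

include F

/-- Members met by their conjugates are fixed. -/
theorem map_eq_of_mem {x e : G} (hx : x ∈ L) {W : Subgroup G} (hW : W ∈ 𝔚) (he : e ∈ W) (he1 : e ≠ 1)
    (hxe : x * e * x⁻¹ ∈ W) : ∀ w ∈ W, x * w * x⁻¹ ∈ W := by
  have hmem := F.act x hx W hW
  by_cases heq : W.map (MulAut.conj x).toMonoidHom = W
  · intro w hw
    have : x * w * x⁻¹ ∈ W.map (MulAut.conj x).toMonoidHom := ⟨w, hw, by simp⟩
    rwa [heq] at this
  · exfalso
    have h1 := F.disj _ hmem W hW heq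
    have h2 : x * e * x⁻¹ ∈ W.map (MulAut.conj x).toMonoidHom ⊓ W := ⟨⟨e, he, by simp⟩, hxe⟩
    rw [h1, Subgroup.mem_bot] at h2
    apply he1
    calc e = x⁻¹ * (x * e * x⁻¹) * x := by group
      _ = 1 := by rw [h2]; group

/-- The key lemma on elements of a conjugate of the product lying in `L`. -/
theorem tic (hLV₀ : ∀ l ∈ L, ∀ v ∈ sSup 𝔚, l * v * l⁻¹ ∈ sSup 𝔚)
    (hF1 : ∀ v ∈ sSup 𝔚, v ≠ 1 → ∀ c, c * v = v * c → c ∈ L)
    (hTI : ∀ g, g ∉ L → ∀ x ∈ sSup 𝔚, g * x * g⁻¹ ∈ sSup 𝔚 → x = 1)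
    (h2 : ∃ W₁ ∈ 𝔚, ∃ W₂ ∈ 𝔚, W₁ ≠ W₂) {g a : G} (hg : g ∉ L) (ha : a ∈ sSup 𝔚) (ha1 : a ≠ 1)
    (hu : g * a * g⁻¹ ∈ L) {v : G} (hv : v ∈ sSup 𝔚) :
    (g * a * g⁻¹) * v = v * (g * a * g⁻¹) := by
  have hV₀V : sSup 𝔚 ≤ V := F.sSup_le_V subset_rfl
  have hV₀e : ∀ {x : G}, x ∈ sSup 𝔚 → x * x = 1 := fun hx => F.hVe _ (hV₀V hx)
  have hV₀c : ∀ {x y : G}, x ∈ sSup 𝔚 → y ∈ sSup 𝔚 → x * y = y * x := fun hx hy =>
    comm_of_le F.hVe (hV₀V hx) (hV₀V hy)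
  have hV₀i : ∀ {x : G}, x ∈ sSup 𝔚 → x⁻¹ = x := fun hx => inv_eq_of_mul_eq_one_left (hV₀e hx)
  -- `[X, Y] = 1`
  have h1 : ∀ b ∈ sSup 𝔚, g * b * g⁻¹ ∈ L → ∀ y ∈ sSup 𝔚, g⁻¹ * y * g ∈ L →
      (g * b * g⁻¹) * y = y * (g * b * g⁻¹) := by
    intro b hb hbL y hy hyL
    have hc : (g * b * g⁻¹) * y * (g * b * g⁻¹)⁻¹ * y⁻¹ ∈ sSup 𝔚 :=
      mul_mem (hLV₀ _ hbL y hy) (inv_mem hy)
    have hc₁ : b * ((g⁻¹ * y * g) * b⁻¹ * (g⁻¹ * y * g)⁻¹) ∈ sSup 𝔚 :=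
      mul_mem hb (hLV₀ _ hyL _ (inv_mem hb))
    have e : g * (b * ((g⁻¹ * y * g) * b⁻¹ * (g⁻¹ * y * g)⁻¹)) * g⁻¹ =
        (g * b * g⁻¹) * y * (g * b * g⁻¹)⁻¹ * y⁻¹ := by group
    have h3 := hTI g hg _ hc₁ (by rw [e]; exact hc)
    have h4 : (g * b * g⁻¹) * y * (g * b * g⁻¹)⁻¹ * y⁻¹ = 1 := by
      rw [← e, h3]
      group
    rw [mul_inv_eq_one, mul_inv_eq_iff_eq_mul] at h4
    exact h4
  have h2' : ∀ b ∈ sSup 𝔚, b ≠ 1 → ∀ y, (g * b * g⁻¹) * y = y * (g * b * g⁻¹) → g⁻¹ * y * g ∈ L := by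
    intro b hb hb1 y hy
    refine hF1 b hb hb1 _ ?_
    calc (g⁻¹ * y * g) * b = g⁻¹ * (y * (g * b * g⁻¹)) * g := by group
      _ = g⁻¹ * ((g * b * g⁻¹) * y) * g := by rw [hy]
      _ = b * (g⁻¹ * y * g) := by group
  -- reduction to a member
  suffices hmain : ∀ W ∈ 𝔚, ∀ v ∈ W, (g * a * g⁻¹) * v = v * (g * a * g⁻¹) by
    have hle : sSup 𝔚 ≤ centralizer ({g * a * g⁻¹} : Set G) :=
      sSup_le fun W hW w hw => Subgroup.mem_centralizer_singleton_iff.mpr (hmain W hW w hw).symm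
    exact (Subgroup.mem_centralizer_singleton_iff.mp (hle hv)).symm
  intro W hW v hvW
  by_contra hmv
  have hvV₀ : v ∈ sSup 𝔚 := le_sSup hW hvW
  set u := g * a * g⁻¹ with hud
  have hxx : ∀ b ∈ sSup 𝔚, (g * b * g⁻¹) * (g * b * g⁻¹) = 1 := by
    intro b hb
    calc (g * b * g⁻¹) * (g * b * g⁻¹) = g * (b * b) * g⁻¹ := by group
      _ = 1 := by rw [hV₀e hb]; group
  have hXc : ∀ b ∈ sSup 𝔚, ∀ b' ∈ sSup 𝔚, (g * b * g⁻¹) * (g * b' * g⁻¹) = (g * b' * g⁻¹) * (g * b * g⁻¹) := by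
    intro b hb b' hb'
    calc (g * b * g⁻¹) * (g * b' * g⁻¹) = g * (b * b') * g⁻¹ := by group
      _ = g * (b' * b) * g⁻¹ := by rw [hV₀c hb hb']
      _ = (g * b' * g⁻¹) * (g * b * g⁻¹) := by group
  have hinv : ∀ b ∈ sSup 𝔚, (g * b * g⁻¹)⁻¹ = g * b * g⁻¹ := fun b hb =>
    inv_eq_of_mul_eq_one_left (hxx b hb)
  -- elements of `X` move `v`
  have hmvb : ∀ b ∈ sSup 𝔚, b ≠ 1 → g * b * g⁻¹ ∈ L → (g * b * g⁻¹) * v ≠ v * (g * b * g⁻¹) := by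
    intro b hb hb1 hbL hc
    exact hmv (h1 a ha hu v hvV₀ (h2' b hb hb1 v hc))
  -- `Y` is the fixed set of each element of `X`
  have hY : ∀ b ∈ sSup 𝔚, b ≠ 1 → ∀ y ∈ sSup 𝔚, (g * b * g⁻¹) * y = y * (g * b * g⁻¹) →
      ∀ b' ∈ sSup 𝔚, g * b' * g⁻¹ ∈ L → (g * b' * g⁻¹) * y = y * (g * b' * g⁻¹) := by
    intro b hb hb1 y hy hc b' hb' hb'L
    exact h1 b' hb' hb'L y hy (h2' b hb hb1 y hc)
  -- the fixed elements
  have hfixgen : ∀ b ∈ sSup 𝔚, g * b * g⁻¹ ∈ L → ∀ w ∈ sSup 𝔚,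
      (g * b * g⁻¹) * (w * ((g * b * g⁻¹) * w * (g * b * g⁻¹)⁻¹)) =
        (w * ((g * b * g⁻¹) * w * (g * b * g⁻¹)⁻¹)) * (g * b * g⁻¹) := by
    intro b hb hbL w hw
    set x := g * b * g⁻¹ with hxd
    have hxi : x⁻¹ = x := hinv b hb
    have hxw : x * w * x⁻¹ ∈ sSup 𝔚 := hLV₀ x hbL w hw
    rw [hxi] at hxw ⊢
    have hxx' : x * x = 1 := hxx b hb
    have e1 : x * w = (x * w * x) * x := by
      rw [mul_assoc (x * w), hxx', mul_one]
    have e2 : x * (x * w * x) = w * x := by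
      calc x * (x * w * x) = (x * x) * w * x := by simp only [mul_assoc]
        _ = w * x := by rw [hxx', one_mul]
    calc x * (w * (x * w * x)) = (x * w) * (x * w * x) := by group
      _ = (x * w * x) * x * (x * w * x) := by rw [← e1]
      _ = (x * w * x) * (x * (x * w * x)) := by rw [mul_assoc]
      _ = (x * w * x) * (w * x) := by rw [e2]
      _ = ((x * w * x) * w) * x := by group
      _ = (w * (x * w * x)) * x := by rw [hV₀c hxw hw]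
  have hne1 : ∀ x : G, x * v ≠ v * x → v * (x * v * x⁻¹) ≠ 1 := by
    intro x hx h
    apply hx
    have h3 : x * v * x⁻¹ = v := by
      calc x * v * x⁻¹ = v * (v * (x * v * x⁻¹)) := by rw [← mul_assoc, hV₀e hvV₀, one_mul]
        _ = v := by rw [h, mul_one]
    rw [mul_inv_eq_iff_eq_mul] at h3
    exact h3
  have huu : u * u = 1 := hxx a ha
  have hui : u⁻¹ = u := hinv a ha
  have huv : u * v * u⁻¹ ∈ sSup 𝔚 := hLV₀ u hu v hvV₀
  have hy₀V : v * (u * v * u⁻¹) ∈ sSup 𝔚 := mul_mem hvV₀ huv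
  have hy₀1 : v * (u * v * u⁻¹) ≠ 1 := hne1 u hmv
  have hy₀c : u * (v * (u * v * u⁻¹)) = (v * (u * v * u⁻¹)) * u := hfixgen a ha hu v hvV₀
  by_cases hX : ∃ b ∈ sSup 𝔚, b ≠ 1 ∧ b ≠ a ∧ g * b * g⁻¹ ∈ L
  swap
  · push Not at hX
    exfalso
    set y₀ := v * (u * v * u⁻¹) with hy₀d
    have hy₁L : g⁻¹ * y₀ * g ∈ L := h2' a ha ha1 y₀ hy₀c
    set y₁ := g⁻¹ * y₀ * g with hy₁d
    have hy₀e : y₀ = g * y₁ * g⁻¹ := by
      rw [hy₁d]
      group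
    have hy₁y₁ : y₁ * y₁ = 1 := by
      calc y₁ * y₁ = g⁻¹ * (y₀ * y₀) * g := by rw [hy₁d]; group
        _ = 1 := by rw [hV₀e hy₀V]; group
    have hL_cases : ∀ b ∈ sSup 𝔚, g * b * g⁻¹ ∈ L → b = 1 ∨ b = a := by
      intro b hb hbL
      by_contra hcon
      push Not at hcon
      exact hX b hb hcon.1 hcon.2 hbL
    have hcomm_to_L : ∀ c ∈ sSup 𝔚, y₁ * c * y₁⁻¹ = c → g * c * g⁻¹ ∈ L := by
      intro c hc hcc
      refine hF1 y₀ hy₀V hy₀1 _ ?_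
      rw [hy₀e]
      calc (g * c * g⁻¹) * (g * y₁ * g⁻¹) = g * (c * y₁) * g⁻¹ := by group
        _ = g * ((y₁ * c * y₁⁻¹) * y₁) * g⁻¹ := by rw [hcc]
        _ = (g * y₁ * g⁻¹) * (g * c * g⁻¹) := by group
    have hσ : ∀ b ∈ sSup 𝔚, (b = 1 ∨ b = a) ∨ y₁ * b * y₁⁻¹ = b * a := by
      intro b hb
      have hσb : y₁ * b * y₁⁻¹ ∈ sSup 𝔚 := hLV₀ _ hy₁L b hb
      have hc : b * (y₁ * b * y₁⁻¹) ∈ sSup 𝔚 := mul_mem hb hσb
      have hcc : y₁ * (b * (y₁ * b * y₁⁻¹)) * y₁⁻¹ = b * (y₁ * b * y₁⁻¹) := by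
        calc y₁ * (b * (y₁ * b * y₁⁻¹)) * y₁⁻¹
            = (y₁ * b * y₁⁻¹) * ((y₁ * y₁) * b * (y₁ * y₁)⁻¹) := by
              simp only [mul_inv_rev, mul_assoc]
              simp
          _ = (y₁ * b * y₁⁻¹) * b := by rw [hy₁y₁]; group
          _ = b * (y₁ * b * y₁⁻¹) := hV₀c hσb hb
      rcases hL_cases _ hc (hcomm_to_L _ hc hcc) with h | h
      · left
        have hb' : y₁ * b * y₁⁻¹ = b := by
          calc y₁ * b * y₁⁻¹ = b * (b * (y₁ * b * y₁⁻¹)) := by rw [← mul_assoc, hV₀e hb, one_mul]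
            _ = b := by rw [h, mul_one]
        exact hL_cases b hb (hcomm_to_L b hb hb')
      · right
        calc y₁ * b * y₁⁻¹ = b * (b * (y₁ * b * y₁⁻¹)) := by rw [← mul_assoc, hV₀e hb, one_mul]
          _ = b * a := by rw [h]
    have hmul : ∀ b ∈ sSup 𝔚, ∀ e ∈ sSup 𝔚, b ≠ 1 → b ≠ a → e ≠ 1 → e ≠ a → b * e = 1 ∨ b * e = a := by
      intro b hb e he hb1 hba he1 hea
      rcases hσ (b * e) (mul_mem hb he) with h | h
      · exact h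
      exfalso
      rcases hσ b hb with h3 | h3
      · rcases h3 with h3 | h3
        · exact hb1 h3
        · exact hba h3
      rcases hσ e he with h4 | h4
      · rcases h4 with h4 | h4
        · exact he1 h4
        · exact hea h4
      have h5 : y₁ * (b * e) * y₁⁻¹ = b * e := by
        calc y₁ * (b * e) * y₁⁻¹ = (y₁ * b * y₁⁻¹) * (y₁ * e * y₁⁻¹) := by group
          _ = (b * a) * (e * a) := by rw [h3, h4]
          _ = b * (a * e) * a := by group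
          _ = b * (e * a) * a := by rw [hV₀c ha he]
          _ = (b * e) * (a * a) := by group
          _ = b * e := by rw [hV₀e ha, mul_one]
      rw [h5] at h
      apply ha1
      have h6 : (b * e) * a = (b * e) * 1 := by rw [← h, mul_one]
      exact mul_left_cancel h6
    have hmemW : ∀ W' ∈ 𝔚, a ∈ W' := by
      intro W' hW'
      have hf := F.four W' hW'
      obtain ⟨b, hb, hb1⟩ : ∃ b ∈ W', b ≠ 1 := by
        rcases W'.bot_or_exists_ne_one with h | h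
        · rw [h] at hf
          have := hf.1
          simp at this
        · exact h
      obtain ⟨e, he, he1, heb, -⟩ := hf.coords hb hb1
      by_cases hba : b = a
      · exact hba ▸ hb
      by_cases hea : e = a
      · exact hea ▸ he
      rcases hmul b (le_sSup hW' hb) e (le_sSup hW' he) hb1 hba he1 hea with h | h
      · exfalso
        apply heb
        have h7 := hf.2 b hb
        calc e = (b * b) * e := by rw [h7, one_mul]
          _ = b * (b * e) := by group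
          _ = b := by rw [h, mul_one]
      · rw [← h]
        exact W'.mul_mem hb he
    obtain ⟨W₁, h₁, W₂, h₂, hne⟩ := h2
    have h8 := F.disj W₁ h₁ W₂ h₂ hne
    have h5 : a ∈ W₁ ⊓ W₂ := ⟨hmemW W₁ h₁, hmemW W₂ h₂⟩
    rw [h8, Subgroup.mem_bot] at h5
    exact ha1 h5
  obtain ⟨b, hb, hb1, hba, hbL⟩ := hX
  have hbaV : b * a ∈ sSup 𝔚 := mul_mem hb ha
  have hba1 : b * a ≠ 1 := by
    intro h
    apply hba
    rw [mul_eq_one_iff_eq_inv, hV₀i ha] at h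
    exact h
  have hx₃e : g * (b * a) * g⁻¹ = (g * b * g⁻¹) * u := by
    rw [hud]
    group
  have hx₃L : g * (b * a) * g⁻¹ ∈ L := by
    rw [hx₃e]
    exact L.mul_mem hbL hu
  have hx₂x₂ : (g * b * g⁻¹) * (g * b * g⁻¹) = 1 := hxx b hb
  by_cases hcase : ∃ b₀ ∈ sSup 𝔚, b₀ ≠ 1 ∧ g * b₀ * g⁻¹ ∈ L ∧
      ∀ w ∈ W, (g * b₀ * g⁻¹) * w * (g * b₀ * g⁻¹)⁻¹ ∈ W
  · obtain ⟨b₀, hb₀, hb₀1, hb₀L, hnorm⟩ := hcase
    have heW : v * ((g * b₀ * g⁻¹) * v * (g * b₀ * g⁻¹)⁻¹) ∈ W := W.mul_mem hvW (hnorm v hvW)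
    have he1 : v * ((g * b₀ * g⁻¹) * v * (g * b₀ * g⁻¹)⁻¹) ≠ 1 := hne1 _ (hmvb b₀ hb₀ hb₀1 hb₀L)
    have heV : v * ((g * b₀ * g⁻¹) * v * (g * b₀ * g⁻¹)⁻¹) ∈ sSup 𝔚 := le_sSup hW heW
    have hfix_all := hY b₀ hb₀ hb₀1 _ heV (hfixgen b₀ hb₀ hb₀L v hvV₀)
    have hnorm_all : ∀ b' ∈ sSup 𝔚, g * b' * g⁻¹ ∈ L → ∀ w ∈ W, (g * b' * g⁻¹) * w * (g * b' * g⁻¹)⁻¹ ∈ W := by
      intro b' hb' hL'
      refine F.map_eq_of_mem hL' hW heW he1 ?_
      rw [hfix_all b' hb' hL', mul_inv_cancel_right]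
      exact heW
    have he₁W : v * (u * v * u⁻¹) ∈ W := W.mul_mem hvW (hnorm_all a ha hu v hvW)
    have he₂W : v * ((g * b * g⁻¹) * v * (g * b * g⁻¹)⁻¹) ∈ W := W.mul_mem hvW (hnorm_all b hb hbL v hvW)
    have he₂1 : v * ((g * b * g⁻¹) * v * (g * b * g⁻¹)⁻¹) ≠ 1 := hne1 _ (hmvb b hb hb1 hbL)
    have he₂c : u * (v * ((g * b * g⁻¹) * v * (g * b * g⁻¹)⁻¹)) = (v * ((g * b * g⁻¹) * v * (g * b * g⁻¹)⁻¹)) * u :=
      hY b hb hb1 _ (le_sSup hW he₂W) (hfixgen b hb hbL v hvV₀) a ha hu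
    by_cases h12 : v * (u * v * u⁻¹) = v * ((g * b * g⁻¹) * v * (g * b * g⁻¹)⁻¹)
    · have hm : u * v * u⁻¹ = (g * b * g⁻¹) * v * (g * b * g⁻¹)⁻¹ := mul_left_cancel h12
      apply hmvb (b * a) hbaV hba1 hx₃L
      rw [hx₃e]
      set x₂ := g * b * g⁻¹ with hx₂d
      have h3 : (x₂ * u) * v * (x₂ * u)⁻¹ = v := by
        calc (x₂ * u) * v * (x₂ * u)⁻¹ = x₂ * (u * v * u⁻¹) * x₂⁻¹ := by group
          _ = x₂ * (x₂ * v * x₂⁻¹) * x₂⁻¹ := by rw [hm]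
          _ = (x₂ * x₂) * v * (x₂ * x₂)⁻¹ := by
              simp only [mul_inv_rev, mul_assoc]
          _ = v := by rw [hx₂x₂]; group
      rw [mul_inv_eq_iff_eq_mul] at h3
      exact h3
    · rcases four_cover (F.four W hW) he₁W he₂W hy₀1 he₂1 h12 v hvW with h | h | h | h
      · apply hmv
        rw [h]
        group
      · apply hmv
        rw [h]
        exact hy₀c
      · apply hmv
        rw [h]
        exact he₂c
      · have hgen : ∀ p q r : G, r = p * q → u * p = p * u → u * q = q * u → u * r = r * u := by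
          intro p q r hr hp hq
          rw [hr, ← mul_assoc, hp, mul_assoc, hq, mul_assoc]
        exact hmv (hgen _ _ v h hy₀c he₂c)
  · push Not at hcase
    obtain ⟨d, hd⟩ := F.op W hW
    have hdx : ∀ b₀ ∈ sSup 𝔚, b₀ ≠ 1 → g * b₀ * g⁻¹ ∈ L →
        d * ((g * b₀ * g⁻¹) * v * (g * b₀ * g⁻¹)⁻¹) * d⁻¹ = (g * b₀ * g⁻¹) * v * (g * b₀ * g⁻¹)⁻¹ := by
      intro b₀ hb₀ hb₀1 hb₀L
      set x := g * b₀ * g⁻¹ with hxd
      refine hd.hcent (W.map (MulAut.conj x).toMonoidHom) (F.act x hb₀L W hW) ?_ _ ⟨v, hvW, by simp⟩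
      intro heq
      obtain ⟨w, hw, hwn⟩ := hcase b₀ hb₀ hb₀1 hb₀L
      apply hwn
      have h3 : x * w * x⁻¹ ∈ W.map (MulAut.conj x).toMonoidHom := ⟨w, hw, by simp⟩
      rwa [heq] at h3
    have h3 := hY a ha ha1 _ hy₀V hy₀c b hb hbL
    have h4 : ((g * b * g⁻¹) * v * (g * b * g⁻¹)⁻¹) * ((g * (b * a) * g⁻¹) * v * (g * (b * a) * g⁻¹)⁻¹) =
        v * (u * v * u⁻¹) := by
      have h5 : (g * b * g⁻¹) * (v * (u * v * u⁻¹)) * (g * b * g⁻¹)⁻¹ = v * (u * v * u⁻¹) := by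
        rw [h3, mul_inv_cancel_right]
      rw [← h5, hx₃e]
      group
    have h6 := congrArg (fun y => d * y * d⁻¹) h4
    have e1 : d * (((g * b * g⁻¹) * v * (g * b * g⁻¹)⁻¹) * ((g * (b * a) * g⁻¹) * v * (g * (b * a) * g⁻¹)⁻¹)) * d⁻¹ =
        (d * ((g * b * g⁻¹) * v * (g * b * g⁻¹)⁻¹) * d⁻¹) * (d * ((g * (b * a) * g⁻¹) * v * (g * (b * a) * g⁻¹)⁻¹) * d⁻¹) := by
      group
    have e2 : d * (v * (u * v * u⁻¹)) * d⁻¹ = (d * v * d⁻¹) * (d * (u * v * u⁻¹) * d⁻¹) := by group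
    rw [e1, e2, hdx b hb hb1 hbL, hdx (b * a) hbaV hba1 hx₃L, h4, hdx a ha ha1 hu] at h6
    have h7 : v = d * v * d⁻¹ := mul_right_cancel h6
    have hv1 : v ≠ 1 := by
      rintro rfl
      exact hmv (by simp)
    exact hd.hfix v hvW hv1 h7.symm

end WF

/-- Strongly embedded subgroups: involutions are conjugate. -/
theorem conj_of_se {L : Subgroup G}
    (hSE : ∀ g, g ∉ L → ∀ w ∈ L, g⁻¹ * w * g ∈ L → w * w = 1 → w = 1)
    {g : G} (hg : g ∉ L) {a b : G} (ha : a ∈ L) (ha2 : a * a = 1) (ha1 : a ≠ 1) (hb : b ∈ L)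
    (hb2 : b * b = 1) (hb1 : b ≠ 1) : ∃ l ∈ L, l * b * l⁻¹ = a := by
  have hCent : ∀ w ∈ L, w * w = 1 → w ≠ 1 → ∀ h : G, h * w = w * h → h ∈ L := by
    intro w hw hww hw1 h hc
    by_contra hn
    apply hw1
    refine hSE h hn w hw ?_ hww
    have e : h⁻¹ * w * h = w := by
      calc h⁻¹ * w * h = h⁻¹ * (w * h) := by group
        _ = h⁻¹ * (h * w) := by rw [hc]
        _ = w := by group
    rw [e]
    exact hw
  set b' := g * b * g⁻¹ with hb'd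
  have hb'2 : b' * b' = 1 := by
    calc b' * b' = g * (b * b) * g⁻¹ := by rw [hb'd]; group
      _ = 1 := by rw [hb2]; group
  have hb'1 : b' ≠ 1 := by
    intro h
    apply hb1
    calc b = g⁻¹ * b' * g := by rw [hb'd]; group
      _ = 1 := by rw [h]; group
  have hb'b : g⁻¹ * b' * g = b := by
    rw [hb'd]
    group
  have hb'L : b' ∉ L := by
    intro h
    exact hb'1 (hSE g hg b' h (by rw [hb'b]; exact hb) hb'2)
  have hai : a⁻¹ = a := inv_eq_of_mul_eq_one_left ha2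
  have hb'i : b'⁻¹ = b' := inv_eq_of_mul_eq_one_left hb'2
  set c := a * b' with hcd
  have hci : c⁻¹ = b' * a := by
    rw [hcd, mul_inv_rev, hai, hb'i]
  have hac : a * c * a⁻¹ = c⁻¹ := by
    rw [hci, hcd, hai]
    calc a * (a * b') * a = (a * a) * b' * a := by group
      _ = b' * a := by rw [ha2, one_mul]
  have hbc : b' * c * b'⁻¹ = c⁻¹ := by
    rw [hci, hcd, hb'i]
    calc b' * (a * b') * b' = b' * a * (b' * b') := by group
      _ = b' * a := by rw [hb'2, mul_one]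
  have hacp : ∀ k : ℕ, a * c ^ k * a⁻¹ = (c ^ k)⁻¹ := by
    intro k
    rw [← conj_pow, hac, inv_pow]
  have hbcp : ∀ k : ℕ, b' * c ^ k * b'⁻¹ = (c ^ k)⁻¹ := by
    intro k
    rw [← conj_pow, hbc, inv_pow]
  have hnpos : 0 < orderOf c := orderOf_pos c
  obtain ⟨k, hk⟩ := Nat.even_or_odd' (orderOf c)
  rcases hk with hk | hk
  · exfalso
    have hk0 : 0 < k := by omega
    have hkn : k < orderOf c := by omega
    have hw1 : c ^ k ≠ 1 := pow_ne_one_of_lt_orderOf (by omega) hkn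
    have hww : c ^ k * c ^ k = 1 := by
      rw [← pow_add, ← two_mul, ← hk, pow_orderOf_eq_one]
    have hwi : (c ^ k)⁻¹ = c ^ k := inv_eq_of_mul_eq_one_left hww
    have h1 : a * c ^ k = c ^ k * a := by
      have := hacp k
      rw [hwi, mul_inv_eq_iff_eq_mul] at this
      exact this
    have h2 : b' * c ^ k = c ^ k * b' := by
      have := hbcp k
      rw [hwi, mul_inv_eq_iff_eq_mul] at this
      exact this
    have hwL : c ^ k ∈ L := hCent a ha ha2 ha1 _ h1.symm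
    exact hb'L (hCent _ hwL hww hw1 b' h2)
  · have hpow : c ^ k * c ^ k = c⁻¹ := by
      apply eq_inv_of_mul_eq_one_left
      rw [← pow_add, ← pow_succ, ← two_mul, ← hk, pow_orderOf_eq_one]
    have hx : c ^ k * a * (c ^ k)⁻¹ = b' := by
      have h1 : a * (c ^ k)⁻¹ = c ^ k * a := by
        have h2 := hacp k
        have h3 : a * (c ^ k)⁻¹ * a⁻¹ = c ^ k := by
          have : a * (c ^ k)⁻¹ * a⁻¹ = (a * c ^ k * a⁻¹)⁻¹ := by group
          rw [this, h2, inv_inv]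
        rw [mul_inv_eq_iff_eq_mul] at h3
        exact h3
      calc c ^ k * a * (c ^ k)⁻¹ = c ^ k * (a * (c ^ k)⁻¹) := by group
        _ = c ^ k * (c ^ k * a) := by rw [h1]
        _ = (c ^ k * c ^ k) * a := by group
        _ = b' * a * a := by rw [hpow, hci]
        _ = b' := by rw [mul_assoc, ha2, mul_one]
    refine ⟨(c ^ k)⁻¹ * g, ?_, ?_⟩
    · by_contra hn
      apply ha1
      refine hSE _ hn a ha ?_ ha2
      have e : ((c ^ k)⁻¹ * g)⁻¹ * a * ((c ^ k)⁻¹ * g) = b := by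
        have e1 : ((c ^ k)⁻¹ * g)⁻¹ * a * ((c ^ k)⁻¹ * g) = g⁻¹ * (c ^ k * a * (c ^ k)⁻¹) * g := by group
        rw [e1, hx, hb'b]
      rw [e]
      exact hb
    · have e1 : (c ^ k)⁻¹ * g * b * ((c ^ k)⁻¹ * g)⁻¹ = (c ^ k)⁻¹ * b' * c ^ k := by
        rw [hb'd]
        group
      rw [e1, ← hx]
      group

/-- Maximal members of the straddling family exist. -/
theorem exists_maxStrad {M : Subgroup G} (h : (Cfsg.straddlingTwoSubgroups M).Nonempty) :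
    (Cfsg.maxStraddlingTwoSubgroups M).Nonempty := by
  classical
  let f : Subgroup G → ℕ ×ₗ (ℕ ×ₗ ℕ) := fun T =>
    toLex (Cfsg.maxElemAbelianOrder T,
      toLex (Nat.card ↥(Cfsg.thompsonSubgroupOf 2 T), Nat.card ↥T))
  obtain ⟨T₀, hT₀, hmax⟩ := Set.exists_max_image _ f (Set.toFinite _) h
  refine ⟨T₀, hT₀, fun T hT => ?_⟩
  have h1 := hmax T hT
  rw [Prod.Lex.toLex_le_toLex] at h1
  rcases h1 with h1 | ⟨h1, h2⟩
  · refine ⟨h1.le, fun h3 => ?_⟩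
    simp only [ofLex_toLex] at h1 
    omega
  · simp only [ofLex_toLex] at h1 h2
    refine ⟨h1.le, fun _ => ?_⟩
    rw [Prod.Lex.toLex_le_toLex] at h2
    rcases h2 with h2 | ⟨h2, h3⟩
    · exact ⟨h2.le, fun h4 => by simp only at h2; omega⟩
    · exact ⟨h2.le, fun _ => h3⟩

end Cfsg.Agent.Lib.JSub.Fam
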