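import Mathlib

/-!
# A Tutte-type theorem for a flip

Abstract group theory: a subgroup `P` with a subgroup `T` of index three and a four-group `W`
on which `P` acts as `S₃`, together with an element `g` normalizing `T` with `g² ∈ T`, such that no
nontrivial subgroup of `Q = C_T(W)` is normalized by `P` and `g`.  Then `W` does not centralize
`g W g⁻¹` and `g` fixes the `T`-fixed element `f` of `W`.
-/

set_option autoImplicit false
set_option linter.unusedSectionVars false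
set_option linter.unusedSimpArgs false
set_option linter.unusedVariables false

namespace Cfsg.Agent.Lib.JSub.Flip

variable {G : Type*} [Group G]

/-- The data. -/
structure FD (P T Q W : Subgroup G) (f g : G) : Prop where
  QT : Q ≤ T
  TP : T ≤ P
  WQ : W ≤ Q
  QN : ∀ p ∈ P, ∀ q ∈ Q, p * q * p⁻¹ ∈ Q
  WN : ∀ p ∈ P, ∀ w ∈ W, p * w * p⁻¹ ∈ W
  fW : f ∈ W
  f1 : f ≠ 1
  Wsq : ∀ a ∈ W, a * a = 1
  Wc : ∀ a ∈ W, ∀ b ∈ W, a ≠ 1 → a ≠ f → b ≠ 1 → b ≠ f → b = a ∨ b = a * f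
  w0 : ∃ w ∈ W, w ≠ 1 ∧ w ≠ f
  fC : ∀ t ∈ T, t * f = f * t
  QC : ∀ q ∈ Q, ∀ w ∈ W, q * w = w * q
  Ttr : ∀ t ∈ T, t ∉ Q → ∀ w ∈ W, w ≠ 1 → w ≠ f → t * w * t⁻¹ = w * f
  CP : ∀ p ∈ P, p * f * p⁻¹ = f → p ∈ T
  τ₀ : ∃ t ∈ T, t ∉ Q
  p₀ : ∃ p ∈ P, p ∉ T
  gT : ∀ t ∈ T, g * t * g⁻¹ ∈ T
  gT' : ∀ t ∈ T, g⁻¹ * t * g ∈ T
  g2 : g * g ∈ T
  O2 : ∀ U : Subgroup G, U ≤ Q → (∀ p ∈ P, ∀ u ∈ U, p * u * p⁻¹ ∈ U) → (∀ u ∈ U, g * u * g⁻¹ ∈ U) → U = ⊥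

/-- Words `p₁ g p₂ g ⋯ p_k g t` with `pᵢ ∈ P ∖ T` and `t ∈ T`. -/
def NN (P T : Subgroup G) (g : G) : ℕ → Set G
  | 0 => (T : Set G)
  | k + 1 => {y | ∃ p ∈ P, p ∉ T ∧ ∃ n ∈ NN P T g k, y = p * g * n}

/-- Words `g n` with `n ∈ NN k`. -/
def LL (P T : Subgroup G) (g : G) (k : ℕ) : Set G := {y | ∃ n ∈ NN P T g k, y = g * n}

/-- Criticality. -/
def Cr (Q W : Subgroup G) (y : G) : Prop := ∃ w ∈ W, y⁻¹ * w * y ∉ Q

theorem pauli_sq {x y z a : G} (hx : x * x = 1) (hy : y * y = 1) (hz : z * z = 1) (ha : a * a = 1)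
    (ax : a * x = x * a) (ay : a * y = y * a) (az : a * z = z * a) (hyx : y * x = x * y * a)
    (hzx : z * x = x * z * a) (hzy : z * y = y * z * a) : (x * y * z) * (x * y * z) = a := by
  calc (x * y * z) * (x * y * z) = x * y * (z * x) * y * z := by group
    _ = x * y * (x * z * a) * y * z := by rw [hzx]
    _ = x * (y * x) * z * a * y * z := by group
    _ = x * (x * y * a) * z * a * y * z := by rw [hyx]
    _ = (x * x) * y * a * z * a * y * z := by group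
    _ = y * a * z * a * y * z := by rw [hx, one_mul]
    _ = y * (a * z) * a * y * z := by group
    _ = y * (z * a) * a * y * z := by rw [az]
    _ = y * z * (a * a) * y * z := by group
    _ = y * z * y * z := by rw [ha, mul_one]
    _ = y * (z * y) * z := by group
    _ = y * (y * z * a) * z := by rw [hzy]
    _ = (y * y) * z * a * z := by group
    _ = z * (a * z) := by rw [hy, one_mul]; group
    _ = z * (z * a) := by rw [az]
    _ = (z * z) * a := by group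
    _ = a := by rw [hz, one_mul]

theorem mod_mul {x y x' y' a : G} (ha : a * a = 1) (ay' : a * y' = y' * a) (h1 : x = y ∨ x = y * a)
    (h2 : x' = y' ∨ x' = y' * a) : x * x' = y * y' ∨ x * x' = y * y' * a := by
  rcases h1 with h1 | h1 <;> rcases h2 with h2 | h2 <;> rw [h1, h2]
  · exact Or.inl rfl
  · exact Or.inr (by group)
  · right
    calc y * a * y' = y * (a * y') := by group
      _ = y * (y' * a) := by rw [ay']
      _ = y * y' * a := by group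
  · left
    calc y * a * (y' * a) = y * (a * y') * a := by group
      _ = y * (y' * a) * a := by rw [ay']
      _ = y * y' * (a * a) := by group
      _ = y * y' := by rw [ha, mul_one]

namespace FD

variable {P T Q W : Subgroup G} {f g : G} (h : FD P T Q W f g)

include h

theorem ginv2 : g⁻¹ * g⁻¹ ∈ T := by
  have := T.inv_mem h.g2
  rwa [mul_inv_rev] at this

theorem mul_notT {t p : G} (ht : t ∈ T) (hp : p ∉ T) : t * p ∉ T := fun hx => hp (by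
  have := T.mul_mem (T.inv_mem ht) hx
  simpa using this)

theorem NN_T_mul {k : ℕ} {t n : G} (ht : t ∈ T) (hn : n ∈ NN P T g k) : t * n ∈ NN P T g k := by
  cases k with
  | zero => exact T.mul_mem ht hn
  | succ k =>
    obtain ⟨p, hp, hpT, n₀, hn₀, rfl⟩ := hn
    exact ⟨t * p, P.mul_mem (h.TP ht) hp, h.mul_notT ht hpT, n₀, hn₀, by group⟩

theorem NN_mul_T {k : ℕ} {t n : G} (ht : t ∈ T) (hn : n ∈ NN P T g k) : n * t ∈ NN P T g k := by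
  induction k generalizing n with
  | zero => exact T.mul_mem hn ht
  | succ k ih =>
    obtain ⟨p, hp, hpT, n₀, hn₀, rfl⟩ := hn
    exact ⟨p, hp, hpT, n₀ * t, ih hn₀, by group⟩

theorem LL_T_mul {k : ℕ} {t y : G} (ht : t ∈ T) (hy : y ∈ LL P T g k) : t * y ∈ LL P T g k := by
  obtain ⟨n, hn, rfl⟩ := hy
  exact ⟨(g⁻¹ * t * g) * n, h.NN_T_mul (h.gT' t ht) hn, by group⟩

theorem LL_mul_T {k : ℕ} {t y : G} (ht : t ∈ T) (hy : y ∈ LL P T g k) : y * t ∈ LL P T g k := by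
  obtain ⟨n, hn, rfl⟩ := hy
  exact ⟨n * t, h.NN_mul_T ht hn, by group⟩

theorem NN_snoc {k : ℕ} {n p : G} (hn : n ∈ NN P T g k) (hp : p ∈ P) (hpT : p ∉ T) :
    n * p * g ∈ NN P T g (k + 1) := by
  induction k generalizing n with
  | zero =>
    exact ⟨n * p, P.mul_mem (h.TP hn) hp, h.mul_notT hn hpT, 1, T.one_mem, by group⟩
  | succ k ih =>
    obtain ⟨p₀, hp₀, hp₀T, n₀, hn₀, rfl⟩ := hn
    exact ⟨p₀, hp₀, hp₀T, n₀ * p * g, ih hn₀, by group⟩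

theorem LL_snoc {k : ℕ} {y p : G} (hy : y ∈ LL P T g k) (hp : p ∈ P) (hpT : p ∉ T) :
    y * p * g ∈ LL P T g (k + 1) := by
  obtain ⟨n, hn, rfl⟩ := hy
  exact ⟨n * p * g, h.NN_snoc hn hp hpT, by group⟩

theorem inv_notT {p : G} (hpT : p ∉ T) : p⁻¹ ∉ T := fun hx => hpT (by simpa using T.inv_mem hx)

theorem LL_inv {k : ℕ} {y : G} (hy : y ∈ LL P T g k) : y⁻¹ ∈ LL P T g k := by
  induction k generalizing y with
  | zero =>
    obtain ⟨t, ht, rfl⟩ := hy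
    refine ⟨(g⁻¹ * t⁻¹ * g) * (g⁻¹ * g⁻¹), T.mul_mem (h.gT' _ (T.inv_mem ht)) h.ginv2, by group⟩
  | succ k ih =>
    obtain ⟨n, ⟨p, hp, hpT, n₀, hn₀, rfl⟩, rfl⟩ := hy
    have hl : g * n₀ ∈ LL P T g k := ⟨n₀, hn₀, rfl⟩
    have h1 := h.LL_snoc (ih hl) (P.inv_mem hp) (h.inv_notT hpT)
    have h2 := h.LL_mul_T h.ginv2 h1
    have e : (g * n₀)⁻¹ * p⁻¹ * g * (g⁻¹ * g⁻¹) = (g * (p * g * n₀))⁻¹ := by group
    rwa [e] at h2

theorem NN_unsnoc {k : ℕ} {n : G} (hn : n ∈ NN P T g (k + 1)) :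
    ∃ n' ∈ NN P T g k, ∃ p ∈ P, p ∉ T ∧ ∃ t ∈ T, n = n' * p * g * t := by
  induction k generalizing n with
  | zero =>
    obtain ⟨p, hp, hpT, t, ht, rfl⟩ := hn
    exact ⟨1, T.one_mem, p, hp, hpT, t, ht, by group⟩
  | succ k ih =>
    obtain ⟨p, hp, hpT, n₀, hn₀, rfl⟩ := hn
    obtain ⟨n', hn', p', hp', hp'T, t, ht, rfl⟩ := ih hn₀
    exact ⟨p * g * n', ⟨p, hp, hpT, n', hn', rfl⟩, p', hp', hp'T, t, ht, by group⟩

theorem LL_unsnoc {k : ℕ} {y : G} (hy : y ∈ LL P T g (k + 1)) :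
    ∃ u ∈ LL P T g k, ∃ p ∈ P, p ∉ T ∧ ∃ t ∈ T, y = u * p * g * t := by
  obtain ⟨n, hn, rfl⟩ := hy
  obtain ⟨n', hn', p, hp, hpT, t, ht, rfl⟩ := h.NN_unsnoc hn
  exact ⟨g * n', ⟨n', hn', rfl⟩, p, hp, hpT, t, ht, by group⟩

theorem NN_concat {r j : ℕ} {n₁ n : G} (hn₁ : n₁ ∈ NN P T g r) (hn : n ∈ NN P T g j) :
    n₁ * n ∈ NN P T g (r + j) := by
  induction r generalizing n₁ with
  | zero =>
    rw [Nat.zero_add]
    exact h.NN_T_mul hn₁ hn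
  | succ r ih =>
    obtain ⟨p, hp, hpT, n₀, hn₀, rfl⟩ := hn₁
    rw [Nat.succ_add]
    exact ⟨p, hp, hpT, n₀ * n, ih hn₀, by group⟩

theorem LL_concat {r j : ℕ} {u n : G} (hu : u ∈ LL P T g r) (hn : n ∈ NN P T g j) :
    u * n ∈ LL P T g (r + j) := by
  obtain ⟨n₁, hn₁, rfl⟩ := hu
  exact ⟨n₁ * n, h.NN_concat hn₁ hn, by group⟩

theorem g_mem_L0 : g ∈ LL P T g 0 := ⟨1, T.one_mem, by group⟩

/-! ### Elementary facts -/

theorem sq_f : f * f = 1 := h.Wsq f h.fW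

theorem inv_f : f⁻¹ = f := inv_eq_of_mul_eq_one_left h.sq_f

theorem inv_w {w : G} (hw : w ∈ W) : w⁻¹ = w := inv_eq_of_mul_eq_one_left (h.Wsq w hw)

theorem comm_f {w : G} (hw : w ∈ W) : w * f = f * w := h.QC w (h.WQ hw) f h.fW

theorem comm_W {a b : G} (ha : a ∈ W) (hb : b ∈ W) : a * b = b * a := h.QC a (h.WQ ha) b hb

/-- `p f p⁻¹` for `p ∉ T` lies outside `{1, f}`. -/
theorem conj_f_ne {p : G} (hp : p ∈ P) (hpT : p ∉ T) :
    p * f * p⁻¹ ∈ W ∧ p * f * p⁻¹ ≠ 1 ∧ p * f * p⁻¹ ≠ f := by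
  refine ⟨h.WN p hp f h.fW, fun e => h.f1 ?_, fun e => hpT (h.CP p hp e)⟩
  calc f = p⁻¹ * (p * f * p⁻¹) * p := by group
    _ = 1 := by rw [e]; group

/-- The two nontrivial cosets. -/
theorem cos {p₁ p₂ τ : G} (hp₁ : p₁ ∈ P) (hp₁T : p₁ ∉ T) (hp₂ : p₂ ∈ P) (hp₂T : p₂ ∉ T) (hτ : τ ∈ T)
    (hτQ : τ ∉ Q) : p₁⁻¹ * p₂ ∈ T ∨ p₁⁻¹ * τ * p₂ ∈ T := by
  obtain ⟨h1w, h11, h1f⟩ := h.conj_f_ne hp₁ hp₁T
  obtain ⟨h2w, h21, h2f⟩ := h.conj_f_ne hp₂ hp₂T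
  rcases h.Wc _ h1w _ h2w h11 h1f h21 h2f with e | e
  · left
    refine h.CP _ (P.mul_mem (P.inv_mem hp₁) hp₂) ?_
    calc p₁⁻¹ * p₂ * f * (p₁⁻¹ * p₂)⁻¹ = p₁⁻¹ * (p₂ * f * p₂⁻¹) * p₁ := by group
      _ = p₁⁻¹ * (p₁ * f * p₁⁻¹) * p₁ := by rw [e]
      _ = f := by group
  · right
    have hτ' : τ⁻¹ ∉ Q := fun hx => hτQ (by simpa using Q.inv_mem hx)
    have e2 := h.Ttr τ⁻¹ (T.inv_mem hτ) hτ' _ h1w h11 h1f
    rw [← e2] at e
    refine h.CP _ (P.mul_mem (P.mul_mem (P.inv_mem hp₁) (h.TP hτ)) hp₂) ?_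
    calc p₁⁻¹ * τ * p₂ * f * (p₁⁻¹ * τ * p₂)⁻¹ = p₁⁻¹ * τ * (p₂ * f * p₂⁻¹) * τ⁻¹ * p₁ := by group
      _ = p₁⁻¹ * τ * (τ⁻¹ * (p₁ * f * p₁⁻¹) * τ⁻¹⁻¹) * τ⁻¹ * p₁ := by rw [e]
      _ = f := by group

/-- `τ` moves each nontrivial coset. -/
theorem coset_ne {p τ : G} (hp : p ∈ P) (hpT : p ∉ T) (hτ : τ ∈ T) (hτQ : τ ∉ Q) : p⁻¹ * τ * p ∉ T := by
  intro hx
  obtain ⟨h1w, h11, h1f⟩ := h.conj_f_ne hp hpT
  have e := h.Ttr τ hτ hτQ _ h1w h11 h1f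
  have e2 := h.fC _ hx
  have e3 : τ * (p * f * p⁻¹) * τ⁻¹ = p * f * p⁻¹ := by
    calc τ * (p * f * p⁻¹) * τ⁻¹ = p * ((p⁻¹ * τ * p) * f) * (p⁻¹ * τ * p)⁻¹ * p⁻¹ := by group
      _ = p * (f * (p⁻¹ * τ * p)) * (p⁻¹ * τ * p)⁻¹ * p⁻¹ := by rw [e2]
      _ = p * f * p⁻¹ := by group
  rw [e3] at e
  apply h.f1
  have : p * f * p⁻¹ * 1 = p * f * p⁻¹ * f := by rw [mul_one]; exact e
  exact (mul_left_cancel this).symm

/-- Elements of `T` centralizing `W` lie in `Q`. -/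
theorem mem_Q_of_comm {t : G} (ht : t ∈ T) (hc : ∀ w ∈ W, t * w = w * t) : t ∈ Q := by
  by_contra htQ
  obtain ⟨w, hw, hw1, hwf⟩ := h.w0
  have e := h.Ttr t ht htQ w hw hw1 hwf
  have e2 : t * w * t⁻¹ = w := by rw [hc w hw]; group
  rw [e2] at e
  apply h.f1
  have : w * 1 = w * f := by rw [mul_one]; exact e
  exact (mul_left_cancel this).symm

/-- Index two. -/
theorem mul_mem_Q {s t : G} (hs : s ∈ T) (hsQ : s ∉ Q) (ht : t ∈ T) (htQ : t ∉ Q) : s * t ∈ Q := by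
  refine h.mem_Q_of_comm (T.mul_mem hs ht) fun w hw => ?_
  by_cases hw1 : w = 1
  · rw [hw1]; group
  by_cases hwf : w = f
  · rw [hwf, mul_assoc, h.fC t ht, ← mul_assoc, h.fC s hs, mul_assoc]
  have e1 := h.Ttr t ht htQ w hw hw1 hwf
  have e2 : t * w = w * f * t := by rw [← e1]; group
  have hwf' : w * f ∈ W := W.mul_mem hw h.fW
  have hwf1 : w * f ≠ 1 := by
    intro e
    apply hwf
    calc w = w * f * f := by rw [mul_assoc, h.sq_f, mul_one]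
      _ = f := by rw [e, one_mul]
  have hwff : w * f ≠ f := fun e => hw1 (mul_right_cancel (e.trans (one_mul f).symm))
  have e3 := h.Ttr s hs hsQ _ hwf' hwf1 hwff
  have e4 : s * (w * f) = w * f * f * s := by rw [← e3]; group
  calc s * t * w = s * (t * w) := by group
    _ = s * (w * f * t) := by rw [e2]
    _ = s * (w * f) * t := by group
    _ = w * f * f * s * t := by rw [e4]
    _ = w * (s * t) := by rw [mul_assoc w f f, h.sq_f, mul_one, mul_assoc]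

theorem sq_mem_Q {t : G} (ht : t ∈ T) : t * t ∈ Q := by
  by_cases htQ : t ∈ Q
  · exact Q.mul_mem htQ htQ
  · exact h.mul_mem_Q ht htQ ht htQ

/-! ### Criticality -/

theorem Cr_P_mul {y p : G} (hp : p ∈ P) (hy : Cr Q W y) : Cr Q W (p * y) := by
  obtain ⟨w, hw, hwQ⟩ := hy
  refine ⟨p * w * p⁻¹, h.WN p hp w hw, ?_⟩
  have e : (p * y)⁻¹ * (p * w * p⁻¹) * (p * y) = y⁻¹ * w * y := by group
  rwa [e]

theorem Cr_mul_P {y p : G} (hp : p ∈ P) (hy : Cr Q W y) : Cr Q W (y * p) := by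
  obtain ⟨w, hw, hwQ⟩ := hy
  refine ⟨w, hw, fun hx => hwQ ?_⟩
  have h1 := h.QN p hp _ hx
  have e : p * ((y * p)⁻¹ * w * (y * p)) * p⁻¹ = y⁻¹ * w * y := by group
  rwa [e] at h1

theorem not_Cr {y : G} (hy : ¬ Cr Q W y) {w : G} (hw : w ∈ W) : y⁻¹ * w * y ∈ Q := by
  by_contra hc
  exact hy ⟨w, hw, hc⟩

/-! ### The existence of a critical word -/

/-- All words are products of words from the families. -/
def XX (P T : Subgroup G) (g : G) : Set G :=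
  {x | x ∈ P ∨ ∃ k, ∃ p ∈ P, ∃ y ∈ LL P T g k, ∃ q ∈ P, x = p * y * q}

theorem XX_P {x p : G} (hp : p ∈ P) (hx : x ∈ XX P T g) : p * x ∈ XX P T g := by
  rcases hx with hx | ⟨k, p₁, hp₁, y, hy, q, hq, rfl⟩
  · exact Or.inl (P.mul_mem hp hx)
  · exact Or.inr ⟨k, p * p₁, P.mul_mem hp hp₁, y, hy, q, hq, by group⟩

theorem XX_g {x : G} (hx : x ∈ XX P T g) : g * x ∈ XX P T g := by
  rcases hx with hx | ⟨k, p₁, hp₁, y, hy, q, hq, rfl⟩
  · exact Or.inr ⟨0, 1, P.one_mem, g, h.g_mem_L0, x, hx, by group⟩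
  · by_cases hp₁T : p₁ ∈ T
    · obtain ⟨n, hn, rfl⟩ := hy
      have ht : g * p₁ * g⁻¹ * (g * g) ∈ T := T.mul_mem (h.gT _ hp₁T) h.g2
      cases k with
      | zero =>
        left
        have e : g * (p₁ * (g * n) * q) = (g * p₁ * g⁻¹ * (g * g)) * n * q := by group
        rw [e]
        exact P.mul_mem (P.mul_mem (h.TP ht) (h.TP hn)) hq
      | succ k =>
        obtain ⟨p₂, hp₂, hp₂T, n₀, hn₀, rfl⟩ := hn
        right
        refine ⟨k, (g * p₁ * g⁻¹ * (g * g)) * p₂, P.mul_mem (h.TP ht) hp₂, g * n₀, ⟨n₀, hn₀, rfl⟩, q, hq, ?_⟩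
        group
    · obtain ⟨n, hn, rfl⟩ := hy
      right
      exact ⟨k + 1, 1, P.one_mem, g * (p₁ * g * n), ⟨p₁ * g * n, ⟨p₁, hp₁, hp₁T, n, hn, rfl⟩, rfl⟩, q, hq, by group⟩

theorem XX_ginv {x : G} (hx : x ∈ XX P T g) : g⁻¹ * x ∈ XX P T g := by
  have h1 := h.XX_g (h.XX_P (h.TP h.ginv2) hx)
  have e : g * (g⁻¹ * g⁻¹ * x) = g⁻¹ * x := by group
  rwa [e] at h1

theorem closure_le_XX {x : G} (hx : x ∈ Subgroup.closure ((P : Set G) ∪ {g})) : x ∈ XX P T g := by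
  induction hx using Subgroup.closure_induction_left with
  | one => exact Or.inl P.one_mem
  | mul_left a ha b hb ih =>
    rcases ha with ha | ha
    · exact h.XX_P ha ih
    · rw [Set.mem_singleton_iff] at ha
      rw [ha]
      exact h.XX_g ih
  | inv_mul_cancel a ha b hb ih =>
    rcases ha with ha | ha
    · exact h.XX_P (P.inv_mem ha) ih
    · rw [Set.mem_singleton_iff] at ha
      rw [ha]
      exact h.XX_ginv ih

theorem exists_level : ∃ k, ∃ y ∈ LL P T g k, Cr Q W y := by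
  by_contra hno
  push Not at hno
  set H := Subgroup.closure ((P : Set G) ∪ {g}) with hH
  have hmem : ∀ x ∈ H, ∀ w ∈ W, x * w * x⁻¹ ∈ Q := by
    intro x hx w hw
    rcases h.closure_le_XX hx with hxP | ⟨k, p, hp, y, hy, q, hq, rfl⟩
    · exact h.QN x hxP w (h.WQ hw)
    · have h1 := h.WN q hq w hw
      have h2 := h.not_Cr (hno k _ (h.LL_inv hy)) h1
      have h3 := h.QN p hp _ h2
      have e : p * (y⁻¹⁻¹ * (q * w * q⁻¹) * y⁻¹) * p⁻¹ = p * y * q * w * (p * y * q)⁻¹ := by group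
      rwa [e] at h3
  set U := Subgroup.closure {u | ∃ x ∈ H, ∃ w ∈ W, u = x * w * x⁻¹} with hU
  have hUQ : U ≤ Q := by
    rw [hU, Subgroup.closure_le]
    rintro _ ⟨x, hx, w, hw, rfl⟩
    exact hmem x hx w hw
  have hconj : ∀ z ∈ H, ∀ u ∈ U, z * u * z⁻¹ ∈ U := by
    intro z hz u hu
    induction hu using Subgroup.closure_induction with
    | mem u hu =>
      obtain ⟨x, hx, w, hw, rfl⟩ := hu
      exact Subgroup.subset_closure ⟨z * x, H.mul_mem hz hx, w, hw, by group⟩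
    | one => simp [U.one_mem]
    | mul a b _ _ ha hb =>
      have e : z * (a * b) * z⁻¹ = (z * a * z⁻¹) * (z * b * z⁻¹) := by group
      rw [e]
      exact U.mul_mem ha hb
    | inv a _ ha =>
      have e : z * a⁻¹ * z⁻¹ = (z * a * z⁻¹)⁻¹ := by group
      rw [e]
      exact U.inv_mem ha
  have hbot := h.O2 U hUQ (fun p hp u hu => hconj p (Subgroup.subset_closure (Or.inl hp)) u hu)
    (fun u hu => hconj g (Subgroup.subset_closure (Or.inr rfl)) u hu)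
  have hf : f ∈ U := Subgroup.subset_closure ⟨1, H.one_mem, f, h.fW, by group⟩
  rw [hbot, Subgroup.mem_bot] at hf
  exact h.f1 hf

/-! ### The minimal level -/

section Level

variable {k₀ : ℕ} (hmin : ∀ j < k₀, ∀ y ∈ LL P T g j, ¬ Cr Q W y)

include hmin

theorem C₁ {y w : G} (hy : y ∈ LL P T g k₀) (hw : w ∈ W) : y * w * y⁻¹ ∈ T := by
  obtain ⟨n, hn, rfl⟩ := hy
  cases k₀ with
  | zero =>
    have h1 : n * w * n⁻¹ ∈ T := T.mul_mem (T.mul_mem hn (h.QT (h.WQ hw))) (T.inv_mem hn)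
    have h2 := h.gT _ h1
    have e : g * (n * w * n⁻¹) * g⁻¹ = g * n * w * (g * n)⁻¹ := by group
    rwa [e] at h2
  | succ k =>
    obtain ⟨p, hp, hpT, n₀, hn₀, rfl⟩ := hn
    have hl : g * n₀ ∈ LL P T g k := ⟨n₀, hn₀, rfl⟩
    have h1 := h.not_Cr (hmin k (Nat.lt_succ_self k) _ (h.LL_inv hl)) hw
    have h2 := h.gT _ (h.QT (h.QN p hp _ h1))
    have e : g * (p * ((g * n₀)⁻¹⁻¹ * w * (g * n₀)⁻¹) * p⁻¹) * g⁻¹ =
        g * (p * g * n₀) * w * (g * (p * g * n₀))⁻¹ := by group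
    rwa [e] at h2

theorem C₂ {y w : G} (hy : y ∈ LL P T g k₀) (hw : w ∈ W) : y⁻¹ * w * y ∈ T := by
  have := h.C₁ hmin (h.LL_inv hy) hw
  simpa using this

theorem Sym {y : G} (hy : y ∈ LL P T g k₀) (hc : Cr Q W y) : Cr Q W y⁻¹ := by
  by_contra hno
  obtain ⟨w, hw, hwQ⟩ := hc
  apply hwQ
  refine h.mem_Q_of_comm (h.C₂ hmin hy hw) fun v hv => ?_
  have h1 : y * v * y⁻¹ ∈ Q := by
    have := h.not_Cr hno hv
    simpa using this
  have h2 := h.QC _ h1 w hw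
  calc y⁻¹ * w * y * v = y⁻¹ * (w * (y * v * y⁻¹)) * y := by group
    _ = y⁻¹ * ((y * v * y⁻¹) * w) * y := by rw [h2]
    _ = v * (y⁻¹ * w * y) := by group

omit hmin in
theorem mf_ne {w : G} (hw1 : w ≠ 1) (hwf : w ≠ f) : w * f ≠ 1 ∧ w * f ≠ f := by
  constructor
  · intro e
    apply hwf
    calc w = w * f * f := by rw [mul_assoc, h.sq_f, mul_one]
      _ = f := by rw [e, one_mul]
  · intro e
    exact hw1 (mul_right_cancel (e.trans (one_mul f).symm))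

omit hmin in
theorem Cr_out {y : G} (hc : Cr Q W y) : ∃ w ∈ W, w ≠ 1 ∧ w ≠ f ∧ y⁻¹ * w * y ∉ Q := by
  obtain ⟨w, hw, hwQ⟩ := hc
  have hw1 : w ≠ 1 := by
    rintro rfl
    apply hwQ
    have : y⁻¹ * 1 * y = 1 := by group
    rw [this]
    exact Q.one_mem
  by_cases hwf : w = f
  · subst hwf
    obtain ⟨w', hw', hw'1, hw'f⟩ := h.w0
    by_cases h1 : y⁻¹ * w' * y ∈ Q
    · obtain ⟨h3, h4⟩ := h.mf_ne hw'1 hw'f
      refine ⟨w' * w, W.mul_mem hw' hw, h3, h4, fun hx => hwQ ?_⟩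
      have h5 := Q.mul_mem (Q.inv_mem h1) hx
      have e : (y⁻¹ * w' * y)⁻¹ * (y⁻¹ * (w' * w) * y) = y⁻¹ * w * y := by group
      rwa [e] at h5
    · exact ⟨w', hw', hw'1, hw'f, h1⟩
  · exact ⟨w, hw, hw1, hwf, hwQ⟩

theorem Dfix {y : G} (hy : y ∈ LL P T g k₀) (hc : Cr Q W y) : y * f * y⁻¹ = f := by
  obtain ⟨w, hw, hw1, hwf, hwQ⟩ := h.Cr_out hc
  obtain ⟨v, hv, hv1, hvf, hvQ⟩ := h.Cr_out (h.Sym hmin hy hc)
  rw [inv_inv] at hvQ
  have ht := h.C₂ hmin hy hw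
  have hu := h.C₁ hmin hy hv
  have e1 := h.Ttr _ hu hvQ w hw hw1 hwf
  have e2 := h.Ttr _ ht hwQ v hv hv1 hvf
  set t := y⁻¹ * w * y with ht'
  have hvv : v⁻¹ = v := h.inv_w hv
  have e3 : v * t * v⁻¹ = t * (y⁻¹ * f * y) := by
    have e4 : y⁻¹ * (y * v * y⁻¹ * w * (y * v * y⁻¹)⁻¹) * y = y⁻¹ * (w * f) * y := by
      rw [e1]
    have e5 : y⁻¹ * (y * v * y⁻¹ * w * (y * v * y⁻¹)⁻¹) * y = v * t * v⁻¹ := by
      rw [ht']; group
    have e6 : y⁻¹ * (w * f) * y = t * (y⁻¹ * f * y) := by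
      rw [ht']; group
    rw [← e5, e4, e6]
  have e7 : v * t * v⁻¹ = f * t := by
    have e8 : t * v = v * f * t := by
      rw [← e2]; group
    calc v * t * v⁻¹ = v * (t * v) := by rw [hvv, mul_assoc]
      _ = v * (v * f * t) := by rw [e8]
      _ = (v * v) * f * t := by group
      _ = f * t := by rw [h.Wsq v hv, one_mul]
  rw [e7, ← h.fC t ht] at e3
  have e9 : f = y⁻¹ * f * y := mul_left_cancel e3
  calc y * f * y⁻¹ = y * (y⁻¹ * f * y) * y⁻¹ := by rw [← e9]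
    _ = f := by group

theorem Eout {y w : G} (hy : y ∈ LL P T g k₀) (hc : Cr Q W y) (hw : w ∈ W) (hw1 : w ≠ 1) (hwf : w ≠ f) :
    y⁻¹ * w * y ∉ Q := by
  obtain ⟨w', hw', hw'1, hw'f, hw'Q⟩ := h.Cr_out hc
  rcases h.Wc w' hw' w hw hw'1 hw'f hw1 hwf with rfl | rfl
  · exact hw'Q
  · intro hx
    apply hw'Q
    have hfy : y⁻¹ * f * y = f := by
      have := h.Dfix hmin hy hc
      calc y⁻¹ * f * y = y⁻¹ * (y * f * y⁻¹) * y := by rw [this]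
        _ = f := by group
    have h1 := Q.mul_mem hx (h.WQ h.fW)
    have e : y⁻¹ * (w' * f) * y * f = y⁻¹ * w' * y * (y⁻¹ * f * y) * f := by group
    rw [e, hfy, mul_assoc, h.sq_f, mul_one] at h1
    exact h1

/-- Every word of the minimal level is critical. -/
theorem all_aux (hex : ∃ y ∈ LL P T g k₀, Cr Q W y) :
    ∀ r j, r + j = k₀ → ∀ u ∈ LL P T g r, ∃ l ∈ NN P T g j, Cr Q W (u * l) := by
  intro r
  induction r with
  | zero =>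
    intro j hj u hu
    obtain ⟨y, ⟨n, hn, rfl⟩, hc⟩ := hex
    obtain ⟨t, ht, rfl⟩ := hu
    rw [Nat.zero_add] at hj
    subst hj
    refine ⟨t⁻¹ * n, h.NN_T_mul (T.inv_mem ht) hn, ?_⟩
    have e : g * t * (t⁻¹ * n) = g * n := by group
    rwa [e]
  | succ r ih =>
    intro j hj u' hu'
    obtain ⟨u, hu, p, hp, hpT, t, ht, rfl⟩ := h.LL_unsnoc hu'
    have hj' : r + (j + 1) = k₀ := by omega
    obtain ⟨l, ⟨p₀, hp₀, hp₀T, n₀, hn₀, rfl⟩, hcl⟩ := ih (j + 1) hj' u hu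
    -- the case of the same coset
    have key : ∀ t₀ ∈ T, Cr Q W (u * p * t₀ * g * n₀) →
        ∃ l' ∈ NN P T g j, Cr Q W (u * p * g * t * l') := by
      intro t₀ ht₀ hc
      refine ⟨t⁻¹ * (g⁻¹ * t₀ * g) * n₀, h.NN_T_mul (T.mul_mem (T.inv_mem ht) (h.gT' _ ht₀)) hn₀, ?_⟩
      have e : u * p * g * t * (t⁻¹ * (g⁻¹ * t₀ * g) * n₀) = u * p * t₀ * g * n₀ := by group
      rwa [e]
    by_cases hsame : p⁻¹ * p₀ ∈ T
    · apply key _ hsame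
      have e : u * p * (p⁻¹ * p₀) * g * n₀ = u * (p₀ * g * n₀) := by group
      rwa [e]
    · -- find the moving element
      have hui := h.LL_inv hu
      obtain ⟨l₁, ⟨p₂, hp₂, hp₂T, n₂, hn₂, rfl⟩, hc₁⟩ := ih (j + 1) hj' u⁻¹ hui
      have hl₁ : u⁻¹ * (p₂ * g * n₂) ∈ LL P T g k₀ := by
        have hm : p₂ * g * n₂ ∈ NN P T g (j + 1) := ⟨p₂, hp₂, hp₂T, n₂, hn₂, rfl⟩
        have := h.LL_concat hui hm
        rwa [hj'] at this
      obtain ⟨w, hw, hwQ⟩ := h.Sym hmin hl₁ hc₁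
      rw [inv_inv] at hwQ
      set y₁ := u⁻¹ * (p₂ * g * n₂) with hy₁
      have hτT : y₁ * w * y₁⁻¹ ∈ T := h.C₁ hmin hl₁ hw
      have hτQ : y₁ * w * y₁⁻¹ ∉ Q := hwQ
      set τ := y₁ * w * y₁⁻¹ with hτ
      have hl₂ : g * n₂ ∈ LL P T g j := ⟨n₂, hn₂, rfl⟩
      have hjlt : j < k₀ := by omega
      have hq := h.not_Cr (hmin j hjlt _ (h.LL_inv hl₂)) hw
      have hcQ : u * τ * u⁻¹ ∈ Q := by
        have h1 := h.QN p₂ hp₂ _ hq
        have e : p₂ * ((g * n₂)⁻¹⁻¹ * w * (g * n₂)⁻¹) * p₂⁻¹ = u * τ * u⁻¹ := by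
          rw [hτ, hy₁]; group
        rwa [e] at h1
      have hcP : u * τ * u⁻¹ ∈ P := h.TP (h.QT hcQ)
      rcases h.cos hp hpT hp₀ hp₀T hτT hτQ with hx | hx
      · exact absurd hx hsame
      · apply key _ hx
        have h2 := h.Cr_P_mul hcP hcl
        have e : u * p * (p⁻¹ * τ * p₀) * g * n₀ = u * τ * u⁻¹ * (u * (p₀ * g * n₀)) := by group
        rwa [e]

theorem all_crit (hex : ∃ y ∈ LL P T g k₀, Cr Q W y) : ∀ y ∈ LL P T g k₀, Cr Q W y := by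
  intro y hy
  obtain ⟨l, hl, hc⟩ := h.all_aux hmin hex k₀ 0 (Nat.add_zero k₀) y hy
  have h1 := h.Cr_mul_P (h.TP (T.inv_mem hl)) hc
  simpa using h1

omit hmin in
/-- Conjugating `g f g⁻¹` back. -/
theorem conj_a : g * (g * f * g⁻¹) * g⁻¹ = f := by
  have h1 := h.fC _ h.g2
  calc g * (g * f * g⁻¹) * g⁻¹ = (g * g) * f * (g * g)⁻¹ := by group
    _ = f * (g * g) * (g * g)⁻¹ := by rw [h1]
    _ = f := by group

omit hmin in
theorem a_T {t : G} (ht : t ∈ T) : t * (g * f * g⁻¹) = (g * f * g⁻¹) * t := by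
  have h1 := h.fC _ (h.gT' t ht)
  calc t * (g * f * g⁻¹) = g * ((g⁻¹ * t * g) * f) * g⁻¹ := by group
    _ = g * (f * (g⁻¹ * t * g)) * g⁻¹ := by rw [h1]
    _ = (g * f * g⁻¹) * t := by group

/-- If the minimal level is positive then `g f g⁻¹` is central in `P`. -/
theorem central {k : ℕ} (hk : k₀ = k + 1) (hex : ∃ y ∈ LL P T g k₀, Cr Q W y) {p : G} (hp : p ∈ P) :
    p * (g * f * g⁻¹) * p⁻¹ = g * f * g⁻¹ := by
  subst hk
  obtain ⟨y₀, hy₀, hc₀⟩ := hex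
  obtain ⟨u, hu, -⟩ := h.LL_unsnoc hy₀
  have hall := h.all_crit hmin ⟨y₀, hy₀, hc₀⟩
  have haT : ∀ t ∈ T, t * (g * f * g⁻¹) * t⁻¹ = g * f * g⁻¹ := by
    intro t ht
    rw [h.a_T ht]
    group
  have key : ∀ p ∈ P, p ∉ T → p * (g * f * g⁻¹) * p⁻¹ = u⁻¹ * f * u := by
    intro p hp hpT
    have hy := h.LL_snoc hu hp hpT
    have e := h.Dfix hmin hy (hall _ hy)
    calc p * (g * f * g⁻¹) * p⁻¹ = u⁻¹ * (u * p * g * f * (u * p * g)⁻¹) * u := by group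
      _ = u⁻¹ * f * u := by rw [e]
  by_cases hpT : p ∈ T
  · exact haT p hpT
  obtain ⟨τ, hτ, hτQ⟩ := h.τ₀
  have e1 := key p hp hpT
  have e2 := key (τ * p) (P.mul_mem (h.TP hτ) hp) (h.mul_notT hτ hpT)
  have hh₀ : p⁻¹ * τ * p ∉ T := h.coset_ne hp hpT hτ hτQ
  have hh₀P : p⁻¹ * τ * p ∈ P := P.mul_mem (P.mul_mem (P.inv_mem hp) (h.TP hτ)) hp
  set a := g * f * g⁻¹ with ha
  have e3 : (p⁻¹ * τ * p) * a * (p⁻¹ * τ * p)⁻¹ = a := by
    calc (p⁻¹ * τ * p) * a * (p⁻¹ * τ * p)⁻¹ = p⁻¹ * ((τ * p) * a * (τ * p)⁻¹) * p := by group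
      _ = p⁻¹ * (p * a * p⁻¹) * p := by rw [e2, e1]
      _ = a := by group
  rcases h.cos hh₀P hh₀ hp hpT hτ hτQ with hx | hx
  · have e4 := haT _ hx
    calc p * a * p⁻¹ = (p⁻¹ * τ * p) * (((p⁻¹ * τ * p)⁻¹ * p) * a * ((p⁻¹ * τ * p)⁻¹ * p)⁻¹) * (p⁻¹ * τ * p)⁻¹ := by
          group
      _ = a := by rw [e4, e3]
  · have e4 := haT _ hx
    have e5 := haT τ hτ
    have e6 : τ⁻¹ * a * τ = a := by
      calc τ⁻¹ * a * τ = τ⁻¹ * (τ * a * τ⁻¹) * τ := by rw [e5]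
        _ = a := by group
    calc p * a * p⁻¹ = τ⁻¹ * ((p⁻¹ * τ * p) * (((p⁻¹ * τ * p)⁻¹ * τ * p) * a * ((p⁻¹ * τ * p)⁻¹ * τ * p)⁻¹) * (p⁻¹ * τ * p)⁻¹) * τ := by
          group
      _ = a := by rw [e4, e3, e6]

theorem a_ne_f {k : ℕ} (hk : k₀ = k + 1) (hex : ∃ y ∈ LL P T g k₀, Cr Q W y) : g * f * g⁻¹ ≠ f := by
  intro e
  obtain ⟨p, hp, hpT⟩ := h.p₀
  apply hpT
  refine h.CP p hp ?_
  have := h.central hmin hk hex hp
  rwa [e] at this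

/-- The minimal level is not at least two. -/
theorem two_absurd {k : ℕ} (hk : k₀ = k + 2) (hex : ∃ y ∈ LL P T g k₀, Cr Q W y) : False := by
  subst hk
  obtain ⟨y₀, hy₀, hc₀⟩ := hex
  obtain ⟨u₁, hu₁, -⟩ := h.LL_unsnoc hy₀
  obtain ⟨u, hu, -⟩ := h.LL_unsnoc hu₁
  have hall := h.all_crit hmin ⟨y₀, hy₀, hc₀⟩
  obtain ⟨p₁, hp₁, hp₁T⟩ := h.p₀
  obtain ⟨τ, hτ, hτQ⟩ := h.τ₀
  have hcent := h.central hmin (k := k + 1) rfl ⟨y₀, hy₀, hc₀⟩ hp₁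
  have hconj := h.conj_a
  have key : ∀ p ∈ P, p ∉ T → p * f * p⁻¹ = u⁻¹ * f * u := by
    intro p hp hpT
    have hy1 := h.LL_snoc hu hp hpT
    have hy := h.LL_snoc hy1 hp₁ hp₁T
    have e := h.Dfix hmin hy (hall _ hy)
    have e2 : (g * p₁ * g) * f * (g * p₁ * g)⁻¹ = f := by
      calc (g * p₁ * g) * f * (g * p₁ * g)⁻¹ = g * (p₁ * (g * f * g⁻¹) * p₁⁻¹) * g⁻¹ := by group
        _ = f := by rw [hcent, hconj]
    calc p * f * p⁻¹ = p * ((g * p₁ * g) * f * (g * p₁ * g)⁻¹) * p⁻¹ := by rw [e2]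
      _ = u⁻¹ * (u * p * g * p₁ * g * f * (u * p * g * p₁ * g)⁻¹) * u := by group
      _ = u⁻¹ * f * u := by rw [e]
  have e1 := key p₁ hp₁ hp₁T
  have e2 := key (τ * p₁) (P.mul_mem (h.TP hτ) hp₁) (h.mul_notT hτ hp₁T)
  obtain ⟨h1w, h11, h1f⟩ := h.conj_f_ne hp₁ hp₁T
  have e3 := h.Ttr τ hτ hτQ _ h1w h11 h1f
  have e4 : τ * (p₁ * f * p₁⁻¹) * τ⁻¹ = p₁ * f * p₁⁻¹ := by
    calc τ * (p₁ * f * p₁⁻¹) * τ⁻¹ = τ * p₁ * f * (τ * p₁)⁻¹ := by group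
      _ = p₁ * f * p₁⁻¹ := by rw [e2, e1]
  rw [e4] at e3
  apply h.f1
  have : p₁ * f * p₁⁻¹ * 1 = p₁ * f * p₁⁻¹ * f := by rw [mul_one]; exact e3
  exact (mul_left_cancel this).symm

/-- The minimal level is not one. -/
theorem one_absurd (hk : k₀ = 1) (hex : ∃ y ∈ LL P T g k₀, Cr Q W y) : False := by
  subst hk
  have hall := h.all_crit hmin hex
  have hcent : ∀ p ∈ P, p * (g * f * g⁻¹) * p⁻¹ = g * f * g⁻¹ := fun p hp =>
    h.central hmin (k := 0) rfl hex hp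
  have hane : g * f * g⁻¹ ≠ f := h.a_ne_f hmin (k := 0) rfl hex
  have haa : (g * f * g⁻¹) * (g * f * g⁻¹) = 1 := by
    calc (g * f * g⁻¹) * (g * f * g⁻¹) = g * (f * f) * g⁻¹ := by group
      _ = 1 := by rw [h.sq_f]; group
  have hconj := h.conj_a
  set a := g * f * g⁻¹ with ha
  have hac : ∀ p ∈ P, a * p = p * a := by
    intro p hp
    calc a * p = (p * a * p⁻¹) * p := by rw [hcent p hp]
      _ = p * a := by group
  have hginv : g⁻¹ ∈ LL P T g 0 := h.LL_inv h.g_mem_L0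
  have hF1 : ∀ w ∈ W, g * w * g⁻¹ ∈ Q := by
    intro w hw
    have := h.not_Cr (hmin 0 Nat.one_pos _ hginv) hw
    simpa using this
  obtain ⟨w₀, hw₀, hw₀1, hw₀f⟩ := h.w0
  set e := g * w₀ * g⁻¹ with he
  have heQ : e ∈ Q := hF1 w₀ hw₀
  have heP : e ∈ P := h.TP (h.QT heQ)
  have hee : e * e = 1 := by
    calc e * e = g * (w₀ * w₀) * g⁻¹ := by rw [he]; group
      _ = 1 := by rw [h.Wsq w₀ hw₀]; group
  have hTe : ∀ t ∈ T, t * e * t⁻¹ = e ∨ t * e * t⁻¹ = e * a := by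
    intro t ht
    have ht' := h.gT' t ht
    by_cases htQ : g⁻¹ * t * g ∈ Q
    · left
      have h1 := h.QC _ htQ w₀ hw₀
      calc t * e * t⁻¹ = g * ((g⁻¹ * t * g) * w₀) * (g⁻¹ * t * g)⁻¹ * g⁻¹ := by rw [he]; group
        _ = g * (w₀ * (g⁻¹ * t * g)) * (g⁻¹ * t * g)⁻¹ * g⁻¹ := by rw [h1]
        _ = e := by rw [he]; group
    · right
      have h1 := h.Ttr _ ht' htQ w₀ hw₀ hw₀1 hw₀f
      calc t * e * t⁻¹ = g * ((g⁻¹ * t * g) * w₀ * (g⁻¹ * t * g)⁻¹) * g⁻¹ := by rw [he]; group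
        _ = g * (w₀ * f) * g⁻¹ := by rw [h1]
        _ = e * a := by rw [he, ha]; group
  -- the key commutators
  have hy1 : ∀ p ∈ P, p ∉ T → g⁻¹ * p * g ∈ LL P T g 1 := by
    intro p hp hpT
    refine ⟨((g⁻¹ * g⁻¹) * p) * g * 1, ⟨(g⁻¹ * g⁻¹) * p, P.mul_mem (h.TP h.ginv2) hp, h.mul_notT h.ginv2 hpT, 1,
      T.one_mem, rfl⟩, by group⟩
  have hpu : ∀ p ∈ P, p ∉ T → g⁻¹ * (p * e * p⁻¹) * g ∈ T ∧ g⁻¹ * (p * e * p⁻¹) * g ∉ Q ∧
      (p * e * p⁻¹) * e = e * (p * e * p⁻¹) * a := by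
    intro p hp hpT
    have hy := hy1 p hp hpT
    have hyi := h.LL_inv hy
    have e0 : g⁻¹ * (p * e * p⁻¹) * g = (g⁻¹ * p * g) * w₀ * (g⁻¹ * p * g)⁻¹ := by rw [he]; group
    have hT' : (g⁻¹ * p * g) * w₀ * (g⁻¹ * p * g)⁻¹ ∈ T := h.C₁ hmin hy hw₀
    have hQ' : (g⁻¹ * p * g) * w₀ * (g⁻¹ * p * g)⁻¹ ∉ Q := by
      have := h.Eout hmin hyi (hall _ hyi) hw₀ hw₀1 hw₀f
      simpa using this
    rw [e0]
    refine ⟨hT', hQ', ?_⟩
    have h1 := h.Ttr _ hT' hQ' w₀ hw₀ hw₀1 hw₀f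
    have h2 : (p * e * p⁻¹) * e * (p * e * p⁻¹)⁻¹ = e * a := by
      have e1 : (p * e * p⁻¹) * e * (p * e * p⁻¹)⁻¹ =
          g * (((g⁻¹ * p * g) * w₀ * (g⁻¹ * p * g)⁻¹) * w₀ * ((g⁻¹ * p * g) * w₀ * (g⁻¹ * p * g)⁻¹)⁻¹) * g⁻¹ := by
        rw [he]; group
      rw [e1, h1, he, ha]
      group
    have hxP : p * e * p⁻¹ ∈ P := P.mul_mem (P.mul_mem hp heP) (P.inv_mem hp)
    calc (p * e * p⁻¹) * e = ((p * e * p⁻¹) * e * (p * e * p⁻¹)⁻¹) * (p * e * p⁻¹) := by group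
      _ = e * a * (p * e * p⁻¹) := by rw [h2]
      _ = e * (a * (p * e * p⁻¹)) := by group
      _ = e * (p * e * p⁻¹) * a := by rw [hac _ hxP]; group
  obtain ⟨p₁, hp₁, hp₁T⟩ := h.p₀
  obtain ⟨τ, hτ, hτQ⟩ := h.τ₀
  have hτP := h.TP hτ
  set p₂ := τ * p₁ with hp₂d
  have hp₂ : p₂ ∈ P := P.mul_mem hτP hp₁
  have hp₂T : p₂ ∉ T := h.mul_notT hτ hp₁T
  have hhT : p₁⁻¹ * p₂ ∉ T := by
    have := h.coset_ne hp₁ hp₁T hτ hτQ
    rw [hp₂d]
    rwa [mul_assoc] at this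
  have hhP : p₁⁻¹ * p₂ ∈ P := P.mul_mem (P.inv_mem hp₁) hp₂
  set e₂ := p₁ * e * p₁⁻¹ with he₂
  set e₃ := p₂ * e * p₂⁻¹ with he₃
  have he₂P : e₂ ∈ P := P.mul_mem (P.mul_mem hp₁ heP) (P.inv_mem hp₁)
  have he₃P : e₃ ∈ P := P.mul_mem (P.mul_mem hp₂ heP) (P.inv_mem hp₂)
  obtain ⟨hu₁T, hu₁Q, R12⟩ := hpu p₁ hp₁ hp₁T
  obtain ⟨hu₂T, hu₂Q, R13⟩ := hpu p₂ hp₂ hp₂T
  obtain ⟨-, -, R0⟩ := hpu _ hhP hhT
  have R23 : e₃ * e₂ = e₂ * e₃ * a := by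
    calc e₃ * e₂ = p₁ * ((p₁⁻¹ * p₂ * e * (p₁⁻¹ * p₂)⁻¹) * e) * p₁⁻¹ := by rw [he₂, he₃]; group
      _ = p₁ * (e * (p₁⁻¹ * p₂ * e * (p₁⁻¹ * p₂)⁻¹) * a) * p₁⁻¹ := by rw [R0]
      _ = e₂ * e₃ * (p₁ * a * p₁⁻¹) := by rw [he₂, he₃]; group
      _ = e₂ * e₃ * a := by rw [hcent p₁ hp₁]
  have he₂e₂ : e₂ * e₂ = 1 := by
    calc e₂ * e₂ = p₁ * (e * e) * p₁⁻¹ := by rw [he₂]; group
      _ = 1 := by rw [hee]; group
  have he₃e₃ : e₃ * e₃ = 1 := by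
    calc e₃ * e₃ = p₂ * (e * e) * p₂⁻¹ := by rw [he₃]; group
      _ = 1 := by rw [hee]; group
  set r := e * e₂ * e₃ with hr
  have hrP : r ∈ P := P.mul_mem (P.mul_mem heP he₂P) he₃P
  have hrr : r * r = a := pauli_sq hee he₂e₂ he₃e₃ haa (hac e heP) (hac e₂ he₂P) (hac e₃ he₃P) R12 R13 R23
  -- `r` in `g Q g⁻¹`
  have hQg : g⁻¹ * r * g ∈ Q := by
    have h1 := h.mul_mem_Q hu₁T hu₁Q hu₂T hu₂Q
    have h2 := Q.mul_mem (h.WQ hw₀) h1
    have e0 : w₀ * (g⁻¹ * (p₁ * e * p₁⁻¹) * g * (g⁻¹ * (p₂ * e * p₂⁻¹) * g)) = g⁻¹ * r * g := by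
      rw [hr, he₂, he₃, he]
      group
    rwa [e0] at h2
  set y := g * p₁ * g with hyd
  have hyL : y ∈ LL P T g 1 := ⟨p₁ * g * 1, ⟨p₁, hp₁, hp₁T, 1, T.one_mem, rfl⟩, by rw [hyd]; group⟩
  have hyi := h.LL_inv hyL
  have hs : y⁻¹ * r * y ∈ T := by
    have h1 := h.QN _ (P.inv_mem hp₁) _ hQg
    have h2 := h.gT' _ (h.QT h1)
    have e0 : g⁻¹ * (p₁⁻¹ * (g⁻¹ * r * g) * p₁⁻¹⁻¹) * g = y⁻¹ * r * y := by
      rw [hyd]; group
    rwa [e0] at h2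
  have hyf : y * f * y⁻¹ = f := h.Dfix hmin hyL (hall _ hyL)
  set d := y * w₀ * y⁻¹ with hdd
  have hdT : d ∈ T := h.C₁ hmin hyL hw₀
  have hdP := h.TP hdT
  have hdQ : d ∉ Q := by
    have := h.Eout hmin hyi (hall _ hyi) hw₀ hw₀1 hw₀f
    simpa using this
  -- the action of `d` on `r`
  have hdr : d * r * d⁻¹ = r ∨ d * r * d⁻¹ = r * a := by
    have h1 := hTe d hdT
    have h2 : d * e₂ * d⁻¹ = e₃ ∨ d * e₂ * d⁻¹ = e₃ * a := by
      rcases h.cos hp₂ hp₂T hp₁ hp₁T hdT hdQ with hx | hx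
      · exfalso
        apply hhT
        have := T.inv_mem hx
        simpa using this
      · have e0 : d * e₂ * d⁻¹ = p₂ * ((p₂⁻¹ * d * p₁) * e * (p₂⁻¹ * d * p₁)⁻¹) * p₂⁻¹ := by
          rw [he₂]; group
        rcases hTe _ hx with h3 | h3
        · left
          rw [e0, h3]
        · right
          rw [e0, h3, he₃]
          calc p₂ * (e * a) * p₂⁻¹ = p₂ * e * p₂⁻¹ * (p₂ * a * p₂⁻¹) := by group
            _ = p₂ * e * p₂⁻¹ * a := by rw [hcent p₂ hp₂]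
    have h3 : d * e₃ * d⁻¹ = e₂ ∨ d * e₃ * d⁻¹ = e₂ * a := by
      rcases h.cos hp₁ hp₁T hp₂ hp₂T hdT hdQ with hx | hx
      · exact absurd hx hhT
      · have e0 : d * e₃ * d⁻¹ = p₁ * ((p₁⁻¹ * d * p₂) * e * (p₁⁻¹ * d * p₂)⁻¹) * p₁⁻¹ := by
          rw [he₃]; group
        rcases hTe _ hx with h3 | h3
        · left
          rw [e0, h3]
        · right
          rw [e0, h3, he₂]
          calc p₁ * (e * a) * p₁⁻¹ = p₁ * e * p₁⁻¹ * (p₁ * a * p₁⁻¹) := by group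
            _ = p₁ * e * p₁⁻¹ * a := by rw [hcent p₁ hp₁]
    have e0 : d * r * d⁻¹ = (d * e * d⁻¹) * (d * e₂ * d⁻¹) * (d * e₃ * d⁻¹) := by
      rw [hr]; group
    have e1 : e * e₃ * e₂ = r * a := by
      rw [mul_assoc, R23, hr]
      group
    have hM := mod_mul haa (hac e₂ he₂P) (mod_mul haa (hac e₃ he₃P) h1 h2) h3
    rw [e1] at hM
    rw [e0]
    rcases hM with hM | hM
    · exact Or.inr hM
    · left
      rw [hM, mul_assoc, haa, mul_one]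
  -- `s ∈ Q`
  have hsQ : y⁻¹ * r * y ∈ Q := by
    by_contra hsQ
    have h1 := h.Ttr _ hs hsQ w₀ hw₀ hw₀1 hw₀f
    have h2 : r * d * r⁻¹ = d * f := by
      calc r * d * r⁻¹ = y * ((y⁻¹ * r * y) * w₀ * (y⁻¹ * r * y)⁻¹) * y⁻¹ := by rw [hdd]; group
        _ = y * (w₀ * f) * y⁻¹ := by rw [h1]
        _ = d * (y * f * y⁻¹) := by rw [hdd]; group
        _ = d * f := by rw [hyf]
    rcases hdr with h3 | h3
    · have h4 : d * r = r * d := by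
        calc d * r = (d * r * d⁻¹) * d := by group
          _ = r * d := by rw [h3]
      have h5 : r * d * r⁻¹ = d := by rw [← h4]; group
      rw [h5] at h2
      apply h.f1
      have : d * 1 = d * f := by rw [mul_one]; exact h2
      exact (mul_left_cancel this).symm
    · have h4 : d * r = r * a * d := by
        calc d * r = (d * r * d⁻¹) * d := by group
          _ = r * a * d := by rw [h3]
      have h5 : r⁻¹ * d * r = a * d := by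
        calc r⁻¹ * d * r = r⁻¹ * (d * r) := by group
          _ = r⁻¹ * (r * a * d) := by rw [h4]
          _ = a * d := by group
      have h6 : r * d * r⁻¹ = d * a := by
        calc r * d * r⁻¹ = (r * r) * (r⁻¹ * d * r) * (r * r)⁻¹ := by group
          _ = a * (a * d) * a⁻¹ := by rw [hrr, h5]
          _ = (a * a) * d * a⁻¹ := by group
          _ = d * a⁻¹ := by rw [haa, one_mul]
          _ = d * a := by rw [inv_eq_of_mul_eq_one_left haa]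
      rw [h6] at h2
      exact hane (mul_left_cancel h2)
  -- the contradiction
  set y₂ := y * p₁ * g with hy₂
  have hs₂ : y₂⁻¹ * r * y₂ ∈ T := by
    have h1 := h.QN _ (P.inv_mem hp₁) _ hsQ
    have h2 := h.gT' _ (h.QT h1)
    have e0 : g⁻¹ * (p₁⁻¹ * (y⁻¹ * r * y) * p₁⁻¹⁻¹) * g = y₂⁻¹ * r * y₂ := by
      rw [hy₂]; group
    rwa [e0] at h2
  have h1 := h.sq_mem_Q hs₂
  have e0 : (y₂⁻¹ * r * y₂) * (y₂⁻¹ * r * y₂) = y⁻¹ * (p₁⁻¹ * f * p₁) * y := by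
    calc (y₂⁻¹ * r * y₂) * (y₂⁻¹ * r * y₂) = y₂⁻¹ * (r * r) * y₂ := by group
      _ = y₂⁻¹ * (g * f * g⁻¹) * y₂ := by rw [hrr]
      _ = y⁻¹ * (p₁⁻¹ * f * p₁) * y := by rw [hy₂, hyd]; group
  rw [e0] at h1
  obtain ⟨hw, hw1, hwf⟩ := h.conj_f_ne (P.inv_mem hp₁) (h.inv_notT hp₁T)
  rw [inv_inv] at hw hw1 hwf
  exact h.Eout hmin hyL (hall _ hyL) hw hw1 hwf h1

end Level

/-- The main theorem. -/
theorem main : Cr Q W g ∧ g * f * g⁻¹ = f := by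
  classical
  have hex := h.exists_level
  have hspec := Nat.find_spec hex
  have hmin : ∀ j < Nat.find hex, ∀ y ∈ LL P T g j, ¬ Cr Q W y := by
    intro j hj y hy hc
    exact Nat.find_min hex hj ⟨y, hy, hc⟩
  rcases hk : Nat.find hex with _ | _ | k
  · rw [hk] at hspec hmin
    have hall := h.all_crit hmin hspec _ h.g_mem_L0
    exact ⟨hall, h.Dfix hmin h.g_mem_L0 hall⟩
  · exact (h.one_absurd hmin hk hspec).elim
  · exact (h.two_absurd hmin hk hspec).elim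

end FD

end Cfsg.Agent.Lib.JSub.Flip

namespace Cfsg.Agent.Lib.JSub.Flip

namespace FD

variable {G : Type*} [Group G] {P T Q W : Subgroup G} {f g : G} (h : FD P T Q W f g)

include h

/-- `Q` has exponent two. -/
theorem Q_sq {q : G} (hq : q ∈ Q) : q * q = 1 := by
  obtain ⟨⟨w, hw, hwQ⟩, hfix⟩ := h.main
  -- the subgroup generated by squares
  set D := Subgroup.closure {x | ∃ q ∈ Q, x = q * q} with hD
  have hDQ : D ≤ Q := by
    rw [hD, Subgroup.closure_le]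
    rintro _ ⟨q, hq, rfl⟩
    exact Q.mul_mem hq hq
  have hw' : g⁻¹ * w * g ∈ T := h.gT' _ (h.QT (h.WQ hw))
  have hPD : ∀ p ∈ P, ∀ u ∈ D, p * u * p⁻¹ ∈ D := by
    intro p hp u hu
    induction hu using Subgroup.closure_induction with
    | mem u hu =>
      obtain ⟨q, hq, rfl⟩ := hu
      exact Subgroup.subset_closure ⟨p * q * p⁻¹, h.QN p hp q hq, by group⟩
    | one => simp [D.one_mem]
    | mul a b _ _ ha hb =>
      have e : p * (a * b) * p⁻¹ = (p * a * p⁻¹) * (p * b * p⁻¹) := by group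
      rw [e]
      exact D.mul_mem ha hb
    | inv a _ ha =>
      have e : p * a⁻¹ * p⁻¹ = (p * a * p⁻¹)⁻¹ := by group
      rw [e]
      exact D.inv_mem ha
  have hgD : ∀ u ∈ D, g * u * g⁻¹ ∈ D := by
    intro u hu
    induction hu using Subgroup.closure_induction with
    | mem u hu =>
      obtain ⟨q, hq, rfl⟩ := hu
      -- replace `q` by an element of `Q ∩ g Q g⁻¹`
      obtain ⟨q', hq', hq'g, e⟩ : ∃ q' ∈ Q, g⁻¹ * q' * g ∈ Q ∧ q' * q' = q * q := by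
        by_cases hqg : g⁻¹ * q * g ∈ Q
        · exact ⟨q, hq, hqg, rfl⟩
        · refine ⟨q * w, Q.mul_mem hq (h.WQ hw), ?_, ?_⟩
          · have h1 := h.mul_mem_Q (h.gT' _ (h.QT hq)) hqg hw' hwQ
            have e : g⁻¹ * (q * w) * g = g⁻¹ * q * g * (g⁻¹ * w * g) := by group
            rwa [e]
          · calc q * w * (q * w) = q * (w * q) * w := by group
              _ = q * (q * w) * w := by rw [h.QC q hq w hw]
              _ = q * q * (w * w) := by group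
              _ = q * q := by rw [h.Wsq w hw, mul_one]
      rw [← e]
      refine Subgroup.subset_closure ⟨g * q' * g⁻¹, ?_, by group⟩
      have h1 := h.QN _ (h.TP h.g2) _ hq'g
      have e2 : g * g * (g⁻¹ * q' * g) * (g * g)⁻¹ = g * q' * g⁻¹ := by group
      rwa [e2] at h1
    | one => simp [D.one_mem]
    | mul a b _ _ ha hb =>
      have e : g * (a * b) * g⁻¹ = (g * a * g⁻¹) * (g * b * g⁻¹) := by group
      rw [e]
      exact D.mul_mem ha hb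
    | inv a _ ha =>
      have e : g * a⁻¹ * g⁻¹ = (g * a * g⁻¹)⁻¹ := by group
      rw [e]
      exact D.inv_mem ha
  have hbot := h.O2 D hDQ hPD hgD
  have hm : q * q ∈ D := Subgroup.subset_closure ⟨q, hq, rfl⟩
  rw [hbot, Subgroup.mem_bot] at hm
  exact hm

/-- `Q` is abelian. -/
theorem Q_comm {a b : G} (ha : a ∈ Q) (hb : b ∈ Q) : a * b = b * a := by
  have h1 := h.Q_sq (Q.mul_mem ha hb)
  have h2 := h.Q_sq ha
  have h3 := h.Q_sq hb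
  calc a * b = a * b * (b * a * (b * a)) := by rw [h.Q_sq (Q.mul_mem hb ha), mul_one]
    _ = a * (b * b) * a * (b * a) := by group
    _ = b * a := by rw [h3, mul_one, h2, one_mul]

/-- The square of an element outside `Q` and `g Q g⁻¹`. -/
theorem third {v : G} (hv : v ∈ T) (hvQ : v ∉ Q) (hvg : g⁻¹ * v * g ∉ Q) : v * v = f := by
  obtain ⟨⟨w, hw, hwQ⟩, hfix⟩ := h.main
  have hfg : g⁻¹ * f * g = f := by
    calc g⁻¹ * f * g = g⁻¹ * (g * f * g⁻¹) * g := by rw [hfix]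
      _ = f := by group
  have hw1 : w ≠ 1 := by
    rintro rfl
    apply hwQ
    have : g⁻¹ * 1 * g = 1 := by group
    rw [this]
    exact Q.one_mem
  have hwf : w ≠ f := by
    rintro rfl
    apply hwQ
    rw [hfg]
    exact h.WQ hw
  have hw' : g⁻¹ * w * g ∈ T := h.gT' _ (h.QT (h.WQ hw))
  set t₁ := v * w with ht₁
  have ht₁T : t₁ ∈ T := T.mul_mem hv (h.QT (h.WQ hw))
  have ht₁Q : t₁ ∉ Q := fun hx => hvQ (by
    have := Q.mul_mem hx (Q.inv_mem (h.WQ hw))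
    rw [ht₁] at this
    simpa using this)
  have ht₁g : g⁻¹ * t₁ * g ∈ Q := by
    have h1 := h.mul_mem_Q (h.gT' _ hv) hvg hw' hwQ
    have e : g⁻¹ * (v * w) * g = g⁻¹ * v * g * (g⁻¹ * w * g) := by group
    rw [ht₁, e]
    exact h1
  have ht₁t₁ : t₁ * t₁ = 1 := by
    have h1 := h.Q_sq ht₁g
    have e : (g⁻¹ * t₁ * g) * (g⁻¹ * t₁ * g) = g⁻¹ * (t₁ * t₁) * g := by group
    rw [e] at h1
    calc t₁ * t₁ = g * (g⁻¹ * (t₁ * t₁) * g) * g⁻¹ := by group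
      _ = 1 := by rw [h1]; group
  have ev : v = t₁ * w := by
    rw [ht₁, mul_assoc, h.Wsq w hw, mul_one]
  have h2 := h.Ttr t₁ ht₁T ht₁Q w hw hw1 hwf
  rw [ev]
  calc t₁ * w * (t₁ * w) = (t₁ * w * t₁⁻¹) * (t₁ * t₁) * w := by group
    _ = (w * f) * 1 * w := by rw [h2, ht₁t₁]
    _ = f * (w * w) := by
      rw [mul_one, h.comm_f hw]; group
    _ = f := by rw [h.Wsq w hw, mul_one]

/-- An involution of `T` lies in `Q` or `g Q g⁻¹`. -/
theorem inv_cases {v : G} (hv : v ∈ T) (hvv : v * v = 1) : v ∈ Q ∨ g⁻¹ * v * g ∈ Q := by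
  by_contra hcon
  push Not at hcon
  have := h.third hv hcon.1 hcon.2
  exact h.f1 (this.symm.trans hvv)

/-- `Q ∩ g Q g⁻¹` is central in `T`. -/
theorem E_central {e t : G} (he : e ∈ Q) (heg : g⁻¹ * e * g ∈ Q) (ht : t ∈ T) : t * e = e * t := by
  obtain ⟨⟨w, hw, hwQ⟩, hfix⟩ := h.main
  by_cases htQ : t ∈ Q
  · exact h.Q_comm htQ he
  by_cases htg : g⁻¹ * t * g ∈ Q
  · have h1 := h.Q_comm htg heg
    calc t * e = g * ((g⁻¹ * t * g) * (g⁻¹ * e * g)) * g⁻¹ := by group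
      _ = g * ((g⁻¹ * e * g) * (g⁻¹ * t * g)) * g⁻¹ := by rw [h1]
      _ = e * t := by group
  · have hw' : g⁻¹ * w * g ∈ T := h.gT' _ (h.QT (h.WQ hw))
    have h1 := h.mul_mem_Q (h.gT' _ ht) htg hw' hwQ
    have h2 := h.Q_comm h1 heg
    have h3 : (t * w) * e = e * (t * w) := by
      calc (t * w) * e = g * ((g⁻¹ * t * g * (g⁻¹ * w * g)) * (g⁻¹ * e * g)) * g⁻¹ := by group
        _ = g * ((g⁻¹ * e * g) * (g⁻¹ * t * g * (g⁻¹ * w * g))) * g⁻¹ := by rw [h2]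
        _ = e * (t * w) := by group
    have h4 := h.Q_comm (h.WQ hw) he
    have e1 : t = (t * w) * w := by rw [mul_assoc, h.Wsq w hw, mul_one]
    rw [e1]
    calc t * w * w * e = t * w * (w * e) := by group
      _ = t * w * (e * w) := by rw [h4]
      _ = (t * w) * e * w := by group
      _ = e * (t * w) * w := by rw [h3]
      _ = e * (t * w * w) := by group

/-- Every square in `T` is `1` or `f`. -/
theorem sq_cases {t : G} (ht : t ∈ T) : t * t = 1 ∨ t * t = f := by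
  by_cases htQ : t ∈ Q
  · exact Or.inl (h.Q_sq htQ)
  by_cases htg : g⁻¹ * t * g ∈ Q
  · left
    have h1 := h.Q_sq htg
    calc t * t = g * ((g⁻¹ * t * g) * (g⁻¹ * t * g)) * g⁻¹ := by group
      _ = 1 := by rw [h1]; group
  · exact Or.inr (h.third ht htQ htg)

/-- Some square in `T` is `f`. -/
theorem exists_sq : ∃ v ∈ T, v * v = f := by
  obtain ⟨⟨w, hw, hwQ⟩, hfix⟩ := h.main
  have hw' : g * w * g⁻¹ ∈ T := h.gT _ (h.QT (h.WQ hw))
  have hwQ' : g * w * g⁻¹ ∉ Q := by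
    intro hx
    apply hwQ
    have h1 := h.QN _ (h.TP (T.inv_mem h.g2)) _ hx
    have e : (g * g)⁻¹ * (g * w * g⁻¹) * (g * g)⁻¹⁻¹ = g⁻¹ * w * g := by group
    rwa [e] at h1
  refine ⟨(g * w * g⁻¹) * w, T.mul_mem hw' (h.QT (h.WQ hw)), ?_⟩
  apply h.third (T.mul_mem hw' (h.QT (h.WQ hw)))
  · intro hx
    apply hwQ'
    have := Q.mul_mem hx (Q.inv_mem (h.WQ hw))
    simpa using this
  · intro hx
    apply hwQ
    have h1 : w ∈ Q := h.WQ hw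
    have := Q.mul_mem (Q.inv_mem h1) hx
    have e : w⁻¹ * (g⁻¹ * (g * w * g⁻¹ * w) * g) = g⁻¹ * w * g := by group
    rwa [e] at this

end FD

end Cfsg.Agent.Lib.JSub.Flip
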