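import Cfsg.Agent.Lib.JSub.Core

/-!
# Transvections with a common centre inverting commuting elements of order three
-/

set_option autoImplicit false
set_option linter.unusedSectionVars false
set_option linter.unusedSimpArgs false
set_option linter.style.haveILetI false

namespace Cfsg.Agent.Lib.JSub.TV

open Cfsg.Agent.Lib.SolvFF.Core
open Cfsg.Agent.Lib.QuadAct.FFTrans

variable {Γ : Type*} [Group Γ] [Finite Γ] {M : Type*} [AddCommGroup M] [Module (ZMod 2) M] [Finite M]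
  {ρ : Γ →* Module.End (ZMod 2) M}

theorem rho_mul (a b : Γ) (w : M) : ρ (a * b) w = ρ a (ρ b w) := by
  rw [map_mul, Module.End.mul_apply]

theorem rho_mul' (a b : Γ) (w : M) : ρ a (ρ b w) = ρ (a * b) w := (rho_mul a b w).symm

theorem eq_of_add {a b : M} (h : a + b = 0) : a = b := by
  calc a = a + (b + b) := by rw [add_self_eq, add_zero]
    _ = (a + b) + b := by abel
    _ = b := by rw [h, zero_add]

theorem inv_eq_of_cube {d : Γ} (hd3 : d ^ 3 = 1) : d⁻¹ = d * d := by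
  rw [inv_eq_iff_mul_eq_one, ← mul_assoc]
  have e : d ^ 3 = d * d * d := by rw [pow_succ, pow_two]
  rw [← e, hd3]

/-- `τ` moves `ρ x y` to `ρ (x * x) y`. -/
theorem tau_apply {τ x : Γ} {y : M} (hx3 : x ^ 3 = 1) (hinv : τ * x * τ⁻¹ = x⁻¹) (hy : ρ τ y = y) :
    ρ τ (ρ x y) = ρ (x * x) y := by
  have h1 : τ * x = x⁻¹ * τ := by rw [← hinv]; group
  rw [← rho_mul, h1, rho_mul, hy, inv_eq_of_cube hx3]

/-- The centre of `τ` is `y`. -/
theorem center_eq {τ d : Γ} {e y : M} {f : M →ₗ[ZMod 2] ZMod 2} (hT : TV ρ τ e f) (hd3 : d ^ 3 = 1)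
    (hinv : τ * d * τ⁻¹ = d⁻¹) (hy : ρ τ y = y) (hrel : y + ρ d y + ρ (d * d) y = 0) (hy0 : y ≠ 0) :
    e = y := by
  have h1 := tau_apply hd3 hinv hy
  rw [hT.apply] at h1
  rcases zmod2_cases (f (ρ d y)) with h | h
  · rw [h, zero_smul, add_zero] at h1
    rw [← h1, add_assoc, add_self_eq, add_zero] at hrel
    exact absurd hrel hy0
  · rw [h, one_smul] at h1
    rw [← h1] at hrel
    have h2 : y + e = 0 := by
      have e1 : y + ρ d y + (ρ d y + e) = y + e + (ρ d y + ρ d y) := by abel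
      rwa [e1, add_self_eq, add_zero] at hrel
    exact (eq_of_add h2).symm

/-- The dichotomy for an element inverted by the transvection. -/
theorem dich {τ x : Γ} {y : M} {f : M →ₗ[ZMod 2] ZMod 2} (hT : TV ρ τ y f) (hx3 : x ^ 3 = 1)
    (hinv : τ * x * τ⁻¹ = x⁻¹) (hy : ρ τ y = y) :
    ρ x y = y ∨ y + ρ x y + ρ (x * x) y = 0 := by
  have h1 := tau_apply hx3 hinv hy
  rw [hT.apply] at h1
  rcases zmod2_cases (f (ρ x y)) with h | h
  · left
    rw [h, zero_smul, add_zero] at h1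
    have h2 : ρ x (ρ x y) = ρ x y := by rw [← rho_mul, ← h1]
    exact rho_injective x h2
  · right
    rw [h, one_smul] at h1
    rw [← h1]
    have e1 : y + ρ x y + (ρ x y + y) = (y + y) + (ρ x y + ρ x y) := by abel
    rw [e1, add_self_eq, add_self_eq, add_zero]

theorem tau_sq {τ : Γ} {y : M} {f : M →ₗ[ZMod 2] ZMod 2} (hρ : Function.Injective ρ)
    (hT : TV ρ τ y f) : τ * τ = 1 := by
  apply hρ
  rw [map_one]
  ext w
  rw [rho_mul, hT.apply, hT.apply, map_add, map_smul, hT.fe, smul_zero, add_zero, add_assoc,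
    ← add_smul]
  have h : f w + f w = 0 := by
    rcases zmod2_cases (f w) with h | h <;> rw [h] <;> decide
  rw [h, zero_smul, add_zero]
  rfl

/-- An element inverted by the transvection and fixing its centre is trivial. -/
theorem eq_one_of_fix {τ x : Γ} {y : M} {f : M →ₗ[ZMod 2] ZMod 2} (hρ : Function.Injective ρ)
    (hT : TV ρ τ y f) (hx3 : x ^ 3 = 1) (hinv : τ * x * τ⁻¹ = x⁻¹) (hfix : ρ x y = y) : x = 1 := by
  have hτ2 := tau_sq hρ hT
  have hxinv : x⁻¹ = x * x := inv_eq_of_cube hx3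
  have hfix' : ρ x⁻¹ y = y := by
    have h1 : ρ x⁻¹ (ρ x y) = y := by
      rw [← rho_mul, inv_mul_cancel, map_one]
      rfl
    rwa [hfix] at h1
  -- `x * x` acts as `w ↦ w + h w • y`
  have hact : ∀ w, ρ (x * x) w = w + (f (ρ x⁻¹ (w + f w • y)) + f w) • y := by
    intro w
    have e1 : x * x = x * τ * x⁻¹ * τ := by
      have h1 : τ * x⁻¹ * τ⁻¹ = x := by
        have := congrArg (fun z => z⁻¹) hinv
        simp only [mul_inv_rev, inv_inv] at this
        rwa [← mul_assoc] at this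
      have h2 : τ⁻¹ = τ := by
        rw [inv_eq_iff_mul_eq_one]
        exact hτ2
      rw [h2] at h1
      calc x * x = x * (τ * x⁻¹ * τ) := by rw [h1]
        _ = _ := by group
    rw [e1, rho_mul, rho_mul, rho_mul, hT.apply w, hT.apply, map_add, map_smul, hfix]
    rw [← rho_mul, mul_inv_cancel, map_one]
    have e2 : ρ x⁻¹ (w + f w • y) = ρ x⁻¹ w + f w • y := by
      rw [map_add, map_smul, hfix']
    show w + f w • y + f (ρ x⁻¹ (w + f w • y)) • y = _
    rw [add_smul]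
    abel
  have hfy : f y = 0 := hT.fe
  apply hρ
  rw [map_one]
  ext w
  -- `x = (x * x) * (x * x)`
  have e3 : x = (x * x) * (x * x) := by
    have h3 : x * x * x = 1 := by
      have e : x ^ 3 = x * x * x := by rw [pow_succ, pow_two]
      rw [← e, hx3]
    calc x = (x * x * x) * x := by rw [h3, one_mul]
      _ = _ := by group
  have hH : ∀ (w : M) (c : ZMod 2), f (ρ x⁻¹ (w + c • y + f (w + c • y) • y)) + f (w + c • y) =
      f (ρ x⁻¹ (w + f w • y)) + f w := by
    intro w c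
    have e4 : f (w + c • y) = f w := by
      rw [map_add, map_smul, hfy, smul_zero, add_zero]
    rw [e4]
    have e5 : w + c • y + f w • y = (w + f w • y) + c • y := by abel
    rw [e5, map_add, map_smul, hfix', map_add, map_smul, hfy, smul_zero, add_zero]
  rw [e3, rho_mul, hact w, hact (w + _), hH]
  rw [add_assoc, ← add_smul]
  have h : ∀ c : ZMod 2, c + c = 0 := by decide
  rw [h, zero_smul, add_zero]
  rfl

/-- **The core computation.** -/
theorem eq_or_eq_inv {τ d d' : Γ} {y : M} {f : M →ₗ[ZMod 2] ZMod 2} (hρ : Function.Injective ρ)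
    (hT : TV ρ τ y f) (hd3 : d ^ 3 = 1) (hd'3 : d' ^ 3 = 1) (hc : d * d' = d' * d)
    (hinv : τ * d * τ⁻¹ = d⁻¹) (hinv' : τ * d' * τ⁻¹ = d'⁻¹) (hy : ρ τ y = y)
    (hrel : y + ρ d y + ρ (d * d) y = 0) (hrel' : y + ρ d' y + ρ (d' * d') y = 0) (hy0 : y ≠ 0) :
    d' = d⁻¹ ∨ d' = d := by
  have hcc : Commute d d' := hc
  -- the two products
  set g := d * d' with hg
  set g' := d * d'⁻¹ with hg'
  have hci : Commute d d'⁻¹ := hcc.inv_right
  have hg3 : g ^ 3 = 1 := by
    rw [hg, hcc.mul_pow, hd3, hd'3, one_mul]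
  have hg'3 : g' ^ 3 = 1 := by
    rw [hg', hci.mul_pow, hd3, inv_pow, hd'3, inv_one, one_mul]
  have hinvg : τ * g * τ⁻¹ = g⁻¹ := by
    have e : τ * g * τ⁻¹ = (τ * d * τ⁻¹) * (τ * d' * τ⁻¹) := by rw [hg]; group
    rw [e, hinv, hinv', hg, mul_inv_rev]
    exact (hcc.inv_left.inv_right).eq
  have hinvg' : τ * g' * τ⁻¹ = g'⁻¹ := by
    have e : τ * g' * τ⁻¹ = (τ * d * τ⁻¹) * (τ * d' * τ⁻¹)⁻¹ := by rw [hg']; group
    rw [e, hinv, hinv', hg', mul_inv_rev]
    exact (hci.inv_left.inv_right).eq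
  rcases dich hT hg3 hinvg hy with h1 | h1
  · left
    have := eq_one_of_fix hρ hT hg3 hinvg h1
    exact (eq_inv_of_mul_eq_one_right this)
  rcases dich hT hg'3 hinvg' hy with h2 | h2
  · right
    have := eq_one_of_fix hρ hT hg'3 hinvg' h2
    exact (mul_inv_eq_one.mp this).symm
  exfalso
  apply hy0
  -- the sum
  have hdi : d⁻¹ = d * d := inv_eq_of_cube hd3
  have hd'i : d'⁻¹ = d' * d' := inv_eq_of_cube hd'3
  have h3 : ρ d (y + ρ d' y + ρ (d' * d') y) = 0 := by rw [hrel', map_zero]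
  have h4 : ρ (d * d) (y + ρ d' y + ρ (d' * d') y) = 0 := by rw [hrel', map_zero]
  rw [map_add, map_add, ← rho_mul, ← rho_mul] at h3 h4
  have e1 : ρ (g * g) y = ρ (d * d * (d' * d')) y := by
    congr 2
    rw [hg]
    exact (hcc.mul_mul_mul_comm d d').symm
  have e2 : ρ g' y = ρ (d * (d' * d')) y := by
    rw [hg', hd'i]
  have e3 : ρ (g' * g') y = ρ (d * d * d') y := by
    congr 2
    rw [hg', (hci.mul_mul_mul_comm d d'⁻¹).symm]
    congr 1
    rw [hd'i]
    have h3 : d' * d' * d' = 1 := by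
      have e : d' ^ 3 = d' * d' * d' := by rw [pow_succ, pow_two]
      rw [← e, hd'3]
    calc d' * d' * (d' * d') = (d' * d' * d') * d' := by group
      _ = d' := by rw [h3, one_mul]
  rw [e1] at h1
  rw [e2, e3] at h2
  have hg1 : ρ (d * d') y = ρ g y := by rw [hg]
  rw [hg1] at h3
  -- assemble
  have key : (y + ρ d y + ρ (d * d) y) + (ρ d y + ρ g y + ρ (d * (d' * d')) y) +
      (ρ (d * d) y + ρ (d * d * d') y + ρ (d * d * (d' * d')) y) +
      (y + ρ g y + ρ (d * d * (d' * d')) y) + (y + ρ (d * (d' * d')) y + ρ (d * d * d') y) =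
      y + (y + y) + (ρ d y + ρ d y) + (ρ (d * d) y + ρ (d * d) y) + (ρ g y + ρ g y) +
      (ρ (d * (d' * d')) y + ρ (d * (d' * d')) y) + (ρ (d * d * d') y + ρ (d * d * d') y) +
      (ρ (d * d * (d' * d')) y + ρ (d * d * (d' * d')) y) := by abel
  rw [hrel, h3, h4, h1, h2] at key
  simp only [add_self_eq, add_zero] at key
  exact key.symm

section group

open Cfsg.Agent.Lib.QuadAct.FFBasic Cfsg.Agent.Lib.QuadAct.FFQuot Cfsg.Agent.Lib.QuadAct.FFMin
open Cfsg.Agent.Lib.SFourFree.Offender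

universe u

variable {X : Type u} [Group X] [Finite X] {V : Subgroup X} [hVn : V.Normal]

/-- The core at the level of the group. -/
theorem X_core (hsep : Cfsg.IsPSolvable 2 X) (hVe : Cfsg.IsElementaryAbelian 2 V)
    (hO : Cfsg.pCore 2 (X ⧸ Subgroup.centralizer (V : Set X)) = ⊥) (F : Set (Subgroup X))
    (hbest : ∀ A ∈ F, Cfsg.IsBestOffenderOn 2 V A) {y : X} (hyV : y ∈ V) (hy1 : y ≠ 1)
    (hyF : ∀ A ∈ F, ∀ a ∈ A, a * y * a⁻¹ = y) {d d' : X}
    (hdd' : d * d' * d⁻¹ * d'⁻¹ ∈ Subgroup.centralizer (V : Set X))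
    (hd3 : d ^ 3 ∈ Subgroup.centralizer (V : Set X))
    (hd'3 : d' ^ 3 ∈ Subgroup.centralizer (V : Set X))
    (hrel : y * (d * y * d⁻¹) * ((d * d) * y * (d * d)⁻¹) = 1)
    (hrel' : y * (d' * y * d'⁻¹) * ((d' * d') * y * (d' * d')⁻¹) = 1)
    (hii : ∃ A ∈ F, ∃ a ∈ A, a * d * a⁻¹ * d⁻¹ ∉ Subgroup.centralizer (V : Set X))
    (hiii : ∀ A ∈ F, ∀ a ∈ A, a * d * a⁻¹ * d⁻¹ ∈ Subgroup.centralizer (V : Set X) ∨
      a * d * a⁻¹ * d ∈ Subgroup.centralizer (V : Set X))
    (hiii' : ∀ A ∈ F, ∀ a ∈ A, a * d' * a⁻¹ * d'⁻¹ ∈ Subgroup.centralizer (V : Set X) ∨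
      a * d' * a⁻¹ * d' ∈ Subgroup.centralizer (V : Set X)) :
    d' * d ∈ Subgroup.centralizer (V : Set X) ∨ d' * d⁻¹ ∈ Subgroup.centralizer (V : Set X) := by
  classical
  obtain ⟨M, _, _, _, ρ, ι, D⟩ := exists_coordQ (p := 2) hVe
  have hπ : ∀ x : X, piV V x = 1 ↔ x ∈ Subgroup.centralizer (V : Set X) := by
    intro x
    rw [← MonoidHom.mem_ker, piV_ker]
  have hsep' : Cfsg.IsPSolvable 2 (X ⧸ Subgroup.centralizer (V : Set X)) :=
    Cfsg.Agent.Lib.Core.PSolvable.isPSolvable_of_surjective _ piV_surj hsep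
  have hS1 := Cfsg.Agent.Lib.QuadAct.Sections.centralizer_pPrimeCore_le hsep' hO
  obtain ⟨my, hmy⟩ := D.surj y hyV
  have hι0 : ι 0 = 1 := by
    have h := D.add 0 0
    rw [add_zero] at h
    exact (mul_eq_left.mp h.symm)
  have hmy0 : my ≠ 0 := fun h => hy1 (by rw [← hmy, h, hι0])
  have hconj : ∀ (g : X) (m : M), ι (ρ (piV V g) m) = g * ι m * g⁻¹ := fun g m => D.conj g m
  -- relations in the module
  have hrelM : ∀ {g : X}, y * (g * y * g⁻¹) * ((g * g) * y * (g * g)⁻¹) = 1 →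
      my + ρ (piV V g) my + ρ (piV V g * piV V g) my = 0 := by
    intro g hg
    apply D.inj
    rw [hι0, D.add, D.add, ← map_mul, hconj, hconj, hmy]
    exact hg
  have h1 := hrelM hrel
  have h1' := hrelM hrel'
  set t := piV V d with ht
  set t' := piV V d' with ht'
  have ht3 : t ^ 3 = 1 := by
    rw [ht, ← map_pow]
    exact (hπ _).mpr hd3
  have ht'3 : t' ^ 3 = 1 := by
    rw [ht', ← map_pow]
    exact (hπ _).mpr hd'3
  have htt' : t * t' = t' * t := by
    have := (hπ _).mpr hdd'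
    rw [map_mul, map_mul, map_mul, map_inv, map_inv] at this
    have h2 := mul_inv_eq_one.mp this
    exact mul_inv_eq_iff_eq_mul.mp h2
  -- the transvection
  obtain ⟨A, hA, a, ha, han⟩ := hii
  have hb : Best ρ (A.map (piV V)) := best_map_of_isBest D (hbest A hA)
  obtain ⟨k, B, hB, -, hsup⟩ := exists_decomp D.faith hS1 hb
  have hex : ∃ i, ¬ (B i ≤ Subgroup.centralizer ({t} : Set _)) := by
    by_contra hcon
    push Not at hcon
    have h2 : A.map (piV V) ≤ Subgroup.centralizer ({t} : Set _) := by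
      rw [← hsup]
      exact iSup_le hcon
    have h3 := h2 (Subgroup.mem_map_of_mem (piV V) ha)
    rw [Subgroup.mem_centralizer_singleton_iff] at h3
    apply han
    rw [← hπ, map_mul, map_mul, map_mul, map_inv, map_inv, ← ht, h3]
    group
  obtain ⟨i, hi⟩ := hex
  obtain ⟨τ, hτz, e, f, hT⟩ := exists_TV D.faith hS1 (hB i).2
  have hτA : τ ∈ A.map (piV V) := (hB i).1 (by rw [hτz]; exact Subgroup.mem_zpowers τ)
  obtain ⟨j, hj, rfl⟩ := hτA
  have hjt : ¬ (piV V j * t = t * piV V j) := by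
    intro h
    apply hi
    rw [hτz, Subgroup.zpowers_le, Subgroup.mem_centralizer_singleton_iff]
    exact h
  have hinv : piV V j * t * (piV V j)⁻¹ = t⁻¹ := by
    rcases hiii A hA j hj with h | h
    · exfalso
      apply hjt
      have := (hπ _).mpr h
      rw [map_mul, map_mul, map_inv, map_inv, ← ht] at this
      have h2 := mul_inv_eq_one.mp this
      exact mul_inv_eq_iff_eq_mul.mp h2
    · have := (hπ _).mpr h
      rw [map_mul, map_mul, map_inv, ← ht] at this
      exact eq_inv_of_mul_eq_one_left this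
  have hτy : ρ (piV V j) my = my := by
    apply D.inj
    rw [hconj, hmy]
    exact hyF A hA j hj
  have he : e = my := center_eq hT ht3 hinv hτy h1 hmy0
  subst he
  have hinv' : piV V j * t' * (piV V j)⁻¹ = t'⁻¹ := by
    rcases hiii' A hA j hj with h | h
    · exfalso
      have h2 := (hπ _).mpr h
      rw [map_mul, map_mul, map_inv, map_inv, ← ht'] at h2
      have h3 := mul_inv_eq_one.mp h2
      have h4 : piV V j * t' = t' * piV V j := mul_inv_eq_iff_eq_mul.mp h3
      obtain ⟨u, hu⟩ := hT.f1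
      have h5 : ρ t' e = f (ρ t' u) • e := by
        have h6 : ρ t' (ρ (piV V j) u) = ρ (piV V j) (ρ t' u) := by
          rw [← rho_mul, ← rho_mul, h4]
        rw [hT.apply, hT.apply, map_add, map_smul, hu, one_smul] at h6
        exact add_left_cancel h6
      rcases zmod2_cases (f (ρ t' u)) with h7 | h7
      · rw [h7, zero_smul] at h5
        exact hmy0 (rho_injective t' (by rw [h5, map_zero]))
      · rw [h7, one_smul] at h5
        have h8 : ρ (t' * t') e = e := by rw [rho_mul, h5, h5]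
        rw [h5, h8, add_self_eq, zero_add] at h1'
        exact hmy0 h1'
    · have := (hπ _).mpr h
      rw [map_mul, map_mul, map_inv, ← ht'] at this
      exact eq_inv_of_mul_eq_one_left this
  rcases eq_or_eq_inv D.faith hT ht3 ht'3 htt' hinv hinv' hτy h1 h1' hmy0 with h | h
  · left
    rw [← hπ, map_mul, ← ht, ← ht', h, inv_mul_cancel]
  · right
    rw [← hπ, map_mul, map_inv, ← ht, ← ht', h, mul_inv_cancel]

/-- The transvection with centre `y` inverting `d`. -/
theorem X_tv (hsep : Cfsg.IsPSolvable 2 X) (hVe : Cfsg.IsElementaryAbelian 2 V)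
    (hO : Cfsg.pCore 2 (X ⧸ Subgroup.centralizer (V : Set X)) = ⊥) (F : Set (Subgroup X))
    (hbest : ∀ A ∈ F, Cfsg.IsBestOffenderOn 2 V A) {y : X} (hyV : y ∈ V) (hy1 : y ≠ 1)
    (hyF : ∀ A ∈ F, ∀ a ∈ A, a * y * a⁻¹ = y) {d : X}
    (hd3 : d ^ 3 ∈ Subgroup.centralizer (V : Set X))
    (hrel : y * (d * y * d⁻¹) * ((d * d) * y * (d * d)⁻¹) = 1)
    (hii : ∃ A ∈ F, ∃ a ∈ A, a * d * a⁻¹ * d⁻¹ ∉ Subgroup.centralizer (V : Set X))
    (hiii : ∀ A ∈ F, ∀ a ∈ A, a * d * a⁻¹ * d⁻¹ ∈ Subgroup.centralizer (V : Set X) ∨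
      a * d * a⁻¹ * d ∈ Subgroup.centralizer (V : Set X)) :
    ∃ A ∈ F, ∃ a ∈ A, a * d * a⁻¹ * d ∈ Subgroup.centralizer (V : Set X) ∧
      ∀ v ∈ V, a * v * a⁻¹ * v⁻¹ = 1 ∨ a * v * a⁻¹ * v⁻¹ = y := by
  classical
  obtain ⟨M, _, _, _, ρ, ι, D⟩ := exists_coordQ (p := 2) hVe
  have hπ : ∀ x : X, piV V x = 1 ↔ x ∈ Subgroup.centralizer (V : Set X) := by
    intro x
    rw [← MonoidHom.mem_ker, piV_ker]
  have hsep' : Cfsg.IsPSolvable 2 (X ⧸ Subgroup.centralizer (V : Set X)) :=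
    Cfsg.Agent.Lib.Core.PSolvable.isPSolvable_of_surjective _ piV_surj hsep
  have hS1 := Cfsg.Agent.Lib.QuadAct.Sections.centralizer_pPrimeCore_le hsep' hO
  obtain ⟨my, hmy⟩ := D.surj y hyV
  have hι0 : ι 0 = 1 := by
    have h := D.add 0 0
    rw [add_zero] at h
    exact (mul_eq_left.mp h.symm)
  have hmy0 : my ≠ 0 := fun h => hy1 (by rw [← hmy, h, hι0])
  have hconj : ∀ (g : X) (m : M), ι (ρ (piV V g) m) = g * ι m * g⁻¹ := fun g m => D.conj g m
  have hrelM : ∀ {g : X}, y * (g * y * g⁻¹) * ((g * g) * y * (g * g)⁻¹) = 1 →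
      my + ρ (piV V g) my + ρ (piV V g * piV V g) my = 0 := by
    intro g hg
    apply D.inj
    rw [hι0, D.add, D.add, ← map_mul, hconj, hconj, hmy]
    exact hg
  have h1 := hrelM hrel
  set t := piV V d with ht
  have ht3 : t ^ 3 = 1 := by
    rw [ht, ← map_pow]
    exact (hπ _).mpr hd3
  obtain ⟨A, hA, a, ha, han⟩ := hii
  have hb : Best ρ (A.map (piV V)) := best_map_of_isBest D (hbest A hA)
  obtain ⟨k, B, hB, -, hsup⟩ := exists_decomp D.faith hS1 hb
  have hex : ∃ i, ¬ (B i ≤ Subgroup.centralizer ({t} : Set _)) := by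
    by_contra hcon
    push Not at hcon
    have h2 : A.map (piV V) ≤ Subgroup.centralizer ({t} : Set _) := by
      rw [← hsup]
      exact iSup_le hcon
    have h3 := h2 (Subgroup.mem_map_of_mem (piV V) ha)
    rw [Subgroup.mem_centralizer_singleton_iff] at h3
    apply han
    rw [← hπ, map_mul, map_mul, map_mul, map_inv, map_inv, ← ht, h3]
    group
  obtain ⟨i, hi⟩ := hex
  obtain ⟨τ, hτz, e, f, hT⟩ := exists_TV D.faith hS1 (hB i).2
  have hτA : τ ∈ A.map (piV V) := (hB i).1 (by rw [hτz]; exact Subgroup.mem_zpowers τ)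
  obtain ⟨j, hj, rfl⟩ := hτA
  have hjt : ¬ (piV V j * t = t * piV V j) := by
    intro h
    apply hi
    rw [hτz, Subgroup.zpowers_le, Subgroup.mem_centralizer_singleton_iff]
    exact h
  have hjC : j * d * j⁻¹ * d ∈ Subgroup.centralizer (V : Set X) := by
    rcases hiii A hA j hj with h | h
    · exfalso
      apply hjt
      have := (hπ _).mpr h
      rw [map_mul, map_mul, map_inv, map_inv, ← ht] at this
      have h2 := mul_inv_eq_one.mp this
      exact mul_inv_eq_iff_eq_mul.mp h2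
    · exact h
  have hinv : piV V j * t * (piV V j)⁻¹ = t⁻¹ := by
    have := (hπ _).mpr hjC
    rw [map_mul, map_mul, map_inv, ← ht] at this
    exact eq_inv_of_mul_eq_one_left this
  have hτy : ρ (piV V j) my = my := by
    apply D.inj
    rw [hconj, hmy]
    exact hyF A hA j hj
  have he : e = my := center_eq hT ht3 hinv hτy h1 hmy0
  subst he
  refine ⟨A, hA, j, hj, hjC, fun v hv => ?_⟩
  obtain ⟨m, rfl⟩ := D.surj v hv
  have h2 := hconj j m
  rw [hT.apply, D.add] at h2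
  rcases zmod2_cases (f m) with h3 | h3
  · left
    rw [← h2, h3, zero_smul, hι0, mul_one, mul_inv_cancel]
  · right
    rw [← h2, h3, one_smul, hmy]
    have hc : ι m * ι e = ι e * ι m := by rw [← D.add, ← D.add, add_comm]
    rw [hmy] at hc
    rw [hc]
    group

end group

end Cfsg.Agent.Lib.JSub.TV
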