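import Cfsg.Agent.Lib.JSub.Core
import Cfsg.Agent.Lib.JSub.TV
import Cfsg.Agent.Lib.PointStab.Step
import Cfsg.Agent.Lib.LocalEven.JComp
import Cfsg.Agent.S2941

/-!
# Subnormality of `J(T)`-components
-/

set_option autoImplicit false
set_option linter.unusedSectionVars false
set_option linter.unusedSimpArgs false
set_option linter.style.haveILetI false

open scoped commutatorElement

namespace Cfsg.Agent.Lib.JSub.Main

open Cfsg Subgroup
open Cfsg.Agent.Lib.JSub.Core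
open Cfsg.Agent.Lib.PointStab.Step (nrm_of_conj conj_mem conj_inv_mem mem_Z₁ Z₁
  isSylowIn_of_le mem_of_SN_of_sylow)
open Cfsg.Agent.Lib.Subnormal.Basic
open Cfsg.Agent.Lib.Coprime.Action (IsSylowIn le_of_normal_of_isSylowIn)
open Cfsg.Agent.Lib.PLocal.Thompson (IsMaxIn jOf thompsonSubgroupOf_eq IsAbExp)
open Cfsg.Agent.Lib.LocalStruct.PCoreOf
open Cfsg.Agent.Lib.QuadAct.FFQuot (piV)

variable {G : Type*} [Group G] [Finite G]

theorem isSylowIn_of_two {T L : Subgroup G} (h : IsSylowTwoIn T L) : IsSylowIn 2 T L :=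
  ⟨h.1, h.2.1, by
    have := h.2.2
    rwa [← Nat.not_even_iff_odd, even_iff_two_dvd] at this⟩

/-- The structure of `L` given by Thompson factorization, with the module `V`. -/
theorem exists_CE3 {L T : Subgroup G} (hsolv : Group.IsSolvable L) (hTL : IsSylowTwoIn T L)
    (hRc : centralizer (pCoreOf 2 L : Set G) ≤ pCoreOf 2 L) :
    ∃ C E Y V : Subgroup G, C ≤ E ∧ E ≤ L ∧ L ≤ normalizer (C : Set G) ∧ L ≤ normalizer (E : Set G) ∧
      pCoreOf 2 L ≤ C ∧ (∀ c ∈ C, ∀ z ∈ omegaCenterOf T, c * z = z * c) ∧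
      (∀ x ∈ E, ∀ y ∈ E, x * y * x⁻¹ * y⁻¹ ∈ C) ∧ (∀ x ∈ E, x ^ 3 ∈ C) ∧
      thompsonSubgroupOf 2 T ≤ Y ∧ Y ≤ L ∧ L ≤ normalizer (Y : Set G) ∧
      (∀ y ∈ Y, Odd (orderOf y) → y ∈ E) ∧
      (∀ y ∈ omegaCenterOf T, y ≠ 1 → ∀ d ∈ E, ∀ d' ∈ E,
        y * (d * y * d⁻¹) * ((d * d) * y * (d * d)⁻¹) = 1 →
        y * (d' * y * d'⁻¹) * ((d' * d') * y * (d' * d')⁻¹) = 1 →
        (∃ j ∈ thompsonSubgroupOf 2 T, j * d * j⁻¹ * d⁻¹ ∉ C) →
        (∀ j ∈ thompsonSubgroupOf 2 T, j * d * j⁻¹ * d⁻¹ ∈ C ∨ j * d * j⁻¹ * d ∈ C) →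
        (∀ j ∈ thompsonSubgroupOf 2 T, j * d' * j⁻¹ * d'⁻¹ ∈ C ∨ j * d' * j⁻¹ * d' ∈ C) →
        d' * d ∈ C ∨ d' * d⁻¹ ∈ C) ∧
      L ≤ normalizer (V : Set G) ∧ (∀ c ∈ C, ∀ v ∈ V, c * v = v * c) ∧
      (∀ c ∈ L, (∀ v ∈ V, c * v = v * c) → c ∈ C) ∧
      (∀ y ∈ omegaCenterOf T, y ≠ 1 → ∀ d ∈ E,
        y * (d * y * d⁻¹) * ((d * d) * y * (d * d)⁻¹) = 1 →
        (∃ j ∈ thompsonSubgroupOf 2 T, j * d * j⁻¹ * d⁻¹ ∉ C) →
        (∀ j ∈ thompsonSubgroupOf 2 T, j * d * j⁻¹ * d⁻¹ ∈ C ∨ j * d * j⁻¹ * d ∈ C) →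
        ∃ a ∈ thompsonSubgroupOf 2 T, a * d * a⁻¹ * d ∈ C ∧
          ∀ v ∈ V, a * v * a⁻¹ * v⁻¹ = 1 ∨ a * v * a⁻¹ * v⁻¹ = y) := by
  classical
  have hsep : Cfsg.IsPSolvable 2 L := Cfsg.Agent.Lib.Core.PSolvable2.isPSolvable_of_isSolvable
  have hT2 : IsPGroup 2 (T.subgroupOf L) := hTL.2.1.comap_subtype
  have hidx : ¬ 2 ∣ (T.subgroupOf L).index := (isSylowIn_of_two hTL).2.2
  let TX : Sylow 2 L := hT2.toSylow hidx
  have hTX : (TX : Subgroup L) = T.subgroupOf L := rfl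
  have hRT : pCoreOf 2 L ≤ T :=
    le_of_normal_of_isSylowIn (isSylowIn_of_two hTL) (pCoreOf_le L) (isPGroup_pCoreOf L)
      (le_normalizer_pCoreOf L)
  set Z : Subgroup L := (omegaCenterOf T).subgroupOf L with hZd
  have mZ : ∀ z : L, z ∈ Z → (z : G) ∈ T ∧ (∀ t ∈ T, t * (z : G) = z * t) ∧ (z : G) ^ 2 = 1 := by
    intro z hz
    rw [hZd, Subgroup.mem_subgroupOf] at hz
    exact mem_Z₁.mp hz
  have hZ : ∀ z ∈ Z, ∀ t ∈ (TX : Subgroup L), t * z = z * t := by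
    intro z hz t ht
    exact Subtype.ext ((mZ z hz).2.1 t ht)
  set RX := Cfsg.pCore 2 L with hRX
  haveI hRXn : RX.Normal := pCore_normal 2 L
  have hRXT : ∀ r ∈ RX, (r : G) ∈ T := fun r hr => hRT ⟨r, hr, rfl⟩
  set Ω : Subgroup L := omegaOne 2 (RX ⊓ centralizer (RX : Set L)) with hΩ
  haveI hΩn : Ω.Normal := Cfsg.Agent.Lib.QuadAct.Stable.omegaOne_normal inferInstance
  have hΩe : IsElementaryAbelian 2 Ω :=
    Cfsg.Agent.Lib.QuadAct.OmegaZ.isElementaryAbelian_closure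
      (fun x hx y hy => (mem_centralizer_iff.mp hy.1.2 x hx.1.1))
      (fun x hx => hx.2)
  have hZΩ : (Z : Set L) ⊆ Ω := by
    intro z hz
    obtain ⟨h1, h2, h3⟩ := mZ z hz
    have h4 : (z : G) ∈ pCoreOf 2 L := hRc (mem_centralizer_iff.mpr fun r hr => h2 r (hRT hr))
    obtain ⟨r, hr, hre⟩ := h4
    have h5 : r = z := Subtype.ext hre
    refine Subgroup.subset_closure ⟨⟨h5 ▸ hr, mem_centralizer_iff.mpr fun u hu => ?_⟩, ?_⟩
    · exact Subtype.ext (h2 u (hRXT u hu))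
    · exact Subtype.ext h3
  set V := normalClosure (Z : Set L) with hV
  have hVΩ : V ≤ Ω := normalClosure_le_normal hZΩ
  have hVe : IsElementaryAbelian 2 V :=
    ⟨⟨⟨fun a b => Subtype.ext
        (Cfsg.Agent.Lib.QuadAct.Basic.comm_of_isMulCommutative hΩe.1 (hVΩ a.2) (hVΩ b.2))⟩⟩,
      fun a ha => hΩe.2 a (hVΩ ha)⟩
  have hΩR : Ω ≤ RX := by
    rw [hΩ, omegaOne, closure_le]
    exact fun x hx => hx.1.1
  have hVT : V ≤ (TX : Subgroup L) := fun v hv => hRXT v (hΩR (hVΩ hv))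
  have hΩC : Ω ≤ centralizer (RX : Set L) := by
    rw [hΩ, omegaOne, closure_le]
    exact fun x hx => hx.1.2
  let F : Set (Subgroup L) := {B | ∃ A : Subgroup G, IsMaxIn 2 T A ∧ B = A.subgroupOf L}
  have hF : ∀ A ∈ F, LE2 (TX : Subgroup L) A := by
    rintro _ ⟨A, hA, rfl⟩
    have hAL : A ≤ L := hA.1.trans hTL.1
    refine ⟨fun a ha => hA.1 ha, ?_, fun B hBT hBe => ?_⟩
    · exact IsAbExp.comap_of_injective hA.2.1 L.subtype L.subtype_injective
    · have h1 : B.map L.subtype ≤ T := by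
        rintro _ ⟨b, hb, rfl⟩
        exact hBT hb
      have h2 := hA.2.2 (B.map L.subtype) h1 (IsAbExp.map hBe L.subtype)
      have h3 : Nat.card (B.map L.subtype) = Nat.card B :=
        (Nat.card_congr (B.equivMapOfInjective _ L.subtype_injective).toEquiv).symm
      have h4 : Nat.card (A.subgroupOf L) = Nat.card A :=
        Nat.card_congr (Subgroup.subgroupOfEquivOfLe hAL).toEquiv
      rw [h4, ← h3]
      exact h2
  obtain ⟨E, hEn, hCE, hEc, hE3, hEo⟩ := exists_E hsep TX hZ hVe hVT F hF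
  haveI hVn : V.Normal := normalClosure_normal
  have hCn : (centralizer (V : Set L)).Normal := inferInstance
  set Y₀ := normalClosure ((sSup F : Subgroup L) : Set L) with hY₀
  have hY₀n : Y₀.Normal := normalClosure_normal
  have hnorm : ∀ {N : Subgroup L}, N.Normal → L ≤ normalizer ((N.map L.subtype : Subgroup G) : Set G) := by
    intro N hN l hl
    refine nrm_of_conj ?_ ?_
    · rintro _ ⟨n, hn, rfl⟩
      exact ⟨⟨l, hl⟩ * n * ⟨l, hl⟩⁻¹, hN.conj_mem n hn _, by simp⟩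
    · rintro _ ⟨n, hn, rfl⟩
      exact ⟨⟨l, hl⟩⁻¹ * n * ⟨l, hl⟩⁻¹⁻¹, hN.conj_mem n hn _, by simp⟩
  have hO : Cfsg.pCore 2 (L ⧸ centralizer (V : Set L)) = ⊥ := hO_of TX hZ
  have hbest : ∀ A ∈ F, IsBestOffenderOn 2 V A := fun A hA =>
    hbest_of hsep TX.isPGroup' hVe hVT hO (hF A hA)
  have hcoe : ∀ {x : L}, x ∈ centralizer (V : Set L) ↔
      (x : G) ∈ (centralizer (V : Set L)).map L.subtype := by
    intro x
    constructor
    · intro h
      exact ⟨x, h, rfl⟩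
    · rintro ⟨x', hx', e⟩
      have : x' = x := Subtype.ext e
      rwa [← this]
  have hJF : ∀ {j : G}, j ∈ thompsonSubgroupOf 2 T → ∃ hj : j ∈ L, (⟨j, hj⟩ : L) ∈ sSup F := by
    intro j hj
    have hle : thompsonSubgroupOf 2 T ≤ (sSup F : Subgroup L).map L.subtype := by
      rw [thompsonSubgroupOf_eq]
      refine sSup_le fun A hA a ha => ?_
      have hAL : A ≤ L := hA.1.trans hTL.1
      refine ⟨⟨a, hAL ha⟩, ?_, rfl⟩
      exact (le_sSup (show A.subgroupOf L ∈ F from ⟨A, hA, rfl⟩)) (by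
        rw [Subgroup.mem_subgroupOf]
        exact ha)
    obtain ⟨j', hj', e⟩ := hle hj
    have hjL : j ∈ L := e ▸ j'.2
    refine ⟨hjL, ?_⟩
    have : j' = ⟨j, hjL⟩ := Subtype.ext e
    rwa [← this]
  have hFJ : ∀ A ∈ F, ∀ a ∈ A, (a : G) ∈ thompsonSubgroupOf 2 T := by
    rintro _ ⟨A, hA, rfl⟩ a ha
    rw [thompsonSubgroupOf_eq]
    exact hA.le_jOf (by rwa [Subgroup.mem_subgroupOf] at ha)
  have hmoved : ∀ {d : L}, (∃ j ∈ thompsonSubgroupOf 2 T, j * (d : G) * j⁻¹ * (d : G)⁻¹ ∉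
      (centralizer (V : Set L)).map L.subtype) →
      ∃ A ∈ F, ∃ a ∈ A, a * d * a⁻¹ * d⁻¹ ∉ centralizer (V : Set L) := by
    intro d hii
    by_contra hcon
    push Not at hcon
    obtain ⟨j, hj, hjd⟩ := hii
    apply hjd
    obtain ⟨hjL, hjF⟩ := hJF hj
    have hle : sSup F ≤ (centralizer ({piV V d} : Set _)).comap (piV V) := by
      refine sSup_le fun A hA a ha => ?_
      have h1 := hcon A hA a ha
      have h2 : piV V (a * d * a⁻¹ * d⁻¹) = 1 := by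
        rw [← MonoidHom.mem_ker, Cfsg.Agent.Lib.QuadAct.FFQuot.piV_ker]
        exact h1
      rw [Subgroup.mem_comap, Subgroup.mem_centralizer_singleton_iff]
      rw [map_mul, map_mul, map_mul, map_inv, map_inv] at h2
      exact mul_inv_eq_iff_eq_mul.mp (mul_inv_eq_one.mp h2)
    have h3 := hle hjF
    rw [Subgroup.mem_comap, Subgroup.mem_centralizer_singleton_iff] at h3
    have h4 : piV V (⟨j, hjL⟩ * d * (⟨j, hjL⟩ : L)⁻¹ * d⁻¹) = 1 := by
      rw [map_mul, map_mul, map_mul, map_inv, map_inv, h3]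
      group
    rw [← MonoidHom.mem_ker, Cfsg.Agent.Lib.QuadAct.FFQuot.piV_ker] at h4
    exact ⟨_, h4, rfl⟩
  refine ⟨(centralizer (V : Set L)).map L.subtype, E.map L.subtype, Y₀.map L.subtype,
    V.map L.subtype,
    Subgroup.map_mono hCE, map_subtype_le _, hnorm hCn, hnorm hEn, ?_, ?_, ?_, ?_, ?_,
    map_subtype_le _, hnorm hY₀n, ?_, ?_, hnorm hVn, ?_, ?_, ?_⟩
  · rintro _ ⟨r, hr, rfl⟩
    refine ⟨r, mem_centralizer_iff.mpr fun v hv => ?_, rfl⟩
    exact (mem_centralizer_iff.mp (hΩC (hVΩ hv)) r hr).symm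
  · rintro _ ⟨c, hc, rfl⟩ z hz
    have hzL : z ∈ L := hTL.1 ((mem_Z₁.mp hz).1)
    have hzZ : (⟨z, hzL⟩ : L) ∈ V := Subgroup.le_normalClosure (by
      show (⟨z, hzL⟩ : L) ∈ Z
      rw [hZd, Subgroup.mem_subgroupOf]
      exact hz)
    have := mem_centralizer_iff.mp hc _ hzZ
    exact (congrArg Subtype.val this).symm
  · rintro _ ⟨x, hx, rfl⟩ _ ⟨y, hy, rfl⟩
    exact ⟨_, hEc x hx y hy, by simp⟩
  · rintro _ ⟨x, hx, rfl⟩
    exact ⟨_, hE3 x hx, by simp⟩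
  · rw [thompsonSubgroupOf_eq]
    refine sSup_le fun A hA a ha => ?_
    have hAL : A ≤ L := hA.1.trans hTL.1
    refine ⟨⟨a, hAL ha⟩, Subgroup.le_normalClosure ?_, rfl⟩
    exact (le_sSup (show A.subgroupOf L ∈ F from ⟨A, hA, rfl⟩)) (by
      rw [Subgroup.mem_subgroupOf]
      exact ha)
  · rintro _ ⟨y, hy, rfl⟩ hodd
    refine ⟨y, hEo y hy ?_, rfl⟩
    rwa [← Subgroup.orderOf_coe]
  · rintro y hy hy1 _ ⟨d, hd, rfl⟩ _ ⟨d', hd', rfl⟩ hrel hrel' hii hiii hiii'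
    have hyL : y ∈ L := hTL.1 ((mem_Z₁.mp hy).1)
    have hyZ : (⟨y, hyL⟩ : L) ∈ Z := by
      rw [hZd, Subgroup.mem_subgroupOf]
      exact hy
    have key := Cfsg.Agent.Lib.JSub.TV.X_core (V := V) hsep hVe hO F hbest
      (y := ⟨y, hyL⟩) (Subgroup.le_normalClosure hyZ) (fun h => hy1 (congrArg Subtype.val h))
      (fun A hA a ha => ?_) (d := d) (d' := d') (hEc d hd d' hd') (hE3 d hd) (hE3 d' hd')
      (Subtype.ext hrel) (Subtype.ext hrel') (hmoved hii) ?_ ?_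
    · rcases key with h | h
      · left
        exact hcoe.mp h
      · right
        exact hcoe.mp h
    · have h1 := (hF A hA).1 ha
      have h2 := hZ _ hyZ a h1
      rw [h2, mul_inv_cancel_right]
    · intro A hA a ha
      rcases hiii _ (hFJ A hA a ha) with h | h
      · left
        exact hcoe.mpr h
      · right
        exact hcoe.mpr h
    · intro A hA a ha
      rcases hiii' _ (hFJ A hA a ha) with h | h
      · left
        exact hcoe.mpr h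
      · right
        exact hcoe.mpr h
  · rintro _ ⟨c, hc, rfl⟩ _ ⟨v, hv, rfl⟩
    exact (congrArg Subtype.val (mem_centralizer_iff.mp hc v hv)).symm
  · intro c hc hcv
    refine ⟨⟨c, hc⟩, mem_centralizer_iff.mpr fun v hv => ?_, rfl⟩
    exact Subtype.ext (hcv v ⟨v, hv, rfl⟩).symm
  · rintro y hy hy1 _ ⟨d, hd, rfl⟩ hrel hii hiii
    have hyL : y ∈ L := hTL.1 ((mem_Z₁.mp hy).1)
    have hyZ : (⟨y, hyL⟩ : L) ∈ Z := by
      rw [hZd, Subgroup.mem_subgroupOf]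
      exact hy
    obtain ⟨A, hA, a, ha, hC, hv⟩ := Cfsg.Agent.Lib.JSub.TV.X_tv (V := V) hsep hVe hO F hbest
      (y := ⟨y, hyL⟩) (Subgroup.le_normalClosure hyZ) (fun h => hy1 (congrArg Subtype.val h))
      (fun A hA a ha => by
        have h1 := (hF A hA).1 ha
        have h2 := hZ _ hyZ a h1
        rw [h2, mul_inv_cancel_right]) (d := d) (hE3 d hd)
      (Subtype.ext hrel) (hmoved hii) (fun A hA a ha => by
        rcases hiii _ (hFJ A hA a ha) with h | h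
        · left
          exact hcoe.mpr h
        · right
          exact hcoe.mpr h)
    refine ⟨a, hFJ A hA a ha, hcoe.mp hC, ?_⟩
    rintro _ ⟨v, hv', rfl⟩
    rcases hv v hv' with h | h
    · left
      exact congrArg Subtype.val h
    · right
      exact congrArg Subtype.val h

/-- The structure of `L` given by Thompson factorization. -/
theorem exists_CE2 {L T : Subgroup G} (hsolv : Group.IsSolvable L) (hTL : IsSylowTwoIn T L)
    (hRc : centralizer (pCoreOf 2 L : Set G) ≤ pCoreOf 2 L) :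
    ∃ C E Y : Subgroup G, C ≤ E ∧ E ≤ L ∧ L ≤ normalizer (C : Set G) ∧ L ≤ normalizer (E : Set G) ∧
      pCoreOf 2 L ≤ C ∧ (∀ c ∈ C, ∀ z ∈ omegaCenterOf T, c * z = z * c) ∧
      (∀ x ∈ E, ∀ y ∈ E, x * y * x⁻¹ * y⁻¹ ∈ C) ∧ (∀ x ∈ E, x ^ 3 ∈ C) ∧
      thompsonSubgroupOf 2 T ≤ Y ∧ Y ≤ L ∧ L ≤ normalizer (Y : Set G) ∧
      (∀ y ∈ Y, Odd (orderOf y) → y ∈ E) ∧
      (∀ y ∈ omegaCenterOf T, y ≠ 1 → ∀ d ∈ E, ∀ d' ∈ E,
        y * (d * y * d⁻¹) * ((d * d) * y * (d * d)⁻¹) = 1 →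
        y * (d' * y * d'⁻¹) * ((d' * d') * y * (d' * d')⁻¹) = 1 →
        (∃ j ∈ thompsonSubgroupOf 2 T, j * d * j⁻¹ * d⁻¹ ∉ C) →
        (∀ j ∈ thompsonSubgroupOf 2 T, j * d * j⁻¹ * d⁻¹ ∈ C ∨ j * d * j⁻¹ * d ∈ C) →
        (∀ j ∈ thompsonSubgroupOf 2 T, j * d' * j⁻¹ * d'⁻¹ ∈ C ∨ j * d' * j⁻¹ * d' ∈ C) →
        d' * d ∈ C ∨ d' * d⁻¹ ∈ C) := by
  obtain ⟨C, E, Y, V, h1, h2, h3, h4, h5, h6, h7, h8, h9, h10, h11, h12, h13, -⟩ := exists_CE3 hsolv hTL hRc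
  exact ⟨C, E, Y, h1, h2, h3, h4, h5, h6, h7, h8, h9, h10, h11, h12, h13⟩

/-- The structure of `L` given by Thompson factorization. -/
theorem exists_CE {L T : Subgroup G} (hsolv : Group.IsSolvable L) (hTL : IsSylowTwoIn T L)
    (hRc : centralizer (pCoreOf 2 L : Set G) ≤ pCoreOf 2 L) :
    ∃ C E Y : Subgroup G, C ≤ E ∧ E ≤ L ∧ L ≤ normalizer (C : Set G) ∧ L ≤ normalizer (E : Set G) ∧
      pCoreOf 2 L ≤ C ∧ (∀ c ∈ C, ∀ z ∈ omegaCenterOf T, c * z = z * c) ∧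
      (∀ x ∈ E, ∀ y ∈ E, x * y * x⁻¹ * y⁻¹ ∈ C) ∧ (∀ x ∈ E, x ^ 3 ∈ C) ∧
      thompsonSubgroupOf 2 T ≤ Y ∧ Y ≤ L ∧ L ≤ normalizer (Y : Set G) ∧
      ∀ y ∈ Y, Odd (orderOf y) → y ∈ E := by
  obtain ⟨C, E, Y, h1, h2, h3, h4, h5, h6, h7, h8, h9, h10, h11, h12, -⟩ := exists_CE2 hsolv hTL hRc
  exact ⟨C, E, Y, h1, h2, h3, h4, h5, h6, h7, h8, h9, h10, h11, h12⟩

/-- The inversion lemma for a subgroup of index three. -/
theorem inv_of_move {Q K : Subgroup G} {j x : G} (hQK : Q ≤ K) (hKQ : K ≤ normalizer (Q : Set G))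
    (h3 : Q.relIndex K = 3) (hjK : j ∈ normalizer (K : Set G)) (hjQ : j ∈ normalizer (Q : Set G))
    (hk₀ : x ∈ K) (hmove : x * (j * x * j⁻¹)⁻¹ ∉ Q) {k : G} (hk : k ∈ K) :
    k * (j * k * j⁻¹) ∈ Q := by
  open Cfsg.Agent.Lib.LocalEven.JComp in
  have hconj : ∀ {a q : G}, a ∈ K → q ∈ Q → a * q * a⁻¹ ∈ Q := fun ha hq => conj_mem (hKQ ha) hq
  set y := j * x * j⁻¹ with hy
  have hyK : y ∈ K := conj_mem hjK hk₀
  have hxQ : x ∉ Q := fun h => hmove (Q.mul_mem h (Q.inv_mem (conj_mem hjQ h)))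
  have hyQ : y ∉ Q := fun h => hxQ (by
    have := conj_inv_mem hjQ h
    have e : j⁻¹ * y * j = x := by rw [hy]; group
    rwa [e] at this)
  have hxy : x * y ∈ Q := by
    rcases index3_cases hQK hKQ h3 hk₀ hyK hxQ hyQ with h | h
    · exfalso
      apply hmove
      have := hconj hk₀ (Q.inv_mem h)
      have e : x * (x⁻¹ * y)⁻¹ * x⁻¹ = x * y⁻¹ := by group
      rwa [e] at this
    · exact h
  by_cases hkQ : k ∈ Q
  · exact Q.mul_mem hkQ (conj_mem hjQ hkQ)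
  rcases index3_cases hQK hKQ h3 hk₀ hk hxQ hkQ with h | h
  · have hq' := conj_mem hjQ h
    have e : k * (j * k * j⁻¹) = (x * y) * (y⁻¹ * (x⁻¹ * k) * y⁻¹⁻¹) * (j * (x⁻¹ * k) * j⁻¹) := by
      rw [hy]; group
    rw [e]
    exact Q.mul_mem (Q.mul_mem hxy (hconj (K.inv_mem hyK) h)) hq'
  · have hq' := conj_mem hjQ h
    have hyx : y * x ∈ Q := by
      have := hconj (K.inv_mem hk₀) hxy
      have e : x⁻¹ * (x * y) * x⁻¹⁻¹ = y * x := by group
      rwa [e] at this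
    have e : k * (j * k * j⁻¹) = (y * x)⁻¹ * (y * (x * k) * y⁻¹) * (j * (x * k) * j⁻¹) := by
      rw [hy]; group
    rw [e]
    exact Q.mul_mem (Q.mul_mem (Q.inv_mem hyx) (hconj hyK h)) hq'

theorem comm_of_inv {B : Type*} [Group B] {t d c : B} (h1 : t * d * t⁻¹ = d⁻¹) (h2 : t * c * t⁻¹ = c)
    (h3 : t * (d * c * d⁻¹ * c⁻¹) * t⁻¹ = d * c * d⁻¹ * c⁻¹) (h4 : d ^ 3 = 1) : d * c = c * d := by
  have h5 : t * (d * c * d⁻¹ * c⁻¹) * t⁻¹ =
      (t * d * t⁻¹) * (t * c * t⁻¹) * (t * d * t⁻¹)⁻¹ * (t * c * t⁻¹)⁻¹ := by group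
  rw [h5, h1, h2, inv_inv] at h3
  have h6 : d⁻¹ * c * d = d * c * d⁻¹ := mul_right_cancel h3
  have hd : d * d * d = 1 := by
    have e : d ^ 3 = d * d * d := by rw [pow_succ, pow_two]
    rw [← e, h4]
  have h7 : d⁻¹ = d * d := by
    rw [inv_eq_iff_mul_eq_one, ← mul_assoc]
    exact hd
  have h8 : c * (d * d) = (d * d) * c := by
    calc c * (d * d) = d * (d⁻¹ * c * d) * d := by group
      _ = d * (d * c * d⁻¹) * d := by rw [h6]
      _ = (d * d) * c := by group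
  rw [← h7] at h8
  calc d * c = d * (c * d⁻¹) * d := by group
    _ = d * (d⁻¹ * c) * d := by rw [h8]
    _ = c * d := by group

section main

variable {L T K : Subgroup G}

/-- The key property of the ZN hypothesis. -/
theorem conj_mem_T (hZ : ∀ S : Sylow 2 G, centralizer (omegaCenterOf (S : Subgroup G) : Set G) ≤
      normalizer ((S : Subgroup G) : Set G)) (hT : IsPGroup 2 T) (hTL : IsSylowTwoIn T L)
    (hRc : centralizer (pCoreOf 2 L : Set G) ≤ pCoreOf 2 L) {c : G} (hcL : c ∈ L)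
    (hc : ∀ z ∈ omegaCenterOf T, c * z = z * c) {t : G} (ht : t ∈ T) : c * t * c⁻¹ ∈ T := by
  obtain ⟨S, hS⟩ := hT.exists_le_sylow
  have hs := isSylowIn_of_two hTL
  have hRT : pCoreOf 2 L ≤ T := le_of_normal_of_isSylowIn hs (pCoreOf_le L) (isPGroup_pCoreOf L)
    (le_normalizer_pCoreOf L)
  have hSL : (S : Subgroup G) ⊓ L ≤ T := by
    have hTSL : T ≤ (S : Subgroup G) ⊓ L := le_inf hS hTL.1
    have hs2 := isSylowIn_of_le hs hTSL inf_le_right
    have hp : IsPGroup 2 ((S : Subgroup G) ⊓ L : Subgroup G) := S.isPGroup'.to_le inf_le_left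
    obtain ⟨a, ha⟩ := IsPGroup.iff_card.mp hp
    have h1 := Cfsg.Agent.Lib.Coprime.Action.card_eq_card_mul_relIndex hTSL
    have h2 : T.relIndex ((S : Subgroup G) ⊓ L) ∣ 2 ^ a := by
      rw [← ha, h1]
      exact dvd_mul_left _ _
    obtain ⟨b, -, hb⟩ := (Nat.dvd_prime_pow Nat.prime_two).mp h2
    have hb0 : b = 0 := by
      by_contra hne
      apply hs2.2.2
      rw [hb]
      exact dvd_pow_self 2 hne
    rw [hb0, pow_zero] at hb
    exact Subgroup.relIndex_eq_one.mp hb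
  have hsub : omegaCenterOf (S : Subgroup G) ≤ omegaCenterOf T := by
    intro z hz
    obtain ⟨h1, h2, h3⟩ := mem_Z₁.mp hz
    have h4 : z ∈ pCoreOf 2 L := hRc (mem_centralizer_iff.mpr fun r hr => h2 r (hS (hRT hr)))
    exact mem_Z₁.mpr ⟨hRT h4, fun r hr => h2 r (hS hr), h3⟩
  have hcS : c ∈ normalizer ((S : Subgroup G) : Set G) :=
    hZ S (mem_centralizer_iff.mpr fun z hz => (hc z (hsub hz)).symm)
  exact hSL ⟨conj_mem hcS (hS ht), L.mul_mem (L.mul_mem hcL (hTL.1 ht)) (L.inv_mem hcL)⟩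

theorem K_sn (hZ : ∀ S : Sylow 2 G, centralizer (omegaCenterOf (S : Subgroup G) : Set G) ≤
      normalizer ((S : Subgroup G) : Set G))
    (hsolv : Group.IsSolvable L) (hT : IsPGroup 2 T) (hTL : IsSylowTwoIn T L)
    (hRc : centralizer (pCoreOf 2 L : Set G) ≤ pCoreOf 2 L) (hK : IsJComponent T K) (hKL : K ≤ L)
    (hRK : pCoreOf 2 L ≤ normalizer (K : Set G)) : SN K L := by
  obtain ⟨C, E, Y, hCE, hEL, hLC, hLE, hRC, hCZ, hEc, hE3, hJY, hYL, hLY, hYE⟩ :=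
    exists_CE hsolv hTL hRc
  set R := pCoreOf 2 L with hR
  set J := thompsonSubgroupOf 2 T with hJ
  have hCL : C ≤ L := hCE.trans hEL
  have hLR : L ≤ normalizer (R : Set G) := le_normalizer_pCoreOf L
  have hs := isSylowIn_of_two hTL
  have hRT : R ≤ T := le_of_normal_of_isSylowIn hs (pCoreOf_le L) (isPGroup_pCoreOf L) hLR
  -- `C` normalizes `T`
  have hCT : C ≤ normalizer (T : Set G) := fun c hc =>
    nrm_of_conj (fun t ht => conj_mem_T hZ hT hTL hRc (hCL hc) (hCZ c hc) ht)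
      (fun t ht => by
        have := conj_mem_T hZ hT hTL hRc (L.inv_mem (hCL hc)) (hCZ _ (C.inv_mem hc)) ht
        simpa using this)
  -- the `2`-elements of `C`
  have h2T : ∀ y ∈ C, ∀ n : ℕ, orderOf y = 2 ^ n → y ∈ T := by
    intro y hy n hn
    have hD : T ⊔ C ≤ L := sup_le hTL.1 hCL
    have hDs := isSylowIn_of_le hs (le_sup_left : T ≤ T ⊔ C) hD
    exact mem_of_SN_of_sylow (SN.of_le_normalizer le_sup_left (sup_le Subgroup.le_normalizer hCT))
      hDs le_rfl (Subgroup.mem_sup_right hy) hn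
  have h2R : ∀ y ∈ C, ∀ n : ℕ, orderOf y = 2 ^ n → y ∈ R := by
    intro y hy n hn
    set X : Set G := {x | x ∈ C ∧ ∃ m : ℕ, orderOf x = 2 ^ m} with hX
    have hMT : closure X ≤ T := (closure_le _).mpr fun x hx => by
      obtain ⟨h1, m, hm⟩ := hx
      exact h2T x h1 m hm
    have hXconj : ∀ g ∈ L, ∀ x ∈ X, g * x * g⁻¹ ∈ X := by
      rintro g hg x ⟨h1, m, hm⟩
      refine ⟨conj_mem (hLC hg) h1, m, ?_⟩
      have := MulEquiv.orderOf_eq (MulAut.conj g) x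
      rw [MulAut.conj_apply] at this
      rw [this, hm]
    have hMR : closure X ≤ R := by
      refine le_pCoreOf (hMT.trans hTL.1) ?_ (hT.to_le hMT)
      intro g hg
      refine nrm_of_conj (Cfsg.Agent.Lib.PointStab.Step.conj_mem_closure (hXconj g hg)) ?_
      intro z hz
      have := Cfsg.Agent.Lib.PointStab.Step.conj_mem_closure (hXconj g⁻¹ (L.inv_mem hg)) z hz
      rwa [inv_inv] at this
    exact hMR (Subgroup.subset_closure ⟨hy, n, hn⟩)
  have hTC : ∀ c ∈ C, ∀ t ∈ T, c * t * c⁻¹ * t⁻¹ ∈ R := by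
    intro c hc t ht
    have h1 : c * t * c⁻¹ * t⁻¹ ∈ T := T.mul_mem (conj_mem (hCT hc) ht) (T.inv_mem ht)
    have h2 : c * t * c⁻¹ * t⁻¹ ∈ C := by
      have e : c * t * c⁻¹ * t⁻¹ = c * (t * c⁻¹ * t⁻¹) := by group
      rw [e]
      exact C.mul_mem hc (conj_mem (hLC (hTL.1 ht)) (C.inv_mem hc))
    obtain ⟨k, hk⟩ := (IsPGroup.iff_orderOf.mp hT) ⟨_, h1⟩
    exact h2R _ h2 k (by rwa [Subgroup.orderOf_mk] at hk)
  -- `K` lies in `E`
  have hKY : K ≤ Y := by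
    conv_lhs => rw [← hK.2.1]
    rw [Subgroup.commutator_le]
    intro k hk j hj
    rw [commutatorElement_def]
    exact Y.mul_mem (conj_mem (hLY (hKL hk)) (hJY hj)) (Y.inv_mem (hJY hj))
  have hKE : K ≤ E := by
    conv_lhs => rw [← hK.1]
    rw [closure_le]
    rintro g ⟨hg, hgo⟩
    exact hYE g (hKY hg) hgo
  -- `O₂(K)` lies in `R`
  set Q := pCoreOf 2 K with hQ
  have hQK : Q ≤ K := pCoreOf_le K
  have hKQ : K ≤ normalizer (Q : Set G) := le_normalizer_pCoreOf K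
  have hQR : Q ≤ R := by
    intro q hq
    obtain ⟨a, ha⟩ := (IsPGroup.iff_orderOf.mp (isPGroup_pCoreOf (p := 2) K)) ⟨q, hq⟩
    have ha' : orderOf q = 2 ^ a := by rwa [Subgroup.orderOf_mk] at ha
    have hco : Nat.Coprime 3 (orderOf q) := by
      rw [ha']
      exact Nat.Coprime.pow_right _ (by norm_num)
    obtain ⟨m, hm⟩ := exists_pow_eq_self_of_coprime hco
    have hqC : q ∈ C := by
      rw [← hm]
      exact C.pow_mem (hE3 q (hKE (hQK hq))) m
    exact h2R q hqC a ha'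
  -- the element of `J` inverting `K / Q`
  have h3 : Q.relIndex K = 3 := hK.2.2.1
  have hJT : J ≤ T := Cfsg.Agent.Lib.Core.ThompsonMap.thompsonSubgroupOf_le T
  have hJK : J ≤ normalizer (K : Set G) := by
    have := Cfsg.Agent.Lib.LocalEven.CharP.le_normalizer_commutator J K
    rwa [Subgroup.commutator_comm, hK.2.1] at this
  obtain ⟨k₀, hk₀, j, hj, hmove⟩ : ∃ k₀ ∈ K, ∃ j ∈ J, k₀ * (j * k₀ * j⁻¹)⁻¹ ∉ Q := by
    by_contra hcon
    push Not at hcon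
    have h1 : K ≤ Q := by
      conv_lhs => rw [← hK.2.1]
      rw [Subgroup.commutator_le]
      intro k hk j hj
      have := hcon k hk j hj
      have e : ⁅k, j⁆ = k * (j * k * j⁻¹)⁻¹ := by
        rw [commutatorElement_def]
        group
      rwa [e]
    have h2 : Q.relIndex K = 1 := Subgroup.relIndex_eq_one.mpr h1
    omega
  have hjK : j ∈ normalizer (K : Set G) := hJK hj
  have hjQ : j ∈ normalizer (Q : Set G) :=
    Cfsg.Agent.Lib.LocalEven.JComp.normalizer_le_pCoreOf hjK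
  have hinv : ∀ k ∈ K, k * (j * k * j⁻¹) ∈ Q := fun k hk =>
    inv_of_move hQK hKQ h3 hjK hjQ hk₀ hmove hk
  have hjL : j ∈ L := hTL.1 (hJT hj)
  -- the cube of an element of `K`
  have hcube : ∀ k ∈ K, k ^ 3 ∈ Q := by
    intro k hk
    haveI hN : (Q.subgroupOf K).Normal := Subgroup.normal_subgroupOf_of_le_normalizer hKQ
    have h1 := Subgroup.pow_index_mem (Q.subgroupOf K) (⟨k, hk⟩ : K)
    have h2 : (Q.subgroupOf K).index = 3 := h3
    rw [h2, Subgroup.mem_subgroupOf] at h1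
    simpa using h1
  -- `K` centralizes `C` modulo `R`
  have hKC : ∀ k ∈ K, ∀ c ∈ C, k * c * k⁻¹ * c⁻¹ ∈ R := by
    intro k hk c hc
    haveI hRn : (R.subgroupOf L).Normal := Subgroup.normal_subgroupOf_of_le_normalizer hLR
    let π : L →* L ⧸ R.subgroupOf L := QuotientGroup.mk' _
    have hπ : ∀ x : L, π x = 1 ↔ (x : G) ∈ R := by
      intro x
      rw [← MonoidHom.mem_ker, QuotientGroup.ker_mk', Subgroup.mem_subgroupOf]
    let k' : L := ⟨k, hKL hk⟩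
    let c' : L := ⟨c, hCL hc⟩
    let j' : L := ⟨j, hjL⟩
    have hcj : ∀ u ∈ C, ∀ hu : u ∈ L, π j' * π ⟨u, hu⟩ * (π j')⁻¹ = π ⟨u, hu⟩ := by
      intro u hu hu'
      have h1 := R.inv_mem (hTC u hu j (hJT hj))
      have h2 : π (j' * ⟨u, hu'⟩ * j'⁻¹ * (⟨u, hu'⟩ : L)⁻¹) = 1 := by
        rw [hπ]
        have e : (u * j * u⁻¹ * j⁻¹)⁻¹ = j * u * j⁻¹ * u⁻¹ := by group
        rw [e] at h1
        exact h1
      rw [map_mul, map_mul, map_mul, map_inv, map_inv] at h2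
      exact mul_inv_eq_one.mp h2
    have h1 : π j' * π k' * (π j')⁻¹ = (π k')⁻¹ := by
      have h2 : π (k' * (j' * k' * j'⁻¹)) = 1 := (hπ _).mpr (hQR (hinv k hk))
      rw [map_mul, map_mul, map_mul, map_inv] at h2
      exact eq_inv_of_mul_eq_one_right h2
    have h2 : π j' * π c' * (π j')⁻¹ = π c' := hcj c hc (hCL hc)
    have hu : k * c * k⁻¹ * c⁻¹ ∈ C :=
      C.mul_mem (conj_mem (hLC (hKL hk)) hc) (C.inv_mem hc)
    have h3' : π j' * (π k' * π c' * (π k')⁻¹ * (π c')⁻¹) * (π j')⁻¹ =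
        π k' * π c' * (π k')⁻¹ * (π c')⁻¹ := by
      have := hcj _ hu (hCL hu)
      have e : π ⟨k * c * k⁻¹ * c⁻¹, hCL hu⟩ = π k' * π c' * (π k')⁻¹ * (π c')⁻¹ := by
        rw [← map_inv, ← map_inv, ← map_mul, ← map_mul, ← map_mul]
        rfl
      rwa [e] at this
    have h4 : (π k') ^ 3 = 1 := by
      rw [← map_pow]
      exact (hπ _).mpr (by simpa using hQR (hcube k hk))
    have h5 := comm_of_inv h1 h2 h3' h4
    have h6 : π (k' * c' * k'⁻¹ * c'⁻¹) = 1 := by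
      rw [map_mul, map_mul, map_mul, map_inv, map_inv, h5]
      group
    exact (hπ _).mp h6
  -- the chain
  have hC_KR : C ≤ normalizer ((K ⊔ R : Subgroup G) : Set G) := by
    have key : ∀ c ∈ C, ∀ y ∈ K ⊔ R, c * y * c⁻¹ ∈ K ⊔ R := by
      intro c hc y hy
      have hle : K ⊔ R ≤ (K ⊔ R).comap (MulAut.conj c).toMonoidHom := by
        refine sup_le (fun k hk => ?_) (fun r hr => ?_)
        · rw [Subgroup.mem_comap]
          show c * k * c⁻¹ ∈ K ⊔ R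
          have h1 := R.inv_mem (hKC k hk c hc)
          have e : c * k * c⁻¹ = (k * c * k⁻¹ * c⁻¹)⁻¹ * k := by group
          rw [e]
          exact Subgroup.mul_mem _ (Subgroup.mem_sup_right h1) (Subgroup.mem_sup_left hk)
        · rw [Subgroup.mem_comap]
          exact Subgroup.mem_sup_right (conj_mem (hLR (hCL hc)) hr)
      exact hle hy
    exact fun c hc => nrm_of_conj (key c hc) (fun y hy => by
      have := key c⁻¹ (C.inv_mem hc) y hy
      rwa [inv_inv] at this)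
  have hE_KC : E ≤ normalizer ((K ⊔ C : Subgroup G) : Set G) := by
    have hKCE : K ⊔ C ≤ E := sup_le hKE hCE
    have key : ∀ x ∈ E, ∀ y ∈ K ⊔ C, x * y * x⁻¹ ∈ K ⊔ C := by
      intro x hx y hy
      have h1 := hEc x hx y (hKCE hy)
      have e : x * y * x⁻¹ = (x * y * x⁻¹ * y⁻¹) * y := by group
      rw [e]
      exact Subgroup.mul_mem _ (Subgroup.mem_sup_right h1) hy
    exact fun x hx => nrm_of_conj (key x hx) (fun y hy => by
      have := key x⁻¹ (E.inv_mem hx) y hy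
      rwa [inv_inv] at this)
  have c1 : SN K (K ⊔ R) :=
    SN.of_le_normalizer le_sup_left (sup_le Subgroup.le_normalizer hRK)
  have c2 : SN (K ⊔ R) (K ⊔ C) :=
    SN.of_le_normalizer (sup_le_sup_left hRC K)
      (sup_le ((le_sup_left : K ≤ K ⊔ R).trans Subgroup.le_normalizer) hC_KR)
  have c3 : SN (K ⊔ C) E := SN.of_le_normalizer (sup_le hKE hCE) hE_KC
  have c4 : SN E L := SN.of_le_normalizer hEL hLE
  exact c1.trans (c2.trans (c3.trans c4))

theorem le_normalizer_thompson (T : Subgroup G) :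
    T ≤ normalizer (thompsonSubgroupOf 2 T : Set G) := by
  intro t ht
  rw [thompsonSubgroupOf_eq, Subgroup.mem_normalizer_iff_map_conj_eq]
  have h1 := Cfsg.Agent.Lib.PLocal.Thompson.jOf_conj 2 T t
  have h2 : T.map (MulAut.conj t).toMonoidHom = T :=
    Subgroup.mem_normalizer_iff_map_conj_eq.mp (Subgroup.le_normalizer ht)
  rw [h2] at h1
  exact h1

theorem pCoreOf_ne_bot (hT1 : T ≠ ⊥) (hTL : T ≤ L)
    (hRc : centralizer (pCoreOf 2 L : Set G) ≤ pCoreOf 2 L)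
    (hRT : pCoreOf 2 L ≤ T) : pCoreOf 2 L ≠ ⊥ := by
  intro h
  rw [h] at hRc
  apply hT1
  rw [eq_bot_iff]
  intro t ht
  exact hRc (by
    rw [Subgroup.mem_centralizer_iff]
    intro r hr
    have : r = 1 := by simpa using hr
    simp [this])

/-- The general form of `S2942`. -/
theorem sn_of_mem (hL : IsCharacteristicTwoType G) (hN : ∀ N : Subgroup G, IsTwoLocal N → Group.IsSolvable ↥N)
    (hZ : ∀ S : Sylow 2 G, centralizer (omegaCenterOf (S : Subgroup G) : Set G) ≤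
      normalizer ((S : Subgroup G) : Set G)) (hT : IsPGroup 2 T) (hT1 : T ≠ ⊥)
    (hLT : L ∈ jOvergroups T) (hK : IsJComponent T K) (hKL : K ≤ L) : SN K L := by
  obtain ⟨hTL, -, hRc⟩ := hLT
  have hs := isSylowIn_of_two hTL
  have hLR : L ≤ normalizer (pCoreOf 2 L : Set G) := le_normalizer_pCoreOf L
  have hRT : pCoreOf 2 L ≤ T := le_of_normal_of_isSylowIn hs (pCoreOf_le L) (isPGroup_pCoreOf L) hLR
  have hne := pCoreOf_ne_bot hT1 hTL.1 hRc hRT
  have hsolvN := hN _ ⟨pCoreOf 2 L, isPGroup_pCoreOf L, hne, rfl⟩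
  have hsolv : Group.IsSolvable L :=
    Group.isSolvable_of_isSolvable_injective (f := Subgroup.inclusion hLR)
      (Subgroup.inclusion_injective hLR)
  have hJT : thompsonSubgroupOf 2 T ≤ T := Cfsg.Agent.Lib.Core.ThompsonMap.thompsonSubgroupOf_le T
  have hRK : pCoreOf 2 L ≤ normalizer (K : Set G) :=
    Cfsg.Agent.S2941.result hL hN hZ T hT hT1 K hK (pCoreOf 2 L)
      (sup_le (hKL.trans hLR) (hJT.trans (hTL.1.trans hLR)))
      (hRT.trans (le_normalizer_thompson T))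
  exact K_sn hZ hsolv hT hTL hRc hK hKL hRK

end main

end Cfsg.Agent.Lib.JSub.Main
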