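import Cfsg.Agent.Lib.JSub.Main

/-!
# `T` normalizes `K` when `Z(T)` meets `W_K`
-/

set_option autoImplicit false
set_option linter.unusedSectionVars false
set_option linter.unusedSimpArgs false
set_option linter.style.haveILetI false

open scoped commutatorElement

namespace Cfsg.Agent.Lib.JSub.Norm

open Cfsg Subgroup
open Cfsg.Agent.Lib.JSub.Core
open Cfsg.Agent.Lib.JSub.Main
open Cfsg.Agent.Lib.PointStab.Step (nrm_of_conj conj_mem conj_inv_mem mem_Z₁ Z₁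
  isSylowIn_of_le mem_of_SN_of_sylow)
open Cfsg.Agent.Lib.Subnormal.Basic
open Cfsg.Agent.Lib.Coprime.Action (IsSylowIn le_of_normal_of_isSylowIn)
open Cfsg.Agent.Lib.PLocal.Thompson (IsMaxIn jOf thompsonSubgroupOf_eq IsAbExp)
open Cfsg.Agent.Lib.LocalStruct.PCoreOf

variable {G : Type*} [Group G] [Finite G] {L T K : Subgroup G}

/-- The facts extracted from Thompson factorization. -/
theorem exists_facts (hZ : ∀ S : Sylow 2 G, centralizer (omegaCenterOf (S : Subgroup G) : Set G) ≤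
      normalizer ((S : Subgroup G) : Set G))
    (hsolv : Group.IsSolvable L) (hT : IsPGroup 2 T) (hTL : IsSylowTwoIn T L)
    (hRc : centralizer (pCoreOf 2 L : Set G) ≤ pCoreOf 2 L) (hK : IsJComponent T K) (hKL : K ≤ L) :
    ∃ C E V : Subgroup G, ∃ j ∈ thompsonSubgroupOf 2 T,
      C ≤ E ∧ E ≤ L ∧ L ≤ normalizer (C : Set G) ∧ L ≤ normalizer (E : Set G) ∧
      pCoreOf 2 L ≤ C ∧ (∀ c ∈ C, ∀ z ∈ omegaCenterOf T, c * z = z * c) ∧
      (∀ y ∈ omegaCenterOf T, y ≠ 1 → ∀ d ∈ E, ∀ d' ∈ E,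
        y * (d * y * d⁻¹) * ((d * d) * y * (d * d)⁻¹) = 1 →
        y * (d' * y * d'⁻¹) * ((d' * d') * y * (d' * d')⁻¹) = 1 →
        (∃ j ∈ thompsonSubgroupOf 2 T, j * d * j⁻¹ * d⁻¹ ∉ C) →
        (∀ j ∈ thompsonSubgroupOf 2 T, j * d * j⁻¹ * d⁻¹ ∈ C ∨ j * d * j⁻¹ * d ∈ C) →
        (∀ j ∈ thompsonSubgroupOf 2 T, j * d' * j⁻¹ * d'⁻¹ ∈ C ∨ j * d' * j⁻¹ * d' ∈ C) →
        d' * d ∈ C ∨ d' * d⁻¹ ∈ C) ∧
      (∀ y ∈ C, ∀ n : ℕ, orderOf y = 2 ^ n → y ∈ pCoreOf 2 L) ∧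
      (∀ c ∈ C, ∀ t ∈ T, c * t * c⁻¹ * t⁻¹ ∈ pCoreOf 2 L) ∧
      K ≤ E ∧ pCoreOf 2 K ≤ pCoreOf 2 L ∧ (∀ k ∈ K, k ^ 3 ∈ pCoreOf 2 K) ∧
      (∀ k ∈ K, ∀ c ∈ C, k * c * k⁻¹ * c⁻¹ ∈ pCoreOf 2 L) ∧
      (∀ k ∈ K, k * (j * k * j⁻¹) ∈ pCoreOf 2 K) ∧
      (∀ x ∈ E, x ^ 3 ∈ C) ∧
      L ≤ normalizer (V : Set G) ∧ (∀ c ∈ C, ∀ v ∈ V, c * v = v * c) ∧
      (∀ c ∈ L, (∀ v ∈ V, c * v = v * c) → c ∈ C) ∧
      (∀ y ∈ omegaCenterOf T, y ≠ 1 → ∀ d ∈ E,
        y * (d * y * d⁻¹) * ((d * d) * y * (d * d)⁻¹) = 1 →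
        (∃ j ∈ thompsonSubgroupOf 2 T, j * d * j⁻¹ * d⁻¹ ∉ C) →
        (∀ j ∈ thompsonSubgroupOf 2 T, j * d * j⁻¹ * d⁻¹ ∈ C ∨ j * d * j⁻¹ * d ∈ C) →
        ∃ a ∈ thompsonSubgroupOf 2 T, a * d * a⁻¹ * d ∈ C ∧
          ∀ v ∈ V, a * v * a⁻¹ * v⁻¹ = 1 ∨ a * v * a⁻¹ * v⁻¹ = y) := by
  obtain ⟨C, E, Y, V, hCE, hEL, hLC, hLE, hRC, hCZ, hEc, hE3, hJY, hYL, hLY, hYE, hKey, hLV, hCV, hVC, hKey2⟩ :=
    exists_CE3 hsolv hTL hRc
  set R := pCoreOf 2 L with hR
  set J := thompsonSubgroupOf 2 T with hJ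
  have hCL : C ≤ L := hCE.trans hEL
  have hLR : L ≤ normalizer (R : Set G) := le_normalizer_pCoreOf L
  have hs := isSylowIn_of_two hTL
  have hRT : R ≤ T := le_of_normal_of_isSylowIn hs (pCoreOf_le L) (isPGroup_pCoreOf L) hLR
  -- `C` normalizes `T`
  have hCT : C ≤ normalizer (T : Set G) := fun c hc =>
    nrm_of_conj (fun t ht => conj_mem_T hZ hT hTL hRc (hCL hc) (hCZ c hc) ht)
      (fun t ht => by
        have := conj_mem_T hZ hT hTL hRc (L.inv_mem (hCL hc)) (hCZ _ (C.inv_mem hc)) ht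
        simpa using this)
  -- the `2`-elements of `C`
  have h2T : ∀ y ∈ C, ∀ n : ℕ, orderOf y = 2 ^ n → y ∈ T := by
    intro y hy n hn
    have hD : T ⊔ C ≤ L := sup_le hTL.1 hCL
    have hDs := isSylowIn_of_le hs (le_sup_left : T ≤ T ⊔ C) hD
    exact mem_of_SN_of_sylow (SN.of_le_normalizer le_sup_left (sup_le Subgroup.le_normalizer hCT))
      hDs le_rfl (Subgroup.mem_sup_right hy) hn
  have h2R : ∀ y ∈ C, ∀ n : ℕ, orderOf y = 2 ^ n → y ∈ R := by
    intro y hy n hn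
    set X : Set G := {x | x ∈ C ∧ ∃ m : ℕ, orderOf x = 2 ^ m} with hX
    have hMT : closure X ≤ T := (closure_le _).mpr fun x hx => by
      obtain ⟨h1, m, hm⟩ := hx
      exact h2T x h1 m hm
    have hXconj : ∀ g ∈ L, ∀ x ∈ X, g * x * g⁻¹ ∈ X := by
      rintro g hg x ⟨h1, m, hm⟩
      refine ⟨conj_mem (hLC hg) h1, m, ?_⟩
      have := MulEquiv.orderOf_eq (MulAut.conj g) x
      rw [MulAut.conj_apply] at this
      rw [this, hm]
    have hMR : closure X ≤ R := by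
      refine le_pCoreOf (hMT.trans hTL.1) ?_ (hT.to_le hMT)
      intro g hg
      refine nrm_of_conj (Cfsg.Agent.Lib.PointStab.Step.conj_mem_closure (hXconj g hg)) ?_
      intro z hz
      have := Cfsg.Agent.Lib.PointStab.Step.conj_mem_closure (hXconj g⁻¹ (L.inv_mem hg)) z hz
      rwa [inv_inv] at this
    exact hMR (Subgroup.subset_closure ⟨hy, n, hn⟩)
  have hTC : ∀ c ∈ C, ∀ t ∈ T, c * t * c⁻¹ * t⁻¹ ∈ R := by
    intro c hc t ht
    have h1 : c * t * c⁻¹ * t⁻¹ ∈ T := T.mul_mem (conj_mem (hCT hc) ht) (T.inv_mem ht)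
    have h2 : c * t * c⁻¹ * t⁻¹ ∈ C := by
      have e : c * t * c⁻¹ * t⁻¹ = c * (t * c⁻¹ * t⁻¹) := by group
      rw [e]
      exact C.mul_mem hc (conj_mem (hLC (hTL.1 ht)) (C.inv_mem hc))
    obtain ⟨k, hk⟩ := (IsPGroup.iff_orderOf.mp hT) ⟨_, h1⟩
    exact h2R _ h2 k (by rwa [Subgroup.orderOf_mk] at hk)
  -- `K` lies in `E`
  have hKY : K ≤ Y := by
    conv_lhs => rw [← hK.2.1]
    rw [Subgroup.commutator_le]
    intro k hk j hj
    rw [commutatorElement_def]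
    exact Y.mul_mem (conj_mem (hLY (hKL hk)) (hJY hj)) (Y.inv_mem (hJY hj))
  have hKE : K ≤ E := by
    conv_lhs => rw [← hK.1]
    rw [closure_le]
    rintro g ⟨hg, hgo⟩
    exact hYE g (hKY hg) hgo
  -- `O₂(K)` lies in `R`
  set Q := pCoreOf 2 K with hQ
  have hQK : Q ≤ K := pCoreOf_le K
  have hKQ : K ≤ normalizer (Q : Set G) := le_normalizer_pCoreOf K
  have hQR : Q ≤ R := by
    intro q hq
    obtain ⟨a, ha⟩ := (IsPGroup.iff_orderOf.mp (isPGroup_pCoreOf (p := 2) K)) ⟨q, hq⟩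
    have ha' : orderOf q = 2 ^ a := by rwa [Subgroup.orderOf_mk] at ha
    have hco : Nat.Coprime 3 (orderOf q) := by
      rw [ha']
      exact Nat.Coprime.pow_right _ (by norm_num)
    obtain ⟨m, hm⟩ := exists_pow_eq_self_of_coprime hco
    have hqC : q ∈ C := by
      rw [← hm]
      exact C.pow_mem (hE3 q (hKE (hQK hq))) m
    exact h2R q hqC a ha'
  -- the element of `J` inverting `K / Q`
  have h3 : Q.relIndex K = 3 := hK.2.2.1
  have hJT : J ≤ T := Cfsg.Agent.Lib.Core.ThompsonMap.thompsonSubgroupOf_le T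
  have hJK : J ≤ normalizer (K : Set G) := by
    have := Cfsg.Agent.Lib.LocalEven.CharP.le_normalizer_commutator J K
    rwa [Subgroup.commutator_comm, hK.2.1] at this
  obtain ⟨k₀, hk₀, j, hj, hmove⟩ : ∃ k₀ ∈ K, ∃ j ∈ J, k₀ * (j * k₀ * j⁻¹)⁻¹ ∉ Q := by
    by_contra hcon
    push Not at hcon
    have h1 : K ≤ Q := by
      conv_lhs => rw [← hK.2.1]
      rw [Subgroup.commutator_le]
      intro k hk j hj
      have := hcon k hk j hj
      have e : ⁅k, j⁆ = k * (j * k * j⁻¹)⁻¹ := by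
        rw [commutatorElement_def]
        group
      rwa [e]
    have h2 : Q.relIndex K = 1 := Subgroup.relIndex_eq_one.mpr h1
    omega
  have hjK : j ∈ normalizer (K : Set G) := hJK hj
  have hjQ : j ∈ normalizer (Q : Set G) :=
    Cfsg.Agent.Lib.LocalEven.JComp.normalizer_le_pCoreOf hjK
  have hinv : ∀ k ∈ K, k * (j * k * j⁻¹) ∈ Q := fun k hk =>
    inv_of_move hQK hKQ h3 hjK hjQ hk₀ hmove hk
  have hjL : j ∈ L := hTL.1 (hJT hj)
  -- the cube of an element of `K`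
  have hcube : ∀ k ∈ K, k ^ 3 ∈ Q := by
    intro k hk
    haveI hN : (Q.subgroupOf K).Normal := Subgroup.normal_subgroupOf_of_le_normalizer hKQ
    have h1 := Subgroup.pow_index_mem (Q.subgroupOf K) (⟨k, hk⟩ : K)
    have h2 : (Q.subgroupOf K).index = 3 := h3
    rw [h2, Subgroup.mem_subgroupOf] at h1
    simpa using h1
  -- `K` centralizes `C` modulo `R`
  have hKC : ∀ k ∈ K, ∀ c ∈ C, k * c * k⁻¹ * c⁻¹ ∈ R := by
    intro k hk c hc
    haveI hRn : (R.subgroupOf L).Normal := Subgroup.normal_subgroupOf_of_le_normalizer hLR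
    let π : L →* L ⧸ R.subgroupOf L := QuotientGroup.mk' _
    have hπ : ∀ x : L, π x = 1 ↔ (x : G) ∈ R := by
      intro x
      rw [← MonoidHom.mem_ker, QuotientGroup.ker_mk', Subgroup.mem_subgroupOf]
    let k' : L := ⟨k, hKL hk⟩
    let c' : L := ⟨c, hCL hc⟩
    let j' : L := ⟨j, hjL⟩
    have hcj : ∀ u ∈ C, ∀ hu : u ∈ L, π j' * π ⟨u, hu⟩ * (π j')⁻¹ = π ⟨u, hu⟩ := by
      intro u hu hu'
      have h1 := R.inv_mem (hTC u hu j (hJT hj))
      have h2 : π (j' * ⟨u, hu'⟩ * j'⁻¹ * (⟨u, hu'⟩ : L)⁻¹) = 1 := by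
        rw [hπ]
        have e : (u * j * u⁻¹ * j⁻¹)⁻¹ = j * u * j⁻¹ * u⁻¹ := by group
        rw [e] at h1
        exact h1
      rw [map_mul, map_mul, map_mul, map_inv, map_inv] at h2
      exact mul_inv_eq_one.mp h2
    have h1 : π j' * π k' * (π j')⁻¹ = (π k')⁻¹ := by
      have h2 : π (k' * (j' * k' * j'⁻¹)) = 1 := (hπ _).mpr (hQR (hinv k hk))
      rw [map_mul, map_mul, map_mul, map_inv] at h2
      exact eq_inv_of_mul_eq_one_right h2
    have h2 : π j' * π c' * (π j')⁻¹ = π c' := hcj c hc (hCL hc)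
    have hu : k * c * k⁻¹ * c⁻¹ ∈ C :=
      C.mul_mem (conj_mem (hLC (hKL hk)) hc) (C.inv_mem hc)
    have h3' : π j' * (π k' * π c' * (π k')⁻¹ * (π c')⁻¹) * (π j')⁻¹ =
        π k' * π c' * (π k')⁻¹ * (π c')⁻¹ := by
      have := hcj _ hu (hCL hu)
      have e : π ⟨k * c * k⁻¹ * c⁻¹, hCL hu⟩ = π k' * π c' * (π k')⁻¹ * (π c')⁻¹ := by
        rw [← map_inv, ← map_inv, ← map_mul, ← map_mul, ← map_mul]
        rfl
      rwa [e] at this
    have h4 : (π k') ^ 3 = 1 := by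
      rw [← map_pow]
      exact (hπ _).mpr (by simpa using hQR (hcube k hk))
    have h5 := comm_of_inv h1 h2 h3' h4
    have h6 : π (k' * c' * k'⁻¹ * c'⁻¹) = 1 := by
      rw [map_mul, map_mul, map_mul, map_inv, map_inv, h5]
      group
    exact (hπ _).mp h6
  exact ⟨C, E, V, j, hj, hCE, hEL, hLC, hLE, hRC, hCZ, hKey, h2R, hTC, hKE, hQR, hcube, hKC, hinv, hE3, hLV, hCV, hVC, hKey2⟩

/-- An element of `C` whose square lies in `R` lies in `R`. -/
theorem mem_of_sq_mem {C R : Subgroup G} (h2R : ∀ y ∈ C, ∀ n : ℕ, orderOf y = 2 ^ n → y ∈ R) {c : G}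
    (hc : c ∈ C) (hc2 : c * c ∈ R) : c ∈ R := by
  have hpos : orderOf c ≠ 0 := (orderOf_pos c).ne'
  obtain ⟨e, m, hm, hn⟩ := Nat.exists_eq_two_pow_mul_odd hpos
  have hmdvd : m ∣ orderOf c := ⟨2 ^ e, by rw [hn]; ring⟩
  have hm0 : m ≠ 0 := hm.pos.ne'
  have h1 : orderOf (c ^ m) = 2 ^ e := by
    rw [orderOf_pow_of_dvd hm0 hmdvd, hn]
    exact Nat.mul_div_cancel _ hm.pos
  have h2 : c ^ m ∈ R := h2R _ (C.pow_mem hc m) e h1
  obtain ⟨s, hs⟩ := hm
  have h3 : c ^ m = (c * c) ^ s * c := by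
    rw [hs, pow_succ, pow_mul, pow_two]
  rw [h3] at h2
  have h4 := R.mul_mem (R.inv_mem (R.pow_mem hc2 s)) h2
  rwa [inv_mul_cancel_left] at h4

/-- Odd elements of `K ⊔ R` lie in `K`. -/
theorem odd_mem {K R : Subgroup G} (hR : IsPGroup 2 R) (hRK : R ≤ normalizer (K : Set G)) {x : G}
    (hx : x ∈ K ⊔ R) (hodd : Odd (orderOf x)) : x ∈ K := by
  have hn : K ⊔ R ≤ normalizer (K : Set G) := sup_le Subgroup.le_normalizer hRK
  haveI : (K.subgroupOf (K ⊔ R)).Normal := Subgroup.normal_subgroupOf_of_le_normalizer hn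
  have h1 := Subgroup.pow_index_mem (K.subgroupOf (K ⊔ R)) (⟨x, hx⟩ : ↥(K ⊔ R))
  rw [Subgroup.mem_subgroupOf] at h1
  have h1' : x ^ (K.relIndex (K ⊔ R)) ∈ K := by simpa [Subgroup.relIndex] using h1
  have h2 := Cfsg.Agent.Lib.QuadAct.Basic.card_sup_mul_card_inf_of_le_normalizer R K hRK
  rw [sup_comm, inf_comm, mul_comm (Nat.card R)] at h2
  have h3 : Nat.card K * K.relIndex (K ⊔ R) = Nat.card ↥(K ⊔ R) :=
    Cfsg.Agent.Lib.Coprime.Action.card_eq_card_mul_relIndex le_sup_left |>.symm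
  obtain ⟨a, ha⟩ := IsPGroup.iff_card.mp hR
  have h4 : K.relIndex (K ⊔ R) ∣ 2 ^ a := by
    rw [← ha]
    have hK0 : 0 < Nat.card K := Nat.card_pos
    refine ⟨Nat.card ↥(K ⊓ R), Nat.eq_of_mul_eq_mul_left hK0 ?_⟩
    rw [← mul_assoc, h3, h2]
  obtain ⟨b, -, hb⟩ := (Nat.dvd_prime_pow Nat.prime_two).mp h4
  have hco : Nat.Coprime (K.relIndex (K ⊔ R)) (orderOf x) := by
    rw [hb]
    exact Nat.Coprime.pow_left _ (Nat.coprime_two_left.mpr hodd)
  obtain ⟨m, hm⟩ := exists_pow_eq_self_of_coprime hco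
  rw [← hm]
  exact K.pow_mem h1' m

/-- The key step. -/
theorem conj_mem_K (hZ : ∀ S : Sylow 2 G, centralizer (omegaCenterOf (S : Subgroup G) : Set G) ≤
      normalizer ((S : Subgroup G) : Set G))
    (hsolv : Group.IsSolvable L) (hT : IsPGroup 2 T) (hTL : IsSylowTwoIn T L)
    (hRc : centralizer (pCoreOf 2 L : Set G) ≤ pCoreOf 2 L) (hK : IsJComponent T K) (hKL : K ≤ L)
    (hRK : pCoreOf 2 L ≤ normalizer (K : Set G))
    {y : G} (hy : y ∈ omegaCenterOf T) (hyW : y ∈ wOf K) (hy1 : y ≠ 1) {t : G} (ht : t ∈ T) {k : G}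
    (hk : k ∈ K) : t * k * t⁻¹ ∈ K := by
  obtain ⟨C, E, V, j, hj, hCE, hEL, hLC, hLE, hRC, hCZ, hKey, h2R, hTC, hKE, hQR, hcube, hKC, hinv, -⟩ :=
    exists_facts hZ hsolv hT hTL hRc hK hKL
  obtain ⟨S, g, -, -, -, hS⟩ := Cfsg.Agent.Lib.LocalEven.JComp.exists_setup hT hK
  set R := pCoreOf 2 L with hR
  set J := thompsonSubgroupOf 2 T with hJ
  set Q := pCoreOf 2 K with hQ
  set W := wOf K with hW
  have htL : t ∈ L := hTL.1 ht
  have hLR : L ≤ normalizer (R : Set G) := le_normalizer_pCoreOf L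
  have hJT : J ≤ T := Cfsg.Agent.Lib.Core.ThompsonMap.thompsonSubgroupOf_le T
  have hJK : J ≤ normalizer (K : Set G) := by
    have := Cfsg.Agent.Lib.LocalEven.CharP.le_normalizer_commutator J K
    rwa [Subgroup.commutator_comm, hK.2.1] at this
  have hQC : Q ≤ C := hQR.trans hRC
  have hdK : g ∈ K := hS.hgK
  have hdQ : g ∉ Q := hS.hgQ
  have hyc : ∀ z : G, t * z = z * t → z ∈ T → True := fun _ _ _ => trivial
  -- `d` does not lie in `C`
  have hdC : g ∉ C := by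
    intro hc
    have h1 := hCZ g hc y hy
    exact hS.not_fix hyW hy1 (by rw [h1]; group)
  have hdW : ∀ {v : G}, v ∈ W → g * v * g⁻¹ ∈ W := fun hv => conj_mem (hS.hKW hdK) hv
  -- the relation
  have hrel : y * (g * y * g⁻¹) * ((g * g) * y * (g * g)⁻¹) = 1 := by
    set u := y * (g * y * g⁻¹) * ((g * g) * y * (g * g)⁻¹) with hu
    have h1 : g * y * g⁻¹ ∈ W := hdW hyW
    have h2 : (g * g) * y * (g * g)⁻¹ ∈ W := by
      have := hdW h1
      have e : g * (g * y * g⁻¹) * g⁻¹ = (g * g) * y * (g * g)⁻¹ := by group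
      rwa [e] at this
    have h3 : g ^ 3 ∈ Q := hcube g hdK
    have h4 : (g * g * g) * y * (g * g * g)⁻¹ = y := by
      have h5 := mem_centralizer_iff.mp (hS.hQW h3) y hyW
      have e : g ^ 3 = g * g * g := by rw [pow_succ, pow_two]
      rw [e] at h5
      rw [← h5]
      group
    have huW : u ∈ W := W.mul_mem (W.mul_mem hyW h1) h2
    by_contra hne
    apply hS.not_fix huW hne
    have e1 : g * u * g⁻¹ = (g * y * g⁻¹) * ((g * g) * y * (g * g)⁻¹) * ((g * g * g) * y * (g * g * g)⁻¹) := by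
      rw [hu]
      group
    rw [e1, h4, hu, hS.hW.comm (W.mul_mem h1 h2) hyW]
    group
  -- conjugation by `t`
  have hty : t * y = y * t := ((mem_Z₁.mp hy).2.1 t ht)
  have htyt : t * y * t⁻¹ = y := by rw [hty]; group
  set d' := t * g * t⁻¹ with hd'
  have hd'E : d' ∈ E := conj_mem (hLE htL) (hKE hdK)
  have hrel' : y * (d' * y * d'⁻¹) * ((d' * d') * y * (d' * d')⁻¹) = 1 := by
    have e : y * (d' * y * d'⁻¹) * ((d' * d') * y * (d' * d')⁻¹) =
        t * (y * (g * y * g⁻¹) * ((g * g) * y * (g * g)⁻¹)) * t⁻¹ := by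
      conv_lhs => rw [← htyt]
      rw [hd']
      group
    rw [e, hrel]
    group
  -- the dichotomy on `Q`
  have hdich : ∀ i ∈ J, i * g * i⁻¹ * g⁻¹ ∈ Q ∨ i * g * i⁻¹ * g ∈ Q := by
    intro i hi
    have hiK := hJK hi
    have hiQ : i ∈ normalizer (Q : Set G) :=
      Cfsg.Agent.Lib.LocalEven.JComp.normalizer_le_pCoreOf hiK
    by_cases hm : g * (i * g * i⁻¹)⁻¹ ∈ Q
    · left
      have := Q.inv_mem hm
      have e : (g * (i * g * i⁻¹)⁻¹)⁻¹ = i * g * i⁻¹ * g⁻¹ := by group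
      rwa [e] at this
    · right
      have h1 := inv_of_move hS.hQK hS.hKQ hS.hK3 hiK hiQ hdK hm hdK
      have h2 := conj_inv_mem (hS.hKQ hdK) h1
      have e : g⁻¹ * (g * (i * g * i⁻¹)) * g = i * g * i⁻¹ * g := by group
      rwa [e] at h2
  have hdich' : ∀ i ∈ J, i * d' * i⁻¹ * d'⁻¹ ∈ R ∨ i * d' * i⁻¹ * d' ∈ R := by
    intro i hi
    have hi' : t⁻¹ * i * t ∈ J := by
      have := conj_inv_mem (le_normalizer_thompson T ht) hi
      exact this
    rcases hdich _ hi' with h | h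
    · left
      have := conj_mem (hLR htL) (hQR h)
      have e : t * (t⁻¹ * i * t * g * (t⁻¹ * i * t)⁻¹ * g⁻¹) * t⁻¹ = i * d' * i⁻¹ * d'⁻¹ := by
        rw [hd']
        group
      rwa [e] at this
    · right
      have := conj_mem (hLR htL) (hQR h)
      have e : t * (t⁻¹ * i * t * g * (t⁻¹ * i * t)⁻¹ * g) * t⁻¹ = i * d' * i⁻¹ * d' := by
        rw [hd']
        group
      rwa [e] at this
  -- the move
  have hjK := hJK hj
  have hd2 : ∀ {x : G}, x ∈ K → x * x ∈ C → x ∈ C := by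
    intro x hx h
    have h1 := hQC (hcube x hx)
    have e : x = x ^ 3 * (x * x)⁻¹ := by
      rw [pow_succ, pow_two]
      group
    rw [e]
    exact C.mul_mem h1 (C.inv_mem h)
  have hjd : g * (j * g * j⁻¹) ∈ Q := hinv g hdK
  have hii : j * g * j⁻¹ * g⁻¹ ∉ C := by
    intro hc
    apply hdC
    apply hd2 hdK
    have h1 := conj_mem (hLC (hEL (hKE hdK))) hc
    have h2 := hQC hjd
    have e : g * g = (g * (j * g * j⁻¹ * g⁻¹) * g⁻¹)⁻¹ * (g * (j * g * j⁻¹)) := by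
      rw [← pow_two]
      group
    rw [e]
    exact C.mul_mem (C.inv_mem h1) h2
  -- the key property
  have hkey := hKey y hy hy1 g (hKE hdK) d' hd'E hrel hrel' ⟨j, hj, hii⟩
    (fun i hi => (hdich i hi).imp (fun h => hQC h) (fun h => hQC h))
    (fun i hi => (hdich' i hi).imp (fun h => hRC h) (fun h => hRC h))
  -- write `d' = c a`
  obtain ⟨a, c, haK, haC, hcC, hca⟩ : ∃ a c : G, a ∈ K ∧ a ∉ C ∧ c ∈ C ∧ d' = c * a := by
    rcases hkey with h | h
    · refine ⟨g⁻¹, d' * g, K.inv_mem hdK, fun h' => hdC ?_, h, by group⟩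
      simpa using C.inv_mem h'
    · exact ⟨g, d' * g⁻¹, hdK, hdC, h, by group⟩
  have hjinv : a * (j * a * j⁻¹) ∈ R := hQR (hinv a haK)
  have hjc : c * j * c⁻¹ * j⁻¹ ∈ R := hTC c hcC j (hJT hj)
  have hac : a * c * a⁻¹ * c⁻¹ ∈ R := hKC a haK c hcC
  have hjL : j ∈ L := hTL.1 (hJT hj)
  have hcL : c ∈ L := hEL (hCE hcC)
  have haL : a ∈ L := hKL haK
  -- modulo `R`
  have hcR : c ∈ R := by
    refine mem_of_sq_mem h2R hcC ?_
    haveI hRn : (R.subgroupOf L).Normal := Subgroup.normal_subgroupOf_of_le_normalizer hLR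
    let π : L →* L ⧸ R.subgroupOf L := QuotientGroup.mk' _
    have hπ : ∀ x : L, π x = 1 ↔ (x : G) ∈ R := by
      intro x
      rw [← MonoidHom.mem_ker, QuotientGroup.ker_mk', Subgroup.mem_subgroupOf]
    let a' : L := ⟨a, haL⟩
    let c' : L := ⟨c, hcL⟩
    let j' : L := ⟨j, hjL⟩
    have h1 : π j' * π a' * (π j')⁻¹ = (π a')⁻¹ := by
      have h2 : π (a' * (j' * a' * j'⁻¹)) = 1 := (hπ _).mpr hjinv
      rw [map_mul, map_mul, map_mul, map_inv] at h2
      exact eq_inv_of_mul_eq_one_right h2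
    have h2 : π j' * π c' * (π j')⁻¹ = π c' := by
      have h3 : π (c' * j' * c'⁻¹ * j'⁻¹) = 1 := (hπ _).mpr hjc
      rw [map_mul, map_mul, map_mul, map_inv, map_inv] at h3
      have h4 : π c' * π j' = π j' * π c' := mul_inv_eq_iff_eq_mul.mp (mul_inv_eq_one.mp h3)
      rw [← h4]
      group
    have h3 : π a' * π c' = π c' * π a' := by
      have h4 : π (a' * c' * a'⁻¹ * c'⁻¹) = 1 := (hπ _).mpr hac
      rw [map_mul, map_mul, map_mul, map_inv, map_inv] at h4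
      exact mul_inv_eq_iff_eq_mul.mp (mul_inv_eq_one.mp h4)
    have h5 : (π a') ^ 3 = 1 := by
      rw [← map_pow]
      exact (hπ _).mpr (by simpa using hQR (hcube a haK))
    have hd'L : d' ∈ L := hEL hd'E
    have hd'eq : π ⟨d', hd'L⟩ = π c' * π a' := by
      rw [← map_mul]
      congr 1
      exact Subtype.ext hca
    have h6 : π j' * (π c' * π a') * (π j')⁻¹ = π c' * (π a')⁻¹ := by
      rw [← h1]
      conv_rhs => rw [← h2]
      group
    rcases hdich' j hj with h | h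
    · -- `j` centralizes `d'` modulo `R`: impossible
      exfalso
      have h7 : π (j' * ⟨d', hd'L⟩ * j'⁻¹ * (⟨d', hd'L⟩ : L)⁻¹) = 1 := (hπ _).mpr h
      rw [map_mul, map_mul, map_mul, map_inv, map_inv, hd'eq, h6] at h7
      have h8 : π c' * (π a')⁻¹ = π c' * π a' := mul_inv_eq_one.mp h7
      have h9 : (π a')⁻¹ = π a' := mul_left_cancel h8
      have h10 : π (a' * a') = 1 := by
        rw [map_mul]
        nth_rw 1 [← h9]
        group
      exact haC (hd2 haK (hRC ((hπ _).mp h10)))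
    · have h7 : π (j' * ⟨d', hd'L⟩ * j'⁻¹ * (⟨d', hd'L⟩ : L)) = 1 := (hπ _).mpr h
      rw [map_mul, map_mul, map_mul, map_inv, hd'eq, h6] at h7
      have h8 : π (c' * c') = 1 := by
        rw [map_mul]
        have hcomm : (π a')⁻¹ * π c' = π c' * (π a')⁻¹ := (Commute.inv_left h3).eq
        calc π c' * π c' = π c' * (π c' * (π a')⁻¹) * π a' := by group
          _ = π c' * ((π a')⁻¹ * π c') * π a' := by rw [hcomm]
          _ = π c' * (π a')⁻¹ * (π c' * π a') := by group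
          _ = 1 := h7
      exact (hπ _).mp h8
  -- `d'` lies in `K ⊔ R`
  have hd'KR : d' ∈ K ⊔ R := by
    rw [hca]
    exact Subgroup.mul_mem _ (Subgroup.mem_sup_right hcR) (Subgroup.mem_sup_left haK)
  have hgen : ∀ x ∈ K, t * x * t⁻¹ ∈ K ⊔ R := by
    intro x hx
    by_cases hxQ : x ∈ Q
    · exact Subgroup.mem_sup_right (conj_mem (hLR htL) (hQR hxQ))
    · have hqR : ∀ {q : G}, q ∈ Q → t * q * t⁻¹ ∈ K ⊔ R := fun hq =>
        Subgroup.mem_sup_right (conj_mem (hLR htL) (hQR hq))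
      rcases Cfsg.Agent.Lib.LocalEven.JComp.index3_cases hS.hQK hS.hKQ hS.hK3 hdK hx hdQ hxQ with h | h
      · have e : t * x * t⁻¹ = d' * (t * (g⁻¹ * x) * t⁻¹) := by
          rw [hd']
          group
        rw [e]
        exact Subgroup.mul_mem _ hd'KR (hqR h)
      · have e : t * x * t⁻¹ = d'⁻¹ * (t * (g * x) * t⁻¹) := by
          rw [hd']
          group
        rw [e]
        exact Subgroup.mul_mem _ (Subgroup.inv_mem _ hd'KR) (hqR h)
  have hfinal : K ≤ K.comap (MulAut.conj t).toMonoidHom := by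
    conv_lhs => rw [← hK.1]
    rw [closure_le]
    rintro x ⟨hx, hodd⟩
    have h1 : Odd (orderOf (t * x * t⁻¹)) := by
      have := MulEquiv.orderOf_eq (MulAut.conj t) x
      rw [MulAut.conj_apply] at this
      rwa [this]
    exact odd_mem (isPGroup_pCoreOf L) hRK (hgen x hx) h1
  exact hfinal hk

/-- The general form of `S2943`. -/
theorem le_normalizer_K (hL : IsCharacteristicTwoType G)
    (hN : ∀ N : Subgroup G, IsTwoLocal N → Group.IsSolvable ↥N)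
    (hZ : ∀ S : Sylow 2 G, centralizer (omegaCenterOf (S : Subgroup G) : Set G) ≤
      normalizer ((S : Subgroup G) : Set G)) (hT : IsPGroup 2 T) (hT1 : T ≠ ⊥)
    (hLT : L ∈ jOvergroups T) (hK : IsJComponent T K) (hKL : K ≤ L)
    (hZW : T ⊓ centralizer (T : Set G) ⊓ wOf K ≠ ⊥) : T ≤ normalizer (K : Set G) := by
  obtain ⟨hTL, -, hRc⟩ := hLT
  have hs := isSylowIn_of_two hTL
  have hLR : L ≤ normalizer (pCoreOf 2 L : Set G) := le_normalizer_pCoreOf L
  have hRT : pCoreOf 2 L ≤ T := le_of_normal_of_isSylowIn hs (pCoreOf_le L) (isPGroup_pCoreOf L) hLR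
  have hne := pCoreOf_ne_bot hT1 hTL.1 hRc hRT
  have hsolvN := hN _ ⟨pCoreOf 2 L, isPGroup_pCoreOf L, hne, rfl⟩
  have hsolv : Group.IsSolvable L :=
    Group.isSolvable_of_isSolvable_injective (f := Subgroup.inclusion hLR)
      (Subgroup.inclusion_injective hLR)
  have hJT : thompsonSubgroupOf 2 T ≤ T := Cfsg.Agent.Lib.Core.ThompsonMap.thompsonSubgroupOf_le T
  have hRK : pCoreOf 2 L ≤ normalizer (K : Set G) :=
    Cfsg.Agent.S2941.result hL hN hZ T hT hT1 K hK (pCoreOf 2 L)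
      (sup_le (hKL.trans hLR) (hJT.trans (hTL.1.trans hLR)))
      (hRT.trans (le_normalizer_thompson T))
  obtain ⟨y, hy, hy1⟩ := (Subgroup.bot_or_exists_ne_one _).resolve_left hZW
  obtain ⟨⟨hyT, hyC⟩, hyW⟩ := hy
  have hyZ : y ∈ omegaCenterOf T := by
    refine mem_Z₁.mpr ⟨hyT, fun r hr => mem_centralizer_iff.mp hyC r hr, ?_⟩
    rw [pow_two]
    exact hK.2.2.2.2.2 y hyW
  refine fun t ht => nrm_of_conj (fun x hx => ?_) (fun x hx => ?_)
  · exact conj_mem_K hZ hsolv hT hTL hRc hK hKL hRK hyZ hyW hy1 ht hx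
  · have := conj_mem_K hZ hsolv hT hTL hRc hK hKL hRK hyZ hyW hy1 (T.inv_mem ht) hx
    simpa using this

end Cfsg.Agent.Lib.JSub.Norm
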