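import Cfsg.Agent.Lib.JSub.Norm

/-!
# `N_L(W_K)` normalizes `K`
-/

set_option autoImplicit false
set_option linter.unusedSectionVars false
set_option linter.unusedSimpArgs false
set_option linter.style.haveILetI false

open scoped commutatorElement

namespace Cfsg.Agent.Lib.JSub.NormW

open Cfsg Subgroup
open Cfsg.Agent.Lib.JSub.Core
open Cfsg.Agent.Lib.JSub.Main
open Cfsg.Agent.Lib.JSub.Norm
open Cfsg.Agent.Lib.PointStab.Step (nrm_of_conj conj_mem conj_inv_mem mem_Z₁ Z₁)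
open Cfsg.Agent.Lib.Coprime.Action (IsSylowIn le_of_normal_of_isSylowIn)
open Cfsg.Agent.Lib.PLocal.Thompson (IsMaxIn jOf thompsonSubgroupOf_eq IsAbExp)
open Cfsg.Agent.Lib.LocalStruct.PCoreOf
open Cfsg.Agent.Lib.LocalEven.JComp (Setup IsFour index3_cases exists_setup)

variable {G : Type*} [Group G] [Finite G] {L T K : Subgroup G}

theorem rel_of_setup {S Q W : Subgroup G} {g y : G} (hS : Setup S K Q W g) (h3 : g ^ 3 ∈ Q)
    (hyW : y ∈ W) : y * (g * y * g⁻¹) * ((g * g) * y * (g * g)⁻¹) = 1 := by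
  set u := y * (g * y * g⁻¹) * ((g * g) * y * (g * g)⁻¹) with hu
  have hdW : ∀ {v : G}, v ∈ W → g * v * g⁻¹ ∈ W := fun hv => conj_mem (hS.hKW hS.hgK) hv
  have h1 : g * y * g⁻¹ ∈ W := hdW hyW
  have h2 : (g * g) * y * (g * g)⁻¹ ∈ W := by
    have := hdW h1
    have e : g * (g * y * g⁻¹) * g⁻¹ = (g * g) * y * (g * g)⁻¹ := by group
    rwa [e] at this
  have h4 : (g * g * g) * y * (g * g * g)⁻¹ = y := by
    have h5 := mem_centralizer_iff.mp (hS.hQW h3) y hyW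
    have e : g ^ 3 = g * g * g := by rw [pow_succ, pow_two]
    rw [e] at h5
    rw [← h5]
    group
  have huW : u ∈ W := W.mul_mem (W.mul_mem hyW h1) h2
  by_contra hne
  apply hS.not_fix huW hne
  have e1 : g * u * g⁻¹ = (g * y * g⁻¹) * ((g * g) * y * (g * g)⁻¹) * ((g * g * g) * y * (g * g * g)⁻¹) := by
    rw [hu]
    group
  rw [e1, h4, hu, hS.hW.comm (W.mul_mem h1 h2) hyW]
  group

theorem dich_of_setup {S Q W J : Subgroup G} {g : G} (hS : Setup S K Q W g)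
    (hJK : J ≤ normalizer (K : Set G)) (hJQ : J ≤ normalizer (Q : Set G)) :
    ∀ i ∈ J, i * g * i⁻¹ * g⁻¹ ∈ Q ∨ i * g * i⁻¹ * g ∈ Q := by
  intro i hi
  by_cases hm : g * (i * g * i⁻¹)⁻¹ ∈ Q
  · left
    have := Q.inv_mem hm
    have e : (g * (i * g * i⁻¹)⁻¹)⁻¹ = i * g * i⁻¹ * g⁻¹ := by group
    rwa [e] at this
  · right
    have h1 := inv_of_move hS.hQK hS.hKQ hS.hK3 (hJK hi) (hJQ hi) hS.hgK hm hS.hgK
    have h2 := conj_inv_mem (hS.hKQ hS.hgK) h1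
    have e : g⁻¹ * (g * (i * g * i⁻¹)) * g = i * g * i⁻¹ * g := by group
    rwa [e] at h2

/-- The computation in the quotient. -/
theorem sq_of_inv {B : Type*} [Group B] {a g x b : B} (h1 : g * b = b * g) (h2 : g * x = x * g)
    (h3 : a * x = x * a) (h4 : a * g * a⁻¹ = g⁻¹) (h7 : x * b = b * x)
    (h8 : (b * a) * (x * g) * (b * a)⁻¹ * (x * g) = 1) : x * x = 1 := by
  have hgb : g⁻¹ * b = b * g⁻¹ := (Commute.inv_left h1).eq
  have hgx : g⁻¹ * x = x * g⁻¹ := (Commute.inv_left h2).eq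
  have e1 : (b * a) * (x * g) * (b * a)⁻¹ = x * g⁻¹ := by
    calc (b * a) * (x * g) * (b * a)⁻¹ = b * (a * x * a⁻¹) * (a * g * a⁻¹) * b⁻¹ := by group
      _ = b * x * g⁻¹ * b⁻¹ := by
        have h3' : a * x * a⁻¹ = x := by rw [h3]; group
        rw [h4, h3']
      _ = x * (g⁻¹ * b) * b⁻¹ := by rw [← h7, hgb]; group
      _ = x * g⁻¹ := by group
  rw [e1] at h8
  calc x * x = x * x * g⁻¹ * g := by group
    _ = x * (g⁻¹ * x) * g := by rw [hgx]; group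
    _ = x * g⁻¹ * (x * g) := by group
    _ = 1 := h8

/-- The last step: an element of `K ⊔ R`. -/
theorem conj_mem_of_sup {R Q : Subgroup G} (hK : IsJComponent T K) (hR : IsPGroup 2 R)
    (hRK : R ≤ normalizer (K : Set G)) (hQ : Q = pCoreOf 2 K) (hQR : Q ≤ R) {n g k : G}
    (hn : n ∈ normalizer (R : Set G)) (hg : g ∈ K) (hgQ : g ∉ Q) (hd : n * g * n⁻¹ ∈ K ⊔ R)
    (hk : k ∈ K) : n * k * n⁻¹ ∈ K := by
  subst hQ
  have hgen : ∀ x ∈ K, n * x * n⁻¹ ∈ K ⊔ R := by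
    intro x hx
    by_cases hxQ : x ∈ pCoreOf 2 K
    · exact Subgroup.mem_sup_right (conj_mem hn (hQR hxQ))
    · have hqR : ∀ {q : G}, q ∈ pCoreOf 2 K → n * q * n⁻¹ ∈ K ⊔ R := fun hq =>
        Subgroup.mem_sup_right (conj_mem hn (hQR hq))
      rcases index3_cases (pCoreOf_le K) (le_normalizer_pCoreOf K) hK.2.2.1 hg hx hgQ hxQ with h | h
      · have e : n * x * n⁻¹ = (n * g * n⁻¹) * (n * (g⁻¹ * x) * n⁻¹) := by group
        rw [e]
        exact Subgroup.mul_mem _ hd (hqR h)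
      · have e : n * x * n⁻¹ = (n * g * n⁻¹)⁻¹ * (n * (g * x) * n⁻¹) := by group
        rw [e]
        exact Subgroup.mul_mem _ (Subgroup.inv_mem _ hd) (hqR h)
  have hfinal : K ≤ K.comap (MulAut.conj n).toMonoidHom := by
    conv_lhs => rw [← hK.1]
    rw [closure_le]
    rintro x ⟨hx, hodd⟩
    have h1 : Odd (orderOf (n * x * n⁻¹)) := by
      have := MulEquiv.orderOf_eq (MulAut.conj n) x
      rw [MulAut.conj_apply] at this
      rwa [this]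
    exact odd_mem hR hRK (hgen x hx) h1
  exact hfinal hk

/-- The key step: the centralizer of `W` in `L` normalizes `K`. -/
theorem cent_mem_K (hZ : ∀ S : Sylow 2 G, centralizer (omegaCenterOf (S : Subgroup G) : Set G) ≤
      normalizer ((S : Subgroup G) : Set G))
    (hsolv : Group.IsSolvable L) (hT : IsPGroup 2 T) (hTL : IsSylowTwoIn T L)
    (hRc : centralizer (pCoreOf 2 L : Set G) ≤ pCoreOf 2 L) (hK : IsJComponent T K) (hKL : K ≤ L)
    (hRK : pCoreOf 2 L ≤ normalizer (K : Set G))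
    {y : G} (hy : y ∈ omegaCenterOf T) (hyW : y ∈ wOf K) (hy1 : y ≠ 1) {n : G} (hnL : n ∈ L)
    (hnW : ∀ w ∈ wOf K, n * w = w * n) {k : G} (hk : k ∈ K) : n * k * n⁻¹ ∈ K := by
  obtain ⟨C, E, V, j, hj, hCE, hEL, hLC, hLE, hRC, hCZ, hKey, h2R, hTC, hKE, hQR, hcube, hKC, hinv,
    hE3, hLV, hCV, hVC, hKey2⟩ := exists_facts hZ hsolv hT hTL hRc hK hKL
  obtain ⟨S, g, -, -, -, hS⟩ := exists_setup hT hK
  set R := pCoreOf 2 L with hR
  set J := thompsonSubgroupOf 2 T with hJ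
  set Q := pCoreOf 2 K with hQ
  set W := wOf K with hW
  have hLR : L ≤ normalizer (R : Set G) := le_normalizer_pCoreOf L
  have hJT : J ≤ T := Cfsg.Agent.Lib.Core.ThompsonMap.thompsonSubgroupOf_le T
  have hJK : J ≤ normalizer (K : Set G) := by
    have := Cfsg.Agent.Lib.LocalEven.CharP.le_normalizer_commutator J K
    rwa [Subgroup.commutator_comm, hK.2.1] at this
  have hJQ : J ≤ normalizer (Q : Set G) :=
    hJK.trans Cfsg.Agent.Lib.LocalEven.JComp.normalizer_le_pCoreOf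
  have hQC : Q ≤ C := hQR.trans hRC
  have hdK : g ∈ K := hS.hgK
  have hdL : g ∈ L := hKL hdK
  have hdQ : g ∉ Q := hS.hgQ
  have hdC : g ∉ C := by
    intro hc
    have h1 := hCZ g hc y hy
    exact hS.not_fix hyW hy1 (by rw [h1]; group)
  have hrel := rel_of_setup hS (hcube g hdK) hyW
  have hdich := dich_of_setup hS hJK hJQ
  have hd2 : ∀ {x : G}, x ∈ K → x * x ∈ C → x ∈ C := by
    intro x hx h
    have h1 := hQC (hcube x hx)
    have e : x = x ^ 3 * (x * x)⁻¹ := by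
      rw [pow_succ, pow_two]
      group
    rw [e]
    exact C.mul_mem h1 (C.inv_mem h)
  have hjd : g * (j * g * j⁻¹) ∈ Q := hinv g hdK
  have hii : j * g * j⁻¹ * g⁻¹ ∉ C := by
    intro hc
    apply hdC
    apply hd2 hdK
    have h1 := conj_mem (hLC (hEL (hKE hdK))) hc
    have h2 := hQC hjd
    have e : g * g = (g * (j * g * j⁻¹ * g⁻¹) * g⁻¹)⁻¹ * (g * (j * g * j⁻¹)) := by
      rw [← pow_two]
      group
    rw [e]
    exact C.mul_mem (C.inv_mem h1) h2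
  obtain ⟨a, haJ, haC, haV⟩ := hKey2 y hy hy1 g (hKE hdK) hrel ⟨j, hj, hii⟩
    (fun i hi => (hdich i hi).imp (fun h => hQC h) (fun h => hQC h))
  have haL : a ∈ L := hTL.1 (hJT haJ)
  have hagQ : a * g * a⁻¹ * g ∈ Q := by
    rcases hdich a haJ with h | h
    · exfalso
      apply hdC
      apply hd2 hdK
      have e : (a * g * a⁻¹ * g⁻¹)⁻¹ * (a * g * a⁻¹ * g) = g * g := by
        rw [mul_inv_rev, inv_inv, mul_assoc, inv_mul_cancel_left]
      rw [← e]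
      exact C.mul_mem (C.inv_mem (hQC h)) haC
    · exact h
  -- action on `V`
  have hc : ∀ c ∈ C, ∀ v ∈ V, c * v * c⁻¹ = v := fun c hc v hv => by
    rw [hCV c hc v hv]
    group
  have hVn : ∀ {x : G}, x ∈ L → ∀ {v : G}, v ∈ V → x * v * x⁻¹ ∈ V := fun hx _ hv =>
    conj_mem (hLV hx) hv
  have hVi : ∀ {x : G}, x ∈ L → ∀ {v : G}, v ∈ V → x⁻¹ * v * x ∈ V := fun hx _ hv =>
    conj_inv_mem (hLV hx) hv
  have hWg : ∀ {w : G}, w ∈ W → g * w * g⁻¹ ∈ W := fun hw => conj_mem (hS.hKW hdK) hw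
  have hWe : ∀ {e : G}, (e = 1 ∨ e = y) → e ∈ W := by
    rintro e (rfl | rfl)
    · exact W.one_mem
    · exact hyW
  have hyy : y * y = 1 := hK.2.2.2.2.2 y hyW
  -- `[V, g] ≤ W`
  have hV1 : ∀ v ∈ V, (g⁻¹ * v * g) * (g * v * g⁻¹)⁻¹ ∈ W := by
    intro v hv
    have hv₁V : a⁻¹ * v * a ∈ V := hVi haL hv
    have huV : g * (a⁻¹ * v * a) * g⁻¹ ∈ V := hVn hdL hv₁V
    have h1 : a * (g * (a⁻¹ * v * a) * g⁻¹) * a⁻¹ = g⁻¹ * v * g := by
      have h2 := hc _ haC (g⁻¹ * v * g) (hVi hdL hv)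
      conv_rhs => rw [← h2]
      group
    have he := hWe (haV _ huV)
    have he₁ := hWe (haV _ hv₁V)
    have h3 := W.mul_mem he (hWg (W.inv_mem he₁))
    rw [h1] at h3
    have e : (g⁻¹ * v * g) * (g * v * g⁻¹)⁻¹ =
        g⁻¹ * v * g * (g * (a⁻¹ * v * a) * g⁻¹)⁻¹ *
          (g * (a * (a⁻¹ * v * a) * a⁻¹ * (a⁻¹ * v * a)⁻¹)⁻¹ * g⁻¹) := by
      group
    rw [e]
    exact h3
  have hg3 : ∀ v ∈ V, (g * g) * v * (g * g)⁻¹ = g⁻¹ * v * g := by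
    intro v hv
    have h1 := hc _ (hE3 g (hKE hdK)) (g⁻¹ * v * g) (hVi hdL hv)
    conv_rhs => rw [← h1]
    rw [pow_succ, pow_two]
    group
  have hV2' : ∀ v ∈ V, v * (g⁻¹ * v * g)⁻¹ ∈ W := by
    intro v hv
    have h1 := hV1 (g * v * g⁻¹) (hVn hdL hv)
    rw [← hg3 v hv]
    have e : v * ((g * g) * v * (g * g)⁻¹)⁻¹ =
        (g⁻¹ * (g * v * g⁻¹) * g) * (g * (g * v * g⁻¹) * g⁻¹)⁻¹ := by group
    rw [e]
    exact h1
  have hV3 : ∀ v ∈ V, (g⁻¹ * v * g) * v⁻¹ ∈ W := by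
    intro v hv
    have := W.inv_mem (hV2' v hv)
    have e : (v * (g⁻¹ * v * g)⁻¹)⁻¹ = (g⁻¹ * v * g) * v⁻¹ := by group
    rwa [e] at this
  have hV2 : ∀ v ∈ V, g * v * g⁻¹ * v⁻¹ ∈ W := by
    intro v hv
    have := hV2' (g * v * g⁻¹) (hVn hdL hv)
    have e : (g * v * g⁻¹) * (g⁻¹ * (g * v * g⁻¹) * g)⁻¹ = g * v * g⁻¹ * v⁻¹ := by group
    rwa [e] at this
  -- `n` on `W`
  have hnW1 : ∀ w ∈ W, n * w * n⁻¹ = w := fun w hw => by
    rw [hnW w hw]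
    group
  have hnW2 : ∀ w ∈ W, n⁻¹ * w * n = w := fun w hw => by
    have := hnW1 w hw
    calc n⁻¹ * w * n = n⁻¹ * (n * w * n⁻¹) * n := by rw [this]
      _ = w := by group
  -- the element `x = d' * g⁻¹`
  have hxE : n * g * n⁻¹ * g⁻¹ ∈ E :=
    E.mul_mem (conj_mem (hLE hnL) (hKE hdK)) (E.inv_mem (hKE hdK))
  have hxL : n * g * n⁻¹ * g⁻¹ ∈ L := hEL hxE
  have hxW : ∀ w ∈ W, (n * g * n⁻¹ * g⁻¹) * w * (n * g * n⁻¹ * g⁻¹)⁻¹ = w := by
    intro w hw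
    have h1 := hnW2 (g⁻¹ * w * g) (conj_inv_mem (hS.hKW hdK) hw)
    calc (n * g * n⁻¹ * g⁻¹) * w * (n * g * n⁻¹ * g⁻¹)⁻¹
        = n * g * (n⁻¹ * (g⁻¹ * w * g) * n) * g⁻¹ * n⁻¹ := by group
      _ = n * g * (g⁻¹ * w * g) * g⁻¹ * n⁻¹ := by rw [h1]
      _ = n * w * n⁻¹ := by group
      _ = w := hnW1 w hw
  have hxV : ∀ v ∈ V, (n * g * n⁻¹ * g⁻¹) * v * (n * g * n⁻¹ * g⁻¹)⁻¹ * v⁻¹ ∈ W := by
    intro v hv
    have hu : g⁻¹ * v * g ∈ V := hVi hdL hv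
    have hu₂ : n⁻¹ * (g⁻¹ * v * g) * n ∈ V := hVi hnL hu
    have h1 := hV2 _ hu₂
    have h2 := hV3 v hv
    have h3 : n * (g * (n⁻¹ * (g⁻¹ * v * g) * n) * g⁻¹ * (n⁻¹ * (g⁻¹ * v * g) * n)⁻¹) * n⁻¹ ∈ W := by
      rw [hnW1 _ h1]
      exact h1
    have h4 := W.mul_mem h3 h2
    have e : (n * g * n⁻¹ * g⁻¹) * v * (n * g * n⁻¹ * g⁻¹)⁻¹ * v⁻¹ =
        n * (g * (n⁻¹ * (g⁻¹ * v * g) * n) * g⁻¹ * (n⁻¹ * (g⁻¹ * v * g) * n)⁻¹) * n⁻¹ *
          ((g⁻¹ * v * g) * v⁻¹) := by group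
    rw [e]
    exact h4
  have hxC : n * g * n⁻¹ * g⁻¹ ∈ C := by
    refine hVC _ hxL fun v hv => ?_
    set x := n * g * n⁻¹ * g⁻¹ with hx
    have h1 := hxV v hv
    set w := x * v * x⁻¹ * v⁻¹ with hw
    have h2 : x * v * x⁻¹ = w * v := by rw [hw]; group
    have h3 := hxW w h1
    have h4 : w * w = 1 := hK.2.2.2.2.2 w h1
    have h5 : (x * x) * v * (x * x)⁻¹ = v := by
      calc (x * x) * v * (x * x)⁻¹ = x * (x * v * x⁻¹) * x⁻¹ := by group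
        _ = x * (w * v) * x⁻¹ := by rw [h2]
        _ = (x * w * x⁻¹) * (x * v * x⁻¹) := by group
        _ = w * (w * v) := by rw [h3, h2]
        _ = (w * w) * v := by group
        _ = v := by rw [h4, one_mul]
    have h6 : x * v * x⁻¹ = v := by
      have h7 := hc _ (hE3 x hxE) v hv
      rw [pow_succ, pow_two] at h7
      calc x * v * x⁻¹ = x * ((x * x) * v * (x * x)⁻¹) * x⁻¹ := by rw [h5]
        _ = (x * x * x) * v * (x * x * x)⁻¹ := by group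
        _ = v := h7
    calc x * v = x * v * x⁻¹ * x := by group
      _ = v * x := by rw [h6]
  -- the conjugate of the transvection
  have hny : n * y * n⁻¹ = y := hnW1 y hyW
  have ha'L : n * a * n⁻¹ ∈ L := L.mul_mem (L.mul_mem hnL haL) (L.inv_mem hnL)
  have ha'V : ∀ v ∈ V, (n * a * n⁻¹) * v * (n * a * n⁻¹)⁻¹ * v⁻¹ = 1 ∨
      (n * a * n⁻¹) * v * (n * a * n⁻¹)⁻¹ * v⁻¹ = y := by
    intro v hv
    have e : (n * a * n⁻¹) * v * (n * a * n⁻¹)⁻¹ * v⁻¹ =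
        n * (a * (n⁻¹ * v * n) * a⁻¹ * (n⁻¹ * v * n)⁻¹) * n⁻¹ := by group
    rw [e]
    rcases haV _ (hVi hnL hv) with h | h
    · left
      rw [h]
      group
    · right
      rw [h, hny]
  -- the element `b`
  have hbL : (n * a * n⁻¹) * a⁻¹ ∈ L := L.mul_mem ha'L (L.inv_mem haL)
  have hbV : ∀ v ∈ V, ((n * a * n⁻¹) * a⁻¹) * v * ((n * a * n⁻¹) * a⁻¹)⁻¹ * v⁻¹ = 1 ∨
      ((n * a * n⁻¹) * a⁻¹) * v * ((n * a * n⁻¹) * a⁻¹)⁻¹ * v⁻¹ = y := by
    intro v hv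
    have hv₁ : a⁻¹ * v * a ∈ V := hVi haL hv
    have e : ((n * a * n⁻¹) * a⁻¹) * v * ((n * a * n⁻¹) * a⁻¹)⁻¹ * v⁻¹ =
        ((n * a * n⁻¹) * (a⁻¹ * v * a) * (n * a * n⁻¹)⁻¹ * (a⁻¹ * v * a)⁻¹) *
          (a * (a⁻¹ * v * a) * a⁻¹ * (a⁻¹ * v * a)⁻¹)⁻¹ := by group
    rw [e]
    have hyi : y⁻¹ = y := inv_eq_of_mul_eq_one_left hyy
    rcases ha'V _ hv₁ with h | h <;> rcases haV _ hv₁ with h' | h'
    · left
      rw [h, h']
      group
    · right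
      rw [h, h', one_mul, hyi]
    · right
      rw [h, h']
      group
    · left
      rw [h, h']
      group
  have hm : (n * a * n⁻¹) * g * (n * a * n⁻¹)⁻¹ * g ∈ C := by
    have h6 := conj_mem (hLC hnL) haC
    have hx' := conj_mem (hLC ha'L) hxC
    have hm' : (n * a * n⁻¹) * g * (n * a * n⁻¹)⁻¹ ∈ L :=
      L.mul_mem (L.mul_mem ha'L hdL) (L.inv_mem ha'L)
    have hx'' := conj_mem (hLC hm') hxC
    have e : (n * a * n⁻¹) * g * (n * a * n⁻¹)⁻¹ * g =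
        (((n * a * n⁻¹) * g * (n * a * n⁻¹)⁻¹) * (n * g * n⁻¹ * g⁻¹) *
          ((n * a * n⁻¹) * g * (n * a * n⁻¹)⁻¹)⁻¹)⁻¹ *
        ((n * a * n⁻¹) * (n * g * n⁻¹ * g⁻¹) * (n * a * n⁻¹)⁻¹)⁻¹ *
        (n * (a * g * a⁻¹ * g) * n⁻¹) := by group
    rw [e]
    exact C.mul_mem (C.mul_mem (C.inv_mem hx'') (C.inv_mem hx')) h6
  have hbg : g * ((n * a * n⁻¹) * a⁻¹) * g⁻¹ * ((n * a * n⁻¹) * a⁻¹)⁻¹ ∈ C := by
    have h1 := conj_inv_mem (hLC haL) haC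
    have h2 := conj_mem (hLC ha'L) (C.inv_mem h1)
    have h3 := conj_mem (hLC hdL) (C.mul_mem h2 hm)
    have e : g * ((n * a * n⁻¹) * a⁻¹) * g⁻¹ * ((n * a * n⁻¹) * a⁻¹)⁻¹ =
        g * ((n * a * n⁻¹) * (a⁻¹ * (a * g * a⁻¹ * g) * a)⁻¹ * (n * a * n⁻¹)⁻¹ *
          ((n * a * n⁻¹) * g * (n * a * n⁻¹)⁻¹ * g)) * g⁻¹ := by group
    rw [e]
    exact h3
  have hbC : (n * a * n⁻¹) * a⁻¹ ∈ C := by
    refine hVC _ hbL fun v hv => ?_
    set b := (n * a * n⁻¹) * a⁻¹ with hb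
    have hu : g⁻¹ * v * g ∈ V := hVi hdL hv
    have hbv : b * v * b⁻¹ ∈ V := hVn hbL hv
    have h1 := hc _ hbg _ hbv
    have key : b * v * b⁻¹ * v⁻¹ = g * (b * (g⁻¹ * v * g) * b⁻¹ * (g⁻¹ * v * g)⁻¹) * g⁻¹ := by
      have e : g * (b * (g⁻¹ * v * g) * b⁻¹ * (g⁻¹ * v * g)⁻¹) * g⁻¹ =
          (g * b * g⁻¹ * b⁻¹) * (b * v * b⁻¹) * (g * b * g⁻¹ * b⁻¹)⁻¹ * v⁻¹ := by group
      rw [e, h1]
    have h2 : b * v * b⁻¹ * v⁻¹ = 1 := by
      rcases hbV _ hu with h | h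
      · rw [key, h]
        group
      · rw [key, h]
        rcases hbV v hv with h' | h'
        · rw [key, h] at h'
          exact absurd (by
            have : g * y * g⁻¹ = 1 := h'
            calc y = g⁻¹ * (g * y * g⁻¹) * g := by group
              _ = 1 := by rw [this]; group) hy1
        · rw [key, h] at h'
          exact absurd h' (hS.not_fix hyW hy1)
    calc b * v = (b * v * b⁻¹ * v⁻¹) * (v * b) := by group
      _ = v * b := by rw [h2, one_mul]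
  -- modulo `R`
  have hxR : n * g * n⁻¹ * g⁻¹ ∈ R := by
    refine mem_of_sq_mem h2R hxC ?_
    haveI hRn : (R.subgroupOf L).Normal := Subgroup.normal_subgroupOf_of_le_normalizer hLR
    let π : L →* L ⧸ R.subgroupOf L := QuotientGroup.mk' _
    have hπ : ∀ x : L, π x = 1 ↔ (x : G) ∈ R := by
      intro x
      rw [← MonoidHom.mem_ker, QuotientGroup.ker_mk', Subgroup.mem_subgroupOf]
    have hcomm : ∀ u v : L, (u : G) * v * (u : G)⁻¹ * (v : G)⁻¹ ∈ R → π u * π v = π v * π u := by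
      intro u v h
      have h1 : π (u * v * u⁻¹ * v⁻¹) = 1 := (hπ _).mpr h
      rw [map_mul, map_mul, map_mul, map_inv, map_inv] at h1
      exact mul_inv_eq_iff_eq_mul.mp (mul_inv_eq_one.mp h1)
    let a₀ : L := ⟨a, haL⟩
    let g₀ : L := ⟨g, hdL⟩
    let n₀ : L := ⟨n, hnL⟩
    let x₀ : L := n₀ * g₀ * n₀⁻¹ * g₀⁻¹
    let b₀ : L := (n₀ * a₀ * n₀⁻¹) * a₀⁻¹
    have hx₀ : (x₀ : G) = n * g * n⁻¹ * g⁻¹ := rfl
    have hb₀ : (b₀ : G) = (n * a * n⁻¹) * a⁻¹ := rfl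
    have F1 : π g₀ * π b₀ = π b₀ * π g₀ := hcomm _ _ (hKC g hdK _ hbC)
    have F2 : π g₀ * π x₀ = π x₀ * π g₀ := hcomm _ _ (hKC g hdK _ hxC)
    have F3 : π a₀ * π x₀ = π x₀ * π a₀ := (hcomm _ _ (hTC _ hxC a (hJT haJ))).symm
    have F4 : π a₀ * π g₀ * (π a₀)⁻¹ = (π g₀)⁻¹ := by
      have h2 : π (a₀ * g₀ * a₀⁻¹ * g₀) = 1 := (hπ _).mpr (hQR hagQ)
      rw [map_mul, map_mul, map_mul, map_inv] at h2
      exact eq_inv_of_mul_eq_one_left h2
    have F5 : π (n₀ * g₀ * n₀⁻¹) * π b₀ = π b₀ * π (n₀ * g₀ * n₀⁻¹) := by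
      refine hcomm _ _ ?_
      have hb₁ : n⁻¹ * ((n * a * n⁻¹) * a⁻¹) * n ∈ C := conj_inv_mem (hLC hnL) hbC
      have h1 := conj_mem (hLR hnL) (hKC g hdK _ hb₁)
      have e : ((n₀ * g₀ * n₀⁻¹ : L) : G) * (b₀ : G) * ((n₀ * g₀ * n₀⁻¹ : L) : G)⁻¹ * (b₀ : G)⁻¹ =
          n * (g * (n⁻¹ * ((n * a * n⁻¹) * a⁻¹) * n) * g⁻¹ *
            (n⁻¹ * ((n * a * n⁻¹) * a⁻¹) * n)⁻¹) * n⁻¹ := by
        show (n * g * n⁻¹) * ((n * a * n⁻¹) * a⁻¹) * (n * g * n⁻¹)⁻¹ * ((n * a * n⁻¹) * a⁻¹)⁻¹ = _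
        group
      rw [e]
      exact h1
    have F7 : π x₀ * π b₀ = π b₀ * π x₀ := by
      have e : π x₀ = π (n₀ * g₀ * n₀⁻¹) * (π g₀)⁻¹ := by
        show π (n₀ * g₀ * n₀⁻¹ * g₀⁻¹) = _
        rw [map_mul, map_inv]
      have h1 : (π g₀)⁻¹ * π b₀ = π b₀ * (π g₀)⁻¹ := (Commute.inv_left F1).eq
      rw [e, mul_assoc, h1, ← mul_assoc, F5, mul_assoc]
    have F8 : (π b₀ * π a₀) * (π x₀ * π g₀) * (π b₀ * π a₀)⁻¹ * (π x₀ * π g₀) = 1 := by
      have h1 : π ((b₀ * a₀) * (x₀ * g₀) * (b₀ * a₀)⁻¹ * (x₀ * g₀)) = 1 := by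
        rw [hπ]
        have h2 := conj_mem (hLR hnL) (hQR hagQ)
        have e : (((b₀ * a₀) * (x₀ * g₀) * (b₀ * a₀)⁻¹ * (x₀ * g₀) : L) : G) =
            n * (a * g * a⁻¹ * g) * n⁻¹ := by
          show (((n * a * n⁻¹) * a⁻¹) * a) * ((n * g * n⁻¹ * g⁻¹) * g) *
            (((n * a * n⁻¹) * a⁻¹) * a)⁻¹ * ((n * g * n⁻¹ * g⁻¹) * g) = _
          group
        rw [e]
        exact h2
      simpa only [map_mul, map_inv] using h1
    have F9 := sq_of_inv F1 F2 F3 F4 F7 F8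
    have h10 : π (x₀ * x₀) = 1 := by
      rw [map_mul]
      exact F9
    exact (hπ _).mp h10
  -- conclusion
  have hd' : n * g * n⁻¹ ∈ K ⊔ R := by
    have e : n * g * n⁻¹ = (n * g * n⁻¹ * g⁻¹) * g := by group
    rw [e]
    exact Subgroup.mul_mem _ (Subgroup.mem_sup_right hxR) (Subgroup.mem_sup_left hdK)
  exact conj_mem_of_sup hK (isPGroup_pCoreOf L) hRK rfl hQR (hLR hnL) hdK hdQ hd' hk

/-- `N_L(W)` normalizes `K`. -/
theorem mem_norm_K (hZ : ∀ S : Sylow 2 G, centralizer (omegaCenterOf (S : Subgroup G) : Set G) ≤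
      normalizer ((S : Subgroup G) : Set G))
    (hsolv : Group.IsSolvable L) (hT : IsPGroup 2 T) (hTL : IsSylowTwoIn T L)
    (hRc : centralizer (pCoreOf 2 L : Set G) ≤ pCoreOf 2 L) (hK : IsJComponent T K) (hKL : K ≤ L)
    (hRK : pCoreOf 2 L ≤ normalizer (K : Set G))
    {y : G} (hy : y ∈ omegaCenterOf T) (hyW : y ∈ wOf K) (hy1 : y ≠ 1) {n : G} (hnL : n ∈ L)
    (hnW : n ∈ normalizer (wOf K : Set G)) : n ∈ normalizer (K : Set G) := by
  obtain ⟨C, E, V, j, hj, hCE, hEL, hLC, hLE, hRC, hCZ, hKey, h2R, hTC, hKE, hQR, hcube, hKC, hinv,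
    -⟩ := exists_facts hZ hsolv hT hTL hRc hK hKL
  obtain ⟨S, g, -, -, -, hS⟩ := exists_setup hT hK
  set Q := pCoreOf 2 K with hQ
  set W := wOf K with hW
  set J := thompsonSubgroupOf 2 T with hJ
  have hJT : J ≤ T := Cfsg.Agent.Lib.Core.ThompsonMap.thompsonSubgroupOf_le T
  have hJK : J ≤ normalizer (K : Set G) := by
    have := Cfsg.Agent.Lib.LocalEven.CharP.le_normalizer_commutator J K
    rwa [Subgroup.commutator_comm, hK.2.1] at this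
  have hcent : ∀ {x : G}, x ∈ L → (∀ w ∈ W, x * w = w * x) → x ∈ normalizer (K : Set G) := by
    intro x hx hxW
    refine nrm_of_conj (fun k hk => cent_mem_K hZ hsolv hT hTL hRc hK hKL hRK hy hyW hy1 hx hxW hk)
      (fun k hk => ?_)
    have h1 : ∀ w ∈ W, x⁻¹ * w = w * x⁻¹ := fun w hw => by
      have := (Commute.inv_left (hxW w hw : Commute x w)).eq
      exact this
    have := cent_mem_K hZ hsolv hT hTL hRc hK hKL hRK hy hyW hy1 (L.inv_mem hx) h1 hk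
    simpa using this
  have hdK : g ∈ K := hS.hgK
  have hWg : ∀ {w : G}, w ∈ W → g * w * g⁻¹ ∈ W := fun hw => conj_mem (hS.hKW hdK) hw
  have hrel := rel_of_setup hS (hcube g hdK) hyW
  have hyy : y * y = 1 := hK.2.2.2.2.2 y hyW
  have hy₁W : g * y * g⁻¹ ∈ W := hWg hyW
  have hy₁1 : g * y * g⁻¹ ≠ 1 := fun h => hy1 (by
    calc y = g⁻¹ * (g * y * g⁻¹) * g := by group
      _ = 1 := by rw [h]; group)
  have hy₁y : g * y * g⁻¹ ≠ y := hS.not_fix hyW hy1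
  have hy₁y₁ : (g * y * g⁻¹) * (g * y * g⁻¹) = 1 := hK.2.2.2.2.2 _ hy₁W
  have hcoy : y * (g * y * g⁻¹) = (g * y * g⁻¹) * y := hS.hW.comm hyW hy₁W
  -- `y₂ = y * y₁`
  have hy₂ : (g * g) * y * (g * g)⁻¹ = y * (g * y * g⁻¹) := by
    have h1 : (y * (g * y * g⁻¹)) * (y * (g * y * g⁻¹)) = 1 := hK.2.2.2.2.2 _ (W.mul_mem hyW hy₁W)
    calc (g * g) * y * (g * g)⁻¹ = ((y * (g * y * g⁻¹)) * (y * (g * y * g⁻¹))) * ((g * g) * y * (g * g)⁻¹) := by
          rw [h1, one_mul]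
      _ = (y * (g * y * g⁻¹)) * (y * (g * y * g⁻¹) * ((g * g) * y * (g * g)⁻¹)) := by group
      _ = y * (g * y * g⁻¹) := by rw [hrel, mul_one]
  -- the four elements
  have hcover : ∀ z ∈ W, z = 1 ∨ z = y ∨ z = g * y * g⁻¹ ∨ z = y * (g * y * g⁻¹) := by
    obtain ⟨u, hu, hu1, huy, hc⟩ := hS.hW.coords hyW hy1
    intro z hz
    rcases hc _ hy₁W with h | h | h | h
    · exact absurd h hy₁1
    · exact absurd h hy₁y
    · rw [← h] at hc
      exact hc z hz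
    · have hu' : u = y * (g * y * g⁻¹) := by
        rw [h, ← mul_assoc, hyy, one_mul]
      rw [hu'] at hc
      rcases hc z hz with h1 | h1 | h1 | h1
      · exact Or.inl h1
      · exact Or.inr (Or.inl h1)
      · exact Or.inr (Or.inr (Or.inr h1))
      · right; right; left
        rw [h1, ← mul_assoc, hyy, one_mul]
  have hWn : ∀ {x : G}, x ∈ normalizer (W : Set G) → ∀ {w : G}, w ∈ W → x * w * x⁻¹ ∈ W :=
    fun hx _ hw => conj_mem hx hw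
  have hne1 : ∀ (x : G) {w : G}, w ≠ 1 → x * w * x⁻¹ ≠ 1 := by
    intro x w hw h
    apply hw
    calc w = x⁻¹ * (x * w * x⁻¹) * x := by group
      _ = 1 := by rw [h]; group
  -- step (i)
  obtain ⟨r, hr, hry⟩ : ∃ r ∈ K, (r⁻¹ * n) * y * (r⁻¹ * n)⁻¹ = y := by
    rcases hcover _ (hWn hnW hyW) with h | h | h | h
    · exact absurd h (hne1 n hy1)
    · exact ⟨1, K.one_mem, by simpa using h⟩
    · refine ⟨g, hdK, ?_⟩
      calc (g⁻¹ * n) * y * (g⁻¹ * n)⁻¹ = g⁻¹ * (n * y * n⁻¹) * g := by group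
        _ = y := by rw [h]; group
    · refine ⟨g * g, K.mul_mem hdK hdK, ?_⟩
      rw [← hy₂] at h
      calc ((g * g)⁻¹ * n) * y * ((g * g)⁻¹ * n)⁻¹ = (g * g)⁻¹ * (n * y * n⁻¹) * (g * g) := by
            simp only [mul_inv_rev, inv_inv, mul_assoc]
        _ = y := by rw [h]; group
  have hrL : r ∈ L := hKL hr
  set n₁ := r⁻¹ * n with hn₁
  have hn₁L : n₁ ∈ L := L.mul_mem (L.inv_mem hrL) hnL
  have hn₁W : n₁ ∈ normalizer (W : Set G) :=
    Subgroup.mul_mem _ (Subgroup.inv_mem _ (hS.hKW hr)) hnW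
  have hn_eq : n = r * n₁ := by rw [hn₁]; group
  rw [hn_eq]
  refine Subgroup.mul_mem _ (Subgroup.le_normalizer hr) ?_
  -- step (ii)
  have hmulfix : ∀ {x : G}, x * y * x⁻¹ = y → x * (g * y * g⁻¹) * x⁻¹ = g * y * g⁻¹ →
      ∀ w ∈ W, x * w = w * x := by
    intro x h1 h2 w hw
    have h3 : x * y = y * x := by
      calc x * y = x * y * x⁻¹ * x := by group
        _ = y * x := by rw [h1]
    have h4 : x * (g * y * g⁻¹) = (g * y * g⁻¹) * x := by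
      calc x * (g * y * g⁻¹) = x * (g * y * g⁻¹) * x⁻¹ * x := by group
        _ = (g * y * g⁻¹) * x := by rw [h2]
    rcases hcover w hw with rfl | rfl | rfl | rfl
    · simp
    · exact h3
    · exact h4
    · calc x * (y * (g * y * g⁻¹)) = (x * y) * (g * y * g⁻¹) := by group
        _ = y * (x * (g * y * g⁻¹)) := by rw [h3]; group
        _ = y * ((g * y * g⁻¹) * x) := by rw [h4]
        _ = y * (g * y * g⁻¹) * x := by group
  rcases hcover _ (hWn hn₁W hy₁W) with h | h | h | h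
  · exact absurd h (hne1 n₁ hy₁1)
  · exfalso
    apply hy₁y
    have : n₁ * (g * y * g⁻¹) * n₁⁻¹ = n₁ * y * n₁⁻¹ := by rw [h, hry]
    have h2 := mul_left_cancel (mul_right_cancel this)
    exact h2
  · exact hcent hn₁L (hmulfix hry h)
  · -- the element of `J`
    have hjT : j ∈ T := hJT hj
    have hjy : j * y * j⁻¹ = y := by
      have := (mem_Z₁.mp hy).2.1 j hjT
      rw [this]
      group
    have hq : g * (j * g * j⁻¹) ∈ Q := hinv g hdK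
    have hqW : ∀ {q w : G}, q ∈ Q → w ∈ W → q * w * q⁻¹ = w := by
      intro q w hq hw
      have := mem_centralizer_iff.mp (hS.hQW hq) w hw
      rw [← this]
      group
    have hgi : g⁻¹ * y * g = (g * g) * y * (g * g)⁻¹ := by
      have h1 := hqW (hcube g hdK) (conj_inv_mem (hS.hKW hdK) hyW)
      rw [← h1]
      rw [pow_succ, pow_two]
      group
    have hj₁ : j * (g * y * g⁻¹) * j⁻¹ = y * (g * y * g⁻¹) := by
      have h1 := hqW hq (conj_mem (hS.hKW hdK) hyW |> fun _ => hyW)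
      calc j * (g * y * g⁻¹) * j⁻¹ = (j * g * j⁻¹) * (j * y * j⁻¹) * (j * g * j⁻¹)⁻¹ := by group
        _ = (j * g * j⁻¹) * y * (j * g * j⁻¹)⁻¹ := by rw [hjy]
        _ = g⁻¹ * ((g * (j * g * j⁻¹)) * y * (g * (j * g * j⁻¹))⁻¹) * g := by group
        _ = g⁻¹ * y * g := by rw [h1]
        _ = y * (g * y * g⁻¹) := by rw [hgi, hy₂]
    have hj₂ : j * (y * (g * y * g⁻¹)) * j⁻¹ = g * y * g⁻¹ := by
      calc j * (y * (g * y * g⁻¹)) * j⁻¹ = (j * y * j⁻¹) * (j * (g * y * g⁻¹) * j⁻¹) := by group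
        _ = y * (y * (g * y * g⁻¹)) := by rw [hjy, hj₁]
        _ = g * y * g⁻¹ := by rw [← mul_assoc, hyy, one_mul]
    have hn₂ : n₁ = j⁻¹ * (j * n₁) := by group
    rw [hn₂]
    refine Subgroup.mul_mem _ (Subgroup.inv_mem _ (hJK hj)) ?_
    refine hcent (L.mul_mem (hTL.1 hjT) hn₁L) (hmulfix ?_ ?_)
    · calc (j * n₁) * y * (j * n₁)⁻¹ = j * (n₁ * y * n₁⁻¹) * j⁻¹ := by group
        _ = y := by rw [hry, hjy]
    · calc (j * n₁) * (g * y * g⁻¹) * (j * n₁)⁻¹ = j * (n₁ * (g * y * g⁻¹) * n₁⁻¹) * j⁻¹ := by group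
        _ = g * y * g⁻¹ := by rw [h, hj₂]

/-- The hypotheses of the key theorem, from the group-theoretic hypotheses. -/
theorem le_normalizer_of_inf (hL : IsCharacteristicTwoType G)
    (hN : ∀ N : Subgroup G, IsTwoLocal N → Group.IsSolvable ↥N)
    (hZ : ∀ S : Sylow 2 G, centralizer (omegaCenterOf (S : Subgroup G) : Set G) ≤
      normalizer ((S : Subgroup G) : Set G)) (hT : IsPGroup 2 T) (hT1 : T ≠ ⊥)
    (hLT : L ∈ jOvergroups T) (hK : IsJComponent T K) (hKL : K ≤ L)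
    (hZW : T ⊓ centralizer (T : Set G) ⊓ wOf K ≠ ⊥) : L ⊓ normalizer (wOf K : Set G) ≤ normalizer (K : Set G) := by
  obtain ⟨hTL, -, hRc⟩ := hLT
  have hs := isSylowIn_of_two hTL
  have hLR : L ≤ normalizer (pCoreOf 2 L : Set G) := le_normalizer_pCoreOf L
  have hRT : pCoreOf 2 L ≤ T := le_of_normal_of_isSylowIn hs (pCoreOf_le L) (isPGroup_pCoreOf L) hLR
  have hne := pCoreOf_ne_bot hT1 hTL.1 hRc hRT
  have hsolvN := hN _ ⟨pCoreOf 2 L, isPGroup_pCoreOf L, hne, rfl⟩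
  have hsolv : Group.IsSolvable L :=
    Group.isSolvable_of_isSolvable_injective (f := Subgroup.inclusion hLR)
      (Subgroup.inclusion_injective hLR)
  have hJT : thompsonSubgroupOf 2 T ≤ T := Cfsg.Agent.Lib.Core.ThompsonMap.thompsonSubgroupOf_le T
  have hRK : pCoreOf 2 L ≤ normalizer (K : Set G) :=
    Cfsg.Agent.S2941.result hL hN hZ T hT hT1 K hK (pCoreOf 2 L)
      (sup_le (hKL.trans hLR) (hJT.trans (hTL.1.trans hLR)))
      (hRT.trans (le_normalizer_thompson T))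
  obtain ⟨y, hy, hy1⟩ := (Subgroup.bot_or_exists_ne_one _).resolve_left hZW
  obtain ⟨⟨hyT, hyC⟩, hyW⟩ := hy
  have hyZ : y ∈ omegaCenterOf T := by
    refine mem_Z₁.mpr ⟨hyT, fun r hr => mem_centralizer_iff.mp hyC r hr, ?_⟩
    rw [pow_two]
    exact hK.2.2.2.2.2 y hyW
  rintro n ⟨hnL, hnW⟩
  exact mem_norm_K hZ hsolv hT hTL hRc hK hKL hRK hyZ hyW hy1 hnL hnW

end Cfsg.Agent.Lib.JSub.NormW
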