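import Cfsg.Agent.Lib.JSub.Uni

/-!
# The structure of `Ω₁(Z(J(T)))`
-/

set_option autoImplicit false
set_option linter.unusedSectionVars false
set_option linter.unusedSimpArgs false
set_option linter.style.haveILetI false

open scoped commutatorElement

namespace Cfsg.Agent.Lib.JSub.Tri

open Cfsg Subgroup
open Cfsg.Agent.Lib.JSub.Main
open Cfsg.Agent.Lib.JSub.Zero
open Cfsg.Agent.Lib.JSub.Exist
open Cfsg.Agent.Lib.JSub.Strad
open Cfsg.Agent.Lib.JSub.Unique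
open Cfsg.Agent.Lib.JSub.Split
open Cfsg.Agent.Lib.JSub.Fam
open Cfsg.Agent.Lib.PointStab.Step (nrm_of_conj conj_mem conj_inv_mem mem_Z₁ Z₁)
open Cfsg.Agent.Lib.PLocal.Thompson (IsMaxIn jOf thompsonSubgroupOf_eq IsAbExp exists_isMaxIn)
open Cfsg.Agent.Lib.LocalStruct.PCoreOf
open Cfsg.Agent.Lib.LocalEven.JComp (Setup exists_setup K_le_normalizer_wOf normalizer_le_wOf
  index3_le index3_sq normalizer_le_omegaCenterOf normalizer_le_pCoreOf IsFour)
open Cfsg.Agent.Lib.LocalEven.Util (mem_normalizer_of_conj_le)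
open Cfsg.Agent.Lib.Coprime.Action (le_of_normal_of_isSylowIn)

variable {G : Type*} [Group G] [Finite G]

/-- The elements of `Ω₁(Z(J(T)))` centralized by `K`. -/
def FF (T K : Subgroup G) : Subgroup G := Zo T ⊓ centralizer (K : Set G)

theorem mem_FF {T K : Subgroup G} {a : G} : a ∈ FF T K ↔ a ∈ Zo T ∧ ∀ k ∈ K, k * a = a * k := by
  unfold FF
  rw [Subgroup.mem_inf, mem_centralizer_iff]
  rfl

/-- `Ω₁(Z(S))` is nontrivial. -/
theorem omega_ne {S : Subgroup G} (hS : IsPGroup 2 S) (hne : S ≠ ⊥) : ∃ a ∈ omegaCenterOf S, a ≠ 1 := by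
  haveI : Fact (Nat.Prime 2) := ⟨Nat.prime_two⟩
  have hbotn : S ≤ normalizer ((⊥ : Subgroup G) : Set G) := by
    intro x _
    refine mem_normalizer_of_conj_le fun y hy => ?_
    rw [Subgroup.mem_bot] at hy ⊢
    rw [hy]
    group
  obtain ⟨v, hv, hv1, hfix⟩ := Cfsg.Agent.Lib.JSub.F4.exists_fix_above hS (bot_lt_iff_ne_bot.mpr hne) le_rfl
    hbotn Subgroup.le_normalizer
  have hv1' : v ≠ 1 := fun h => hv1 (by rw [h]; exact one_mem _)
  have hfix' : ∀ s ∈ S, s * v = v * s := by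
    intro s hs
    have h1 := hfix s hs
    rw [Subgroup.mem_bot, inv_mul_eq_one] at h1
    have h2 : s * v * s⁻¹ = v := h1.symm
    rw [mul_inv_eq_iff_eq_mul] at h2
    exact h2
  have hx : (⟨v, hv⟩ : S) ≠ 1 := fun h => hv1' (congrArg Subtype.val h)
  have h1 := Cfsg.Agent.Lib.PGroups.Basic.exists_orderOf_eq_of_ne_one hS hx
  set w := (⟨v, hv⟩ : S) ^ (orderOf (⟨v, hv⟩ : S) / 2) with hw
  have hwv : (w : G) = v ^ (orderOf (⟨v, hv⟩ : S) / 2) := by
    rw [hw]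
    simp
  have hw2 : w ^ 2 = 1 := by
    rw [← h1]
    exact pow_orderOf_eq_one w
  have hw1 : w ≠ 1 := by
    intro h
    rw [h, orderOf_one] at h1
    omega
  refine ⟨(w : G), mem_Z₁.mpr ⟨w.2, fun r hr => ?_, ?_⟩, fun h => hw1 (Subtype.ext h)⟩
  · rw [hwv]
    exact (Commute.pow_right (show Commute r v from hfix' r hr) _).eq
  · have := congrArg Subtype.val hw2
    simpa using this

/-- The set-up for one component. -/
structure One (M T L K : Subgroup G) (S : Sylow 2 G) : Prop where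
  h : Hyp M T S
  hO : Cfsg.pCore 2 G = ⊥
  hK : K ∈ jComponentsOutside M T
  hLd : L = normalizer (WW T K : Set G)

namespace One

variable {M T L K : Subgroup G} {S : Sylow 2 G} (O : One M T L K S)

include O

theorem J₁ : IsJComponent T K := O.hK.1.1

theorem M₁ : ¬ K ≤ M := O.hK.2.1

theorem isMax : IsMaximalTwoLocal L := by
  rw [O.hLd]
  exact O.h.isMax_L O.J₁ O.M₁

theorem Sy : IsSylowTwoIn T L := by
  rw [O.hLd]
  exact O.h.sylow_L O.hK

theorem Ov : L ∈ jOvergroups T := by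
  rw [O.hLd]
  exact O.h.over_L O.hK

theorem KL : K ≤ L := by
  rw [O.hLd]
  exact O.h.K_le_L O.J₁ O.M₁

theorem JL : thompsonSubgroupOf 2 T ≤ L := (thompson_le T).trans O.Sy.1

theorem RT : pCoreOf 2 L ≤ T := by
  haveI : Fact (Nat.Prime 2) := ⟨Nat.prime_two⟩
  exact le_of_normal_of_isSylowIn (isSylowIn_of_two O.Sy) (pCoreOf_le L) (isPGroup_pCoreOf L)
    (le_normalizer_pCoreOf L)

theorem Rne : pCoreOf 2 L ≠ ⊥ := pCoreOf_ne_bot O.h.hT1 O.Sy.1 O.Ov.2.2 O.RT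

theorem TK : T ≤ normalizer (K : Set G) :=
  Cfsg.Agent.Lib.JSub.Uni.le_norm_K O.h.hL O.h.hN O.h.hZ O.hO O.h.hMJ O.h.hT O.hK

theorem ZoN : T ≤ normalizer (Zo T : Set G) :=
  (le_normalizer_thompson T).trans normalizer_le_omegaCenterOf

/-- `N(⟨x⟩) ≤ L` for `x` in `FF`. -/
theorem norm_zp_le {x : G} (hx : x ∈ FF T K) (hx1 : x ≠ 1) : normalizer (zpowers x : Set G) ≤ L := by
  obtain ⟨hxZ, hc⟩ := mem_FF.mp hx
  have hloc := isTwoLocal_zp (Zo_sq hxZ) hx1
  have hKH : K ≤ normalizer (zpowers x : Set G) := fun k hk => mem_norm_zp (hc k hk)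
  have hJH : thompsonSubgroupOf 2 T ≤ normalizer (zpowers x : Set G) := fun j hj =>
    mem_norm_zp (Zo_cent hxZ hj)
  have h1 := O.h.le_norm O.J₁ O.M₁ hloc hKH hJH
  have h2 := O.h.unique_L O.J₁ O.M₁ O.isMax (sup_le O.KL O.JL)
  rwa [← h2] at h1

theorem cent_le {x c : G} (hx : x ∈ FF T K) (hx1 : x ≠ 1) (hc : c * x = x * c) : c ∈ L :=
  O.norm_zp_le hx hx1 (mem_norm_zp hc)

/-- The split with uniqueness. -/
theorem split' : ∃ z ∈ Zo T, z ∈ wOf K ∧ z ≠ 1 ∧ (∀ b ∈ Zo T, b ∈ wOf K → b = 1 ∨ b = z) ∧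
    z ∉ FF T K ∧ (∀ a ∈ Zo T, a ∈ FF T K ∨ a * z ∈ FF T K) := by
  haveI : Fact (Nat.Prime 2) := ⟨Nat.prime_two⟩
  obtain ⟨z, hz, hzW, hz1, hs⟩ := split O.h.hL O.h.hN O.h.hZ O.h.hTp O.h.hT1 O.J₁
  obtain ⟨h2, -⟩ := Cfsg.Agent.S2946.result O.h.hL O.h.hN O.h.hZ T O.h.hTp O.h.hT1 K O.J₁ _ rfl
  obtain ⟨⟨z₀, hz₀⟩, hz₀1, hzu⟩ := (Nat.card_eq_two_iff' (1 : ↥(Zo T ⊓ wOf K))).mp h2
  have hcases : ∀ b ∈ Zo T, b ∈ wOf K → b = 1 ∨ b = z₀ := by
    intro b hb hbW
    by_cases h : b = 1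
    · exact Or.inl h
    · right
      have := hzu ⟨b, hb, hbW⟩ (fun h' => h (congrArg Subtype.val h'))
      exact congrArg Subtype.val this
  have hzz : z = z₀ := (hcases z hz hzW).resolve_left hz1
  subst hzz
  refine ⟨z, hz, hzW, hz1, hcases, ?_, ?_⟩
  · intro hzF
    obtain ⟨S', d, -, -, -, hS'⟩ := exists_setup O.h.hTp O.J₁
    apply hS'.not_fix hzW hz1
    rw [(mem_FF.mp hzF).2 d hS'.hgK]
    group
  · intro a ha
    rcases hs a ha with h | h
    · exact Or.inl (mem_FF.mpr ⟨ha, h⟩)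
    · exact Or.inr (mem_FF.mpr ⟨(Zo T).mul_mem ha hz, h⟩)

/-- `T` fixes the four-group element. -/
theorem zfix {z : G} (hz : z ∈ Zo T) (hzW : z ∈ wOf K) (hz1 : z ≠ 1)
    (huniq : ∀ b ∈ Zo T, b ∈ wOf K → b = 1 ∨ b = z) {s : G} (hs : s ∈ T) : s * z * s⁻¹ = z := by
  refine (huniq _ (conj_mem (O.ZoN hs) hz) (conj_mem (normalizer_le_wOf (O.TK hs)) hzW)).resolve_left ?_
  intro h
  apply hz1
  calc z = s⁻¹ * (s * z * s⁻¹) * s := by group
    _ = 1 := by rw [h]; group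

/-- `T` acts on `FF`. -/
theorem Ffix {a s : G} (ha : a ∈ FF T K) (hs : s ∈ T) : s * a * s⁻¹ ∈ FF T K := by
  obtain ⟨haZ, hc⟩ := mem_FF.mp ha
  refine mem_FF.mpr ⟨conj_mem (O.ZoN hs) haZ, fun k hk => ?_⟩
  have h1 : s⁻¹ * k * s ∈ K := conj_inv_mem (O.TK hs) hk
  have h2 := hc _ h1
  calc k * (s * a * s⁻¹) = s * ((s⁻¹ * k * s) * a) * s⁻¹ := by group
    _ = s * (a * (s⁻¹ * k * s)) * s⁻¹ := by rw [h2]
    _ = (s * a * s⁻¹) * k := by group

/-- If a component lies outside `L`, then `FF` has order at most two. -/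
theorem sep {K' : Subgroup G} (hK' : IsJComponent T K') (hK'L : ¬ K' ≤ L) {a b : G} (ha : a ∈ FF T K)
    (hb : b ∈ FF T K) (ha1 : a ≠ 1) (hb1 : b ≠ 1) : a = b := by
  obtain ⟨z', hz', hz'W, hz'1, hs'⟩ := split O.h.hL O.h.hN O.h.hZ O.h.hTp O.h.hT1 hK'
  have hnot : ∀ {x : G}, x ∈ FF T K → x ≠ 1 → ¬ ∀ k ∈ K', k * x = x * k := by
    intro x hx hx1 hc
    exact hK'L fun k hk => O.cent_le hx hx1 (hc k hk)
  obtain ⟨haZ, -⟩ := mem_FF.mp ha
  obtain ⟨hbZ, -⟩ := mem_FF.mp hb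
  have h1 := (hs' a haZ).resolve_left (hnot ha ha1)
  have h2 := (hs' b hbZ).resolve_left (hnot hb hb1)
  have h3 := comm_mul h1 h2
  have e : (a * z') * (b * z') = a * b := by
    calc (a * z') * (b * z') = a * (z' * b) * z' := by group
      _ = a * (b * z') * z' := by rw [Zo_comm hz' hbZ]
      _ = (a * b) * (z' * z') := by group
      _ = a * b := by rw [Zo_sq hz', mul_one]
  rw [e] at h3
  have h4 : a * b = 1 := by
    by_contra hne
    exact hnot ((FF T K).mul_mem ha hb) hne h3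
  rw [mul_eq_one_iff_eq_inv, Zo_inv hbZ] at h4
  exact h4

/-- The conjugate of `K` by `g` outside `T`. -/
theorem conj_not_le {g : G} {S₂ : Subgroup G} (hS₂ : IsPGroup 2 S₂) (hTS : T ≤ S₂) (hgS : g ∈ S₂) (hgT : g ∉ T)
    (hgN : g ∈ normalizer (T : Set G)) :
    IsJComponent T (K.map (MulAut.conj g).toMonoidHom) ∧ ¬ K.map (MulAut.conj g).toMonoidHom ≤ L ∧ g ∉ L ∧
      g ∈ M ∧ g ∈ normalizer (thompsonSubgroupOf 2 T : Set G) := by
  have hgJ : g ∈ normalizer (thompsonSubgroupOf 2 T : Set G) := norm_thompson hgN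
  have hgM : g ∈ M := O.h.hJM hgJ
  have hK₃ := isJ_map O.J₁ hgJ
  have hK₃M : ¬ K.map (MulAut.conj g).toMonoidHom ≤ M := by
    intro hle
    apply O.M₁
    intro k hk
    have h1 : g * k * g⁻¹ ∈ M := hle ⟨k, hk, rfl⟩
    have e : k = g⁻¹ * (g * k * g⁻¹) * g := by group
    rw [e]
    exact M.mul_mem (M.mul_mem (M.inv_mem hgM) h1) hgM
  have hgL : g ∉ L := by
    intro hgL
    have h1 : S₂ ⊓ L = T := eq_of_sylow O.Sy (le_inf hTS O.Sy.1) inf_le_right (hS₂.to_le inf_le_left)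
    exact hgT (h1 ▸ (⟨hgS, hgL⟩ : g ∈ S₂ ⊓ L))
  refine ⟨hK₃, fun hle => hgL (mem_of_conj_le O.h hK₃ hK₃M O.isMax O.Rne O.JL hgJ hle
    (Subgroup.map_mono O.KL)), hgL, hgM, hgJ⟩

/-- Elements commuting with `S₂ ≥ T` lie in `Ω₁(Z(J(T)))`. -/
theorem omega_le {S₂ : Subgroup G} (hTS : T ≤ S₂) : omegaCenterOf S₂ ≤ Zo T := by
  intro a ha
  obtain ⟨-, hc, haa⟩ := mem_Z₁.mp ha
  have haa' : a * a = 1 := by rwa [pow_two] at haa
  have hct : ∀ s ∈ T, s * a = a * s := fun s hs => hc s (hTS hs)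
  have haR : a ∈ pCoreOf 2 L :=
    O.Ov.2.2 (mem_centralizer_iff.mpr fun r hr => hct r (O.RT hr))
  exact mem_Zo_of_comm (O.RT haR) haa' fun j hj => hct j (thompson_le T hj)

/-- `Ω₁(Z(S₂))` has order two if `S₂` properly contains `T`. -/
theorem omega_uniq {S₂ : Subgroup G} (hS₂ : IsPGroup 2 S₂) (hTS : T ≤ S₂) (hne : T ≠ S₂) {a b : G}
    (ha : a ∈ omegaCenterOf S₂) (hb : b ∈ omegaCenterOf S₂) (ha1 : a ≠ 1) (hb1 : b ≠ 1) : a = b := by
  obtain ⟨g, hgS, hgT, hgN⟩ := exists_lt_normalizer hS₂ (lt_of_le_of_ne hTS hne)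
  obtain ⟨hK₃, hK₃L, hgL, hgM, hgJ⟩ := O.conj_not_le hS₂ hTS hgS hgT hgN
  obtain ⟨z, hz, hzW, hz1, huniq, hznot, hs⟩ := O.split'
  have hnotF : ∀ {x : G}, x ∈ omegaCenterOf S₂ → x ≠ 1 → x ∉ FF T K := by
    intro x hx hx1 hxF
    obtain ⟨-, hc, -⟩ := mem_Z₁.mp hx
    have hgx : g * x = x * g := hc g hgS
    apply hK₃L
    rintro _ ⟨k, hk, rfl⟩
    refine O.cent_le hxF hx1 ?_
    have hkx := (mem_FF.mp hxF).2 k hk
    have e : ((MulAut.conj g).toMonoidHom k) = g * k * g⁻¹ := rfl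
    rw [e]
    have hgi : g⁻¹ * x = x * g⁻¹ := by
      calc g⁻¹ * x = g⁻¹ * (x * g) * g⁻¹ := by group
        _ = g⁻¹ * (g * x) * g⁻¹ := by rw [hgx]
        _ = x * g⁻¹ := by group
    calc (g * k * g⁻¹) * x = g * k * (g⁻¹ * x) := by group
      _ = g * k * (x * g⁻¹) := by rw [hgi]
      _ = g * (k * x) * g⁻¹ := by group
      _ = g * (x * k) * g⁻¹ := by rw [hkx]
      _ = (g * x) * k * g⁻¹ := by group
      _ = (x * g) * k * g⁻¹ := by rw [hgx]
      _ = x * (g * k * g⁻¹) := by group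
  have hle := O.omega_le hTS
  have h1 := (hs a (hle ha)).resolve_left (hnotF ha ha1)
  have h2 := (hs b (hle hb)).resolve_left (hnotF hb hb1)
  have h3 := (FF T K).mul_mem h1 h2
  have e : (a * z) * (b * z) = a * b := by
    calc (a * z) * (b * z) = a * (z * b) * z := by group
      _ = a * (b * z) * z := by rw [Zo_comm hz (hle hb)]
      _ = (a * b) * (z * z) := by group
      _ = a * b := by rw [Zo_sq hz, mul_one]
  rw [e] at h3
  have h4 : a * b = 1 := by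
    by_contra hne
    exact hnotF ((omegaCenterOf S₂).mul_mem ha hb) hne h3
  rw [mul_eq_one_iff_eq_inv, Zo_inv (hle hb)] at h4
  exact h4

end One

theorem card_two {H : Subgroup G} {z : G} (hz : z ∈ H) (hz1 : z ≠ 1) (hc : ∀ a ∈ H, a = 1 ∨ a = z) :
    Nat.card H = 2 := by
  rw [Nat.card_eq_two_iff' (1 : H)]
  refine ⟨⟨z, hz⟩, fun h => hz1 (congrArg Subtype.val h), ?_⟩
  rintro ⟨y, hy⟩ hy1
  rcases hc y hy with h | h
  · exact absurd (Subtype.ext h) hy1
  · exact Subtype.ext h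

theorem card_four {H : Subgroup G} {x z : G} (hx : x ∈ H) (hz : z ∈ H) (hx1 : x ≠ 1) (hz1 : z ≠ 1) (hxz : x ≠ z)
    (hxz1 : x * z ≠ 1) (hc : ∀ a ∈ H, a = 1 ∨ a = x ∨ a = z ∨ a = x * z) : Nat.card H = 4 := by
  classical
  have hset : (H : Set G) = (({1, x, z, x * z} : Finset G) : Set G) := by
    ext a
    constructor
    · intro ha
      simpa using hc a ha
    · intro ha
      simp only [Finset.coe_insert, Finset.coe_singleton, Set.mem_insert_iff, Set.mem_singleton_iff] at ha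
      rcases ha with rfl | rfl | rfl | rfl
      · exact H.one_mem
      · exact hx
      · exact hz
      · exact H.mul_mem hx hz
  have e1 : x * z ≠ x := fun h => hz1 (mul_left_cancel (h.trans (mul_one x).symm))
  have e2 : x * z ≠ z := fun h => hx1 (mul_right_cancel (h.trans (one_mul z).symm))
  have e3 : Nat.card H = (H : Set G).ncard := Nat.card_coe_set_eq _
  rw [e3, hset, Set.ncard_coe_finset]
  rw [Finset.card_insert_of_notMem, Finset.card_insert_of_notMem, Finset.card_insert_of_notMem,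
    Finset.card_singleton]
  · simpa using e2.symm
  · simp only [Finset.mem_insert, Finset.mem_singleton, not_or]
    exact ⟨hxz, e1.symm⟩
  · simp only [Finset.mem_insert, Finset.mem_singleton, not_or]
    exact ⟨hx1.symm, hz1.symm, hxz1.symm⟩

namespace One

variable {M T L K : Subgroup G} {S : Sylow 2 G} (O : One M T L K S)

include O

/-- The case of a trivial `FF`. -/
theorem case_triv (hTS : T ≤ (S : Subgroup G)) (hF : ∀ a ∈ FF T K, a = 1) :
    omegaCenterOf (S : Subgroup G) = Zo T ∧ Nat.card ↥(Zo T) = 2 := by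
  obtain ⟨z, hz, hzW, hz1, huniq, hznot, hs⟩ := O.split'
  have hZ₀ : ∀ a ∈ Zo T, a = 1 ∨ a = z := by
    intro a ha
    rcases hs a ha with h | h
    · exact Or.inl (hF a h)
    · right
      have h1 := hF _ h
      rw [mul_eq_one_iff_eq_inv, Zo_inv hz] at h1
      exact h1
  refine ⟨?_, card_two hz hz1 hZ₀⟩
  have hle := O.omega_le hTS
  refine le_antisymm hle fun a ha => ?_
  obtain ⟨b, hb, hb1⟩ := omega_ne (S := (S : Subgroup G)) S.isPGroup' (fun h => O.h.hT1 (by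
    rw [eq_bot_iff, ← h]
    exact hTS))
  have hbz : b = z := (hZ₀ b (hle hb)).resolve_left hb1
  rcases hZ₀ a ha with rfl | rfl
  · exact one_mem _
  · rw [← hbz]
    exact hb

/-- `T` centralizes `Z₀` if `FF` has order two. -/
theorem case_two {x : G} (hx : x ∈ FF T K) (hx1 : x ≠ 1) (hF : ∀ a ∈ FF T K, a = 1 ∨ a = x) :
    Nat.card ↥(Zo T) = 4 ∧ omegaCenterOf T = Zo T ∧ ∀ s ∈ T, ∀ a ∈ Zo T, s * a = a * s := by
  obtain ⟨z, hz, hzW, hz1, huniq, hznot, hs⟩ := O.split'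
  have hxZ := (mem_FF.mp hx).1
  have hZ₀ : ∀ a ∈ Zo T, a = 1 ∨ a = x ∨ a = z ∨ a = x * z := by
    intro a ha
    rcases hs a ha with h | h
    · rcases hF a h with h1 | h1
      · exact Or.inl h1
      · exact Or.inr (Or.inl h1)
    · rcases hF _ h with h1 | h1
      · right; right; left
        rw [mul_eq_one_iff_eq_inv, Zo_inv hz] at h1
        exact h1
      · right; right; right
        calc a = (a * z) * z := by rw [mul_assoc, Zo_sq hz, mul_one]
          _ = x * z := by rw [h1]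
  have hxz : x ≠ z := fun h => hznot (h ▸ hx)
  have hxz1 : x * z ≠ 1 := by
    intro h
    rw [mul_eq_one_iff_eq_inv, Zo_inv hz] at h
    exact hxz h
  have hfx : ∀ s ∈ T, s * x * s⁻¹ = x := by
    intro s hs'
    refine (hF _ (O.Ffix hx hs')).resolve_left fun h => hx1 ?_
    calc x = s⁻¹ * (s * x * s⁻¹) * s := by group
      _ = 1 := by rw [h]; group
  have hfz : ∀ s ∈ T, s * z * s⁻¹ = z := fun s hs' => O.zfix hz hzW hz1 huniq hs'
  have hcomm : ∀ s ∈ T, ∀ a ∈ Zo T, s * a = a * s := by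
    intro s hs' a ha
    have h1 : s * x = x * s := by
      have := hfx s hs'
      rwa [mul_inv_eq_iff_eq_mul] at this
    have h2 : s * z = z * s := by
      have := hfz s hs'
      rwa [mul_inv_eq_iff_eq_mul] at this
    rcases hZ₀ a ha with rfl | rfl | rfl | rfl
    · group
    · exact h1
    · exact h2
    · rw [← mul_assoc, h1, mul_assoc, h2, mul_assoc]
  refine ⟨card_four hxZ hz hx1 hz1 hxz hxz1 hZ₀, ?_, hcomm⟩
  refine le_antisymm ?_ fun a ha => ?_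
  · intro a ha
    obtain ⟨h1, h2, h3⟩ := mem_Z₁.mp ha
    have h3' : a * a = 1 := by rwa [pow_two] at h3
    exact mem_Zo_of_comm h1 h3' fun j hj => h2 j (thompson_le T hj)
  · exact mem_Z₁.mpr ⟨Zo_T ha, fun r hr => hcomm r hr a ha, by rw [pow_two]; exact Zo_sq ha⟩

/-- The index of the centralizer in the normalizer. -/
theorem rel_two (hTS : T ≤ (S : Subgroup G)) (hne : T ≠ (S : Subgroup G)) {x : G} (hx : x ∈ FF T K) (hx1 : x ≠ 1)
    (hF : ∀ a ∈ FF T K, a = 1 ∨ a = x) :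
    (L ⊓ centralizer (Zo T : Set G)).relIndex (normalizer (Zo T : Set G)) = 2 := by
  have hS₂ : IsPGroup 2 (S : Subgroup G) := S.isPGroup'
  obtain ⟨g, hgS, hgT, hgN⟩ := exists_lt_normalizer hS₂ (lt_of_le_of_ne hTS hne)
  obtain ⟨hK₃, hK₃L, hgL, hgM, hgJ⟩ := O.conj_not_le hS₂ hTS hgS hgT hgN
  obtain ⟨h4, hΩ, hcomm⟩ := O.case_two hx hx1 hF
  have hZle := O.omega_le hTS
  have hxZ := (mem_FF.mp hx).1
  obtain ⟨y₀, hy₀, hy₀1⟩ := omega_ne (S := (S : Subgroup G)) hS₂ (fun h => O.h.hT1 (by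
    rw [eq_bot_iff, ← h]
    exact hTS))
  have hyZ := hZle hy₀
  have hZu : ∀ a ∈ omegaCenterOf (S : Subgroup G), a = 1 ∨ a = y₀ := fun a ha => by
    by_cases h : a = 1
    · exact Or.inl h
    · exact Or.inr (O.omega_uniq hS₂ hTS hne ha hy₀ h hy₀1)
  have hCL : centralizer (Zo T : Set G) ≤ L := fun c hc =>
    O.cent_le hx hx1 (mem_centralizer_iff.mp hc x hxZ).symm
  have hgZ : g ∈ normalizer (Zo T : Set G) := normalizer_le_omegaCenterOf hgJ
  have hgy : g * y₀ * g⁻¹ = y₀ := by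
    rw [(mem_Z₁.mp hy₀).2.1 g hgS]
    group
  have hgx : g * x * g⁻¹ ≠ x := by
    intro h
    apply hK₃L
    rintro _ ⟨k, hk, rfl⟩
    refine O.cent_le hx hx1 ?_
    have hkx := (mem_FF.mp hx).2 k hk
    have e : ((MulAut.conj g).toMonoidHom k) = g * k * g⁻¹ := rfl
    rw [e]
    calc (g * k * g⁻¹) * x = (g * k * g⁻¹) * (g * x * g⁻¹) := by rw [h]
      _ = g * (k * x) * g⁻¹ := by group
      _ = g * (x * k) * g⁻¹ := by rw [hkx]
      _ = (g * x * g⁻¹) * (g * k * g⁻¹) := by group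
      _ = x * (g * k * g⁻¹) := by rw [h]
  have hyx : y₀ ≠ x := by
    intro h
    apply hgx
    rw [← h]
    exact hgy
  have hfour : IsFour (Zo T) := ⟨h4, fun a ha => Zo_sq ha⟩
  have hcov := four_cover hfour hxZ hyZ hx1 hy₀1 hyx.symm
  have hne1 : ∀ {u h : G}, u ≠ 1 → h * u * h⁻¹ ≠ 1 := by
    intro u h hu e
    apply hu
    calc u = h⁻¹ * (h * u * h⁻¹) * h := by group
      _ = 1 := by rw [e]; group
  have hgxZ : g * x * g⁻¹ ∈ Zo T := conj_mem hgZ hxZ
  have hx'e : g * x * g⁻¹ = x * y₀ := by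
    rcases hcov _ hgxZ with h | h | h | h
    · exact absurd h (hne1 hx1)
    · exact absurd h hgx
    · exfalso
      apply hyx
      rw [← hgy] at h
      exact (mul_left_cancel (mul_right_cancel h)).symm
    · exact h
  -- `T` is a Sylow subgroup of the centralizer
  have hTC : T ≤ centralizer (Zo T : Set G) := fun s hs =>
    mem_centralizer_iff.mpr fun a ha => (hcomm s hs a ha).symm
  have hSyC : IsSylowTwoIn T (centralizer (Zo T : Set G)) := by
    refine ⟨hTC, O.h.hTp, ?_⟩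
    have h1 := Subgroup.relIndex_mul_relIndex T _ L hTC hCL
    have h2 := O.Sy.2.2
    rw [← h1] at h2
    exact (Nat.odd_mul.mp h2).1
  have hnC : normalizer (Zo T : Set G) ≤ normalizer (centralizer (Zo T : Set G) : Set G) := by
    intro h hh
    refine mem_normalizer_of_conj_le fun c hc => ?_
    refine mem_centralizer_iff.mpr fun a ha => ?_
    have h1 : h⁻¹ * a * h ∈ Zo T := conj_inv_mem hh ha
    have h2 := mem_centralizer_iff.mp hc _ h1
    calc a * (h * c * h⁻¹) = h * ((h⁻¹ * a * h) * c) * h⁻¹ := by group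
      _ = h * (c * (h⁻¹ * a * h)) * h⁻¹ := by rw [h2]
      _ = (h * c * h⁻¹) * a := by group
  have hno : ∀ h ∈ normalizer (Zo T : Set G), h * x * h⁻¹ ≠ y₀ := by
    intro h hh e
    obtain ⟨c, hc, hcN⟩ := frattini hSyC (hnC hh)
    set h₁ := c⁻¹ * h with hh₁
    have hcy : c⁻¹ * y₀ * c = y₀ := by
      have h1 := mem_centralizer_iff.mp hc y₀ hyZ
      calc c⁻¹ * y₀ * c = c⁻¹ * (y₀ * c) := by group
        _ = c⁻¹ * (c * y₀) := by rw [h1]
        _ = y₀ := by group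
    have e1 : h₁ * x * h₁⁻¹ = y₀ := by
      calc h₁ * x * h₁⁻¹ = c⁻¹ * (h * x * h⁻¹) * c := by rw [hh₁]; group
        _ = y₀ := by rw [e, hcy]
    have hh₁M : h₁ ∈ M := O.h.hJM (norm_thompson hcN)
    apply O.M₁
    intro k hk
    have hkx := (mem_FF.mp hx).2 k hk
    have hcomm₁ : (h₁ * k * h₁⁻¹) * y₀ = y₀ * (h₁ * k * h₁⁻¹) := by
      rw [← e1]
      calc (h₁ * k * h₁⁻¹) * (h₁ * x * h₁⁻¹) = h₁ * (k * x) * h₁⁻¹ := by group
        _ = h₁ * (x * k) * h₁⁻¹ := by rw [hkx]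
        _ = (h₁ * x * h₁⁻¹) * (h₁ * k * h₁⁻¹) := by group
    have h3 : h₁ * k * h₁⁻¹ ∈ centralizer (omegaCenterOf (S : Subgroup G) : Set G) := by
      refine mem_centralizer_iff.mpr fun a ha => ?_
      rcases hZu a ha with rfl | rfl
      · group
      · exact hcomm₁.symm
    have h5 : h₁ * k * h₁⁻¹ ∈ M := O.h.hMJ (norm_thompson (O.h.hZ S h3))
    have e2 : k = h₁⁻¹ * (h₁ * k * h₁⁻¹) * h₁ := by group
    rw [e2]
    exact M.mul_mem (M.mul_mem (M.inv_mem hh₁M) h5) hh₁M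
  have hfixy : ∀ n ∈ normalizer (Zo T : Set G), n * y₀ * n⁻¹ = y₀ := by
    intro n hn
    have hinv : n⁻¹ ∈ normalizer (Zo T : Set G) := inv_mem hn
    rcases hcov _ (conj_mem hn hyZ) with h | h | h | h
    · exact absurd h (hne1 hy₀1)
    · exfalso
      refine hno n⁻¹ hinv ?_
      rw [← h]
      group
    · exact h
    · exfalso
      refine hno (n⁻¹ * g) (mul_mem hinv hgZ) ?_
      calc (n⁻¹ * g) * x * (n⁻¹ * g)⁻¹ = n⁻¹ * (g * x * g⁻¹) * n := by group
        _ = n⁻¹ * (x * y₀) * n := by rw [hx'e]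
        _ = n⁻¹ * (n * y₀ * n⁻¹) * n := by rw [h]
        _ = y₀ := by group
  have hH : ∀ y ∈ normalizer (Zo T : Set G), y ∈ L ⊓ centralizer (Zo T : Set G) ↔ y * x * y⁻¹ = x := by
    intro y hy
    constructor
    · rintro ⟨-, h2⟩
      rw [← mem_centralizer_iff.mp h2 x hxZ]
      group
    · intro h
      have h1 : y * x = x * y := by rwa [mul_inv_eq_iff_eq_mul] at h
      have h2 : y * y₀ = y₀ * y := by
        have := hfixy y hy
        rwa [mul_inv_eq_iff_eq_mul] at this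
      have h3 : y ∈ centralizer (Zo T : Set G) := by
        refine mem_centralizer_iff.mpr fun a ha => ?_
        rcases hcov a ha with rfl | rfl | rfl | rfl
        · group
        · exact h1.symm
        · exact h2.symm
        · rw [mul_assoc, ← h2, ← mul_assoc, ← h1, mul_assoc]
      exact ⟨hCL h3, h3⟩
  have hxy1 : x * y₀ ≠ x := fun h => hy₀1 (mul_left_cancel (h.trans (mul_one x).symm))
  rw [Subgroup.relIndex, Subgroup.index_eq_two_iff]
  refine ⟨⟨g, hgZ⟩, ?_⟩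
  rintro ⟨n, hn⟩
  rw [Subgroup.mem_subgroupOf, Subgroup.mem_subgroupOf]
  show Xor (n * g ∈ L ⊓ centralizer (Zo T : Set G)) (n ∈ L ⊓ centralizer (Zo T : Set G))
  rw [hH n hn, hH (n * g) (mul_mem hn hgZ)]
  have e1 : (n * g) * x * (n * g)⁻¹ = (n * x * n⁻¹) * y₀ := by
    calc (n * g) * x * (n * g)⁻¹ = n * (g * x * g⁻¹) * n⁻¹ := by group
      _ = n * (x * y₀) * n⁻¹ := by rw [hx'e]
      _ = (n * x * n⁻¹) * (n * y₀ * n⁻¹) := by group
      _ = (n * x * n⁻¹) * y₀ := by rw [hfixy n hn]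
  rw [e1]
  rcases hcov _ (conj_mem hn hxZ) with h | h | h | h
  · exact absurd h (hne1 hx1)
  · right
    refine ⟨h, ?_⟩
    rw [h]
    exact hxy1
  · exact absurd h (hno n hn)
  · left
    constructor
    · rw [h, mul_assoc, Zo_sq hyZ, mul_one]
    · rw [h]
      exact hxy1

/-- The case `T ≠ S`. -/
theorem case_lt (hTS : T ≤ (S : Subgroup G)) (hne : T ≠ (S : Subgroup G)) :
    (omegaCenterOf (S : Subgroup G) = Zo T ∧ Nat.card ↥(Zo T) = 2) ∨
      (omegaCenterOf T = Zo T ∧ Nat.card ↥(Zo T) = 4 ∧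
        (L ⊓ centralizer (Zo T : Set G)).relIndex (normalizer (Zo T : Set G)) = 2) := by
  have hS₂ : IsPGroup 2 (S : Subgroup G) := S.isPGroup'
  obtain ⟨g, hgS, hgT, hgN⟩ := exists_lt_normalizer hS₂ (lt_of_le_of_ne hTS hne)
  obtain ⟨hK₃, hK₃L, -, -, -⟩ := O.conj_not_le hS₂ hTS hgS hgT hgN
  by_cases hF : ∀ a ∈ FF T K, a = 1
  · exact Or.inl (O.case_triv hTS hF)
  · push Not at hF
    obtain ⟨x, hx, hx1⟩ := hF
    have hF2 : ∀ a ∈ FF T K, a = 1 ∨ a = x := fun a ha => by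
      by_cases h : a = 1
      · exact Or.inl h
      · exact Or.inr (O.sep hK₃ hK₃L ha hx h hx1)
    obtain ⟨h4, hΩ, -⟩ := O.case_two hx hx1 hF2
    exact Or.inr ⟨hΩ, h4, O.rel_two hTS hne hx hx1 hF2⟩

/-- `L` is not strongly embedded. -/
theorem strad_ne : (straddlingTwoSubgroups L).Nonempty := by
  haveI : Fact (Nat.Prime 2) := ⟨Nat.prime_two⟩
  by_contra hno
  have hSE : ∀ g, g ∉ L → ∀ w ∈ L, g⁻¹ * w * g ∈ L → w * w = 1 → w = 1 := by
    intro g hg w hw hgw hww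
    by_contra hw1
    apply hno
    refine ⟨zpowers w, ?_, by simpa using hw1, ?_, L.map (MulAut.conj g).toMonoidHom, isTwoLocal_map O.isMax.1 g, ?_, ?_⟩
    · rintro ⟨y, hy⟩
      obtain ⟨k, rfl⟩ := Subgroup.mem_zpowers_iff.mp hy
      refine ⟨1, Subtype.ext ?_⟩
      have h2 : w ^ 2 = 1 := by rw [pow_two]; exact hww
      show (w ^ k) ^ 2 ^ 1 = 1
      rw [pow_one, ← zpow_natCast, ← zpow_mul, mul_comm, zpow_mul]
      simp [h2]
    · rw [Subgroup.zpowers_le]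
      exact hw
    · rw [Subgroup.zpowers_le]
      exact ⟨_, hgw, by show g * (g⁻¹ * w * g) * g⁻¹ = w; group⟩
    · intro h1
      have h2 : L.map (MulAut.conj g).toMonoidHom = L :=
        Subgroup.eq_of_le_of_card_ge h1 (by rw [card_map_conj])
      exact hg (norm_self O.isMax O.Rne (Subgroup.mem_normalizer_iff_map_conj_eq.mpr h2))
  obtain ⟨g, hg⟩ : ∃ g, g ∉ L := by
    by_contra hcon
    push Not at hcon
    have hn : (pCoreOf 2 L).Normal := by
      rw [← Subgroup.normalizer_eq_top_iff, eq_top_iff]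
      intro x _
      exact le_normalizer_pCoreOf L (hcon x)
    have h1 := Cfsg.Agent.Lib.Core.Basic.le_pCore hn (isPGroup_pCoreOf L)
    rw [O.hO, le_bot_iff] at h1
    exact O.Rne h1
  obtain ⟨a, haJ, haR⟩ : ∃ a, (∃ A, IsMaxIn 2 T A ∧ a ∈ A) ∧ a ∉ pCoreOf 2 L := by
    by_contra hcon
    push Not at hcon
    apply O.Ov.2.1
    rw [thompsonSubgroupOf_eq]
    refine sSup_le fun A hA a ha => hcon a ⟨A, hA, ha⟩
  obtain ⟨A, hA, haA⟩ := haJ
  have haT : a ∈ T := hA.1 haA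
  have haa : a * a = 1 := by
    have := hA.2.1.2 a haA
    rwa [pow_two] at this
  have ha1 : a ≠ 1 := fun h => haR (by rw [h]; exact one_mem _)
  obtain ⟨z, hz, hzW, hz1, -⟩ := O.split'
  obtain ⟨C, E, Y, V, hCE⟩ := exists_CE5 O.h.hZ (O.h.hN L O.isMax.1) O.h.hTp O.Sy O.Ov.2.2
  obtain ⟨S', d, -, -, -, hS'⟩ := exists_setup O.h.hTp O.J₁
  have hRK := O.h.RK O.Sy O.h.hTp O.h.hT1 rfl O.J₁ O.KL
  have hzR : z ∈ pCoreOf 2 L := hCE.hVR (ce_W_le_V hCE O.h.hTp O.J₁ O.KL hRK hS' z hzW).1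
  obtain ⟨l, hl, hla⟩ := conj_of_se hSE hg (O.Sy.1 haT) haa ha1 (O.Sy.1 (O.RT hzR)) (Zo_sq hz) hz1
  apply haR
  rw [← hla]
  exact conj_mem (le_normalizer_pCoreOf L hl) hzR

/-- The set-up with `M = N_G(J(T))`. -/
theorem hyp_N (hS₁ : (S : Subgroup G) = T) : Hyp (normalizer (thompsonSubgroupOf 2 T : Set G)) T S := by
  refine ⟨O.h.hL, O.h.hN, O.h.hZ, by rw [hS₁], ?_, ?_⟩
  · refine ⟨O.h.hTp, O.h.hT1, le_normalizer_thompson T, L, O.isMax.1, O.Sy.1, fun hle => ?_⟩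
    exact not_le_norm O.J₁ le_rfl O.h.hJp (O.KL.trans hle)
  · intro T' hT'
    exact sylow_max hS₁ hT'.1

/-- The case `T = S`. -/
theorem case_eq (hS₁ : (S : Subgroup G) = T) :
    (omegaCenterOf (S : Subgroup G) = Zo T ∧ Nat.card ↥(Zo T) = 2) ∨
      (omegaCenterOf (S : Subgroup G) = Zo T ∧ Nat.card ↥(Zo T) = 4) := by
  haveI : Fact (Nat.Prime 2) := ⟨Nat.prime_two⟩
  by_cases hF : ∀ a ∈ FF T K, a = 1
  · exact Or.inl (O.case_triv hS₁.ge hF)
  push Not at hF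
  obtain ⟨x, hx, hx1⟩ := hF
  by_cases hall : ∀ K', IsJComponent T K' → K' ≤ L
  · exfalso
    have hH₀ := O.hyp_N hS₁
    have hNL : normalizer (thompsonSubgroupOf 2 T : Set G) ≤ L := by
      intro n hn
      have hK := isJ_map O.J₁ hn
      exact mem_of_conj_le hH₀ hK (fun hle => not_le_norm hK le_rfl O.h.hJp hle) O.isMax O.Rne O.JL hn
        (hall _ hK) (Subgroup.map_mono O.KL)
    have hU2 : ∀ X : Subgroup G, IsTwoLocal X → T ≤ X → X ≤ L := by
      intro X hX hTX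
      have hs : IsSylowTwoIn T X := by
        refine ⟨hTX, O.h.hTp, ?_⟩
        have h1 := Subgroup.relIndex_mul_index hTX
        have h2 : ¬ 2 ∣ T.index := by
          rw [← hS₁]
          exact S.not_dvd_index
        rw [← Nat.not_even_iff_odd, even_iff_two_dvd]
        intro h3
        exact h2 (by rw [← h1]; exact dvd_mul_of_dvd_left h3 _)
      obtain ⟨C, E, Y, V, hCE⟩ := exists_CE5 O.h.hZ (O.h.hN X hX) O.h.hTp hs (hRc_of_local O.h.hL hX)
      exact hCE.L_le O.Sy.1 (inf_le_right.trans hNL) fun K hK _ => hall K hK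
    obtain ⟨T', hT'⟩ := exists_maxStrad O.strad_ne
    have hMJ' : normalizer (thompsonSubgroupOf 2 (S : Subgroup G) : Set G) ≤ L := by
      rw [hS₁]
      exact hNL
    obtain ⟨K', hK'⟩ := s2949 O.h.hL O.h.hN O.h.hZ hMJ' hT'
    have O' : One L T' (normalizer (WW T' K' : Set G)) K' S :=
      ⟨⟨O.h.hL, O.h.hN, O.h.hZ, hMJ', hT'⟩, O.hO, hK', rfl⟩
    obtain ⟨hT'p, hT'1, hT'L, X, hX, hT'X, hXL⟩ := hT'.1
    obtain ⟨P, hT'P, hP⟩ := exists_sylow_in hT'p hT'L
    obtain ⟨l, hl, rfl⟩ := exists_conj_sylow O.Sy hP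
    have hne : T' ≠ T.map (MulAut.conj l).toMonoidHom := by
      rintro rfl
      apply hXL
      have h1 : T ≤ X.map (MulAut.conj l⁻¹).toMonoidHom := by
        have h2 := Subgroup.map_mono (f := (MulAut.conj l⁻¹).toMonoidHom) hT'X
        rwa [map_conj_conj_inv] at h2
      have h3 := hU2 _ (isTwoLocal_map hX l⁻¹) h1
      intro y hy
      have h4 : l⁻¹ * y * l⁻¹⁻¹ ∈ L := h3 ⟨y, hy, rfl⟩
      have e : y = l * (l⁻¹ * y * l⁻¹⁻¹) * l⁻¹ := by group
      rw [e]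
      exact L.mul_mem (L.mul_mem hl h4) (L.inv_mem hl)
    have huniq : ∀ {a b : G}, a ∈ omegaCenterOf T → b ∈ omegaCenterOf T → a ≠ 1 → b ≠ 1 → a = b := by
      intro a b ha hb ha1 hb1
      have hma : (MulAut.conj l).toMonoidHom a ∈ omegaCenterOf (T.map (MulAut.conj l).toMonoidHom) := by
        rw [omega_map]
        exact ⟨a, ha, rfl⟩
      have hmb : (MulAut.conj l).toMonoidHom b ∈ omegaCenterOf (T.map (MulAut.conj l).toMonoidHom) := by
        rw [omega_map]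
        exact ⟨b, hb, rfl⟩
      have hinj := (MulAut.conj l).injective
      have h5 := O'.omega_uniq hP.2.1 hT'P hne hma hmb
        (fun h => ha1 (hinj (h.trans (map_one (MulAut.conj l)).symm)))
        (fun h => hb1 (hinj (h.trans (map_one (MulAut.conj l)).symm)))
      exact hinj h5
    -- a `T`-fixed element of `FF`
    have hbotn : T ≤ normalizer ((⊥ : Subgroup G) : Set G) := by
      intro y _
      refine mem_normalizer_of_conj_le fun w hw => ?_
      rw [Subgroup.mem_bot] at hw ⊢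
      rw [hw]
      group
    have hFne : (⊥ : Subgroup G) < FF T K := by
      refine bot_lt_iff_ne_bot.mpr fun h => hx1 ?_
      rw [h, Subgroup.mem_bot] at hx
      exact hx
    obtain ⟨x₁, hx₁, hx₁1, hfix⟩ := Cfsg.Agent.Lib.JSub.F4.exists_fix_above O.h.hTp hFne
      (fun a ha => Zo_T (mem_FF.mp ha).1) hbotn
      (fun s hs => mem_normalizer_of_conj_le fun a ha => O.Ffix ha hs)
    have hx₁1' : x₁ ≠ 1 := fun h => hx₁1 (by rw [h]; exact one_mem _)
    have hx₁Ω : x₁ ∈ omegaCenterOf T := by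
      refine mem_Z₁.mpr ⟨Zo_T (mem_FF.mp hx₁).1, fun s hs => ?_, ?_⟩
      · have h1 := hfix s hs
        rw [Subgroup.mem_bot, inv_mul_eq_one] at h1
        have h2 : s * x₁ * s⁻¹ = x₁ := h1.symm
        rwa [mul_inv_eq_iff_eq_mul] at h2
      · rw [pow_two]
        exact Zo_sq (mem_FF.mp hx₁).1
    -- an element of `Z` moved by `K`
    obtain ⟨y, hy, hyF⟩ : ∃ y ∈ omegaCenterOf T, y ∉ FF T K := by
      by_contra hcon
      push Not at hcon
      apply O.M₁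
      intro k hk
      have h1 : k ∈ centralizer (omegaCenterOf (S : Subgroup G) : Set G) := by
        rw [hS₁]
        exact mem_centralizer_iff.mpr fun a ha => ((mem_FF.mp (hcon a ha)).2 k hk).symm
      exact O.h.hMJ (norm_thompson (O.h.hZ S h1))
    have hy1 : y ≠ 1 := fun h => hyF (by rw [h]; exact one_mem _)
    have h6 := huniq hy hx₁Ω hy1 hx₁1'
    exact hyF (h6 ▸ hx₁)
  · push Not at hall
    obtain ⟨K', hK', hK'L⟩ := hall
    have hF2 : ∀ a ∈ FF T K, a = 1 ∨ a = x := fun a ha => by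
      by_cases h : a = 1
      · exact Or.inl h
      · exact Or.inr (O.sep hK' hK'L ha hx h hx1)
    obtain ⟨h4, hΩ, -⟩ := O.case_two hx hx1 hF2
    exact Or.inr ⟨by rw [hS₁]; exact hΩ, h4⟩

end One

/-- The trichotomy. -/
theorem tri (hL : IsCharacteristicTwoType G) (hN : ∀ N : Subgroup G, IsTwoLocal N → Group.IsSolvable ↥N)
    (hZ : ∀ S : Sylow 2 G, centralizer (omegaCenterOf (S : Subgroup G) : Set G) ≤
      normalizer ((S : Subgroup G) : Set G)) (hO : Cfsg.pCore 2 G = ⊥) {S : Sylow 2 G} {M T K L : Subgroup G}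
    (hMJ : normalizer (thompsonSubgroupOf 2 (S : Subgroup G) : Set G) ≤ M)
    (hT : T ∈ maxStraddlingTwoSubgroups M) (hTS : T ≤ (S : Subgroup G)) (hK : K ∈ jComponentsOutside M T)
    (hLm : IsMaximalTwoLocal L) (hKL : K ⊔ thompsonSubgroupOf 2 T ≤ L) :
    Zo T ⊓ wOf K ≠ ⊥ ∧
      ((omegaCenterOf (S : Subgroup G) = Zo T ∧ Nat.card ↥(Zo T) = 2) ∨
        (omegaCenterOf (S : Subgroup G) = Zo T ∧ Nat.card ↥(Zo T) = 4 ∧ T = (S : Subgroup G)) ∨
        (omegaCenterOf T = Zo T ∧ Nat.card ↥(Zo T) = 4 ∧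
          (L ⊓ centralizer (Zo T : Set G)).relIndex (normalizer (Zo T : Set G)) = 2)) := by
  have hM : Hyp M T S := ⟨hL, hN, hZ, hMJ, hT⟩
  have hLd := hM.unique_L hK.1.1 hK.2.1 hLm hKL
  have O : One M T L K S := ⟨hM, hO, hK, hLd⟩
  obtain ⟨z, hz, hzW, hz1, -⟩ := O.split'
  refine ⟨fun h => hz1 ?_, ?_⟩
  · have h1 : z ∈ Zo T ⊓ wOf K := ⟨hz, hzW⟩
    rw [h, Subgroup.mem_bot] at h1
    exact h1
  · by_cases hne : T = (S : Subgroup G)
    · rcases O.case_eq hne.symm with h | h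
      · exact Or.inl h
      · exact Or.inr (Or.inl ⟨h.1, h.2, hne⟩)
    · rcases O.case_lt hTS hne with h | h
      · exact Or.inl h
      · exact Or.inr (Or.inr h)

end Cfsg.Agent.Lib.JSub.Tri
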