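import Cfsg.Agent.Lib.JSub.Flip
import Cfsg.Agent.Lib.JSub.Tri
import Cfsg.Agent.Lib.QuadAct.Basic

/-!
# The structure of `⟨K, T⟩`
-/

set_option autoImplicit false
set_option linter.unusedSectionVars false
set_option linter.unusedSimpArgs false
set_option linter.unusedVariables false
set_option linter.style.haveILetI false

open scoped commutatorElement

namespace Cfsg.Agent.Lib.JSub.PS

open Cfsg Subgroup
open Cfsg.Agent.Lib.JSub.Main
open Cfsg.Agent.Lib.JSub.Zero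
open Cfsg.Agent.Lib.JSub.Exist
open Cfsg.Agent.Lib.JSub.Strad
open Cfsg.Agent.Lib.JSub.Unique
open Cfsg.Agent.Lib.JSub.Split
open Cfsg.Agent.Lib.JSub.Fam
open Cfsg.Agent.Lib.JSub.Tri
open Cfsg.Agent.Lib.JSub.Flip
open Cfsg.Agent.Lib.PointStab.Step (nrm_of_conj conj_mem conj_inv_mem mem_Z₁ Z₁)
open Cfsg.Agent.Lib.PLocal.Thompson (IsMaxIn jOf thompsonSubgroupOf_eq IsAbExp exists_isMaxIn)
open Cfsg.Agent.Lib.LocalStruct.PCoreOf
open Cfsg.Agent.Lib.LocalEven.JComp (Setup exists_setup K_le_normalizer_wOf normalizer_le_wOf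
  index3_le index3_sq normalizer_le_omegaCenterOf normalizer_le_pCoreOf IsFour conj_mem_centralizer)
open Cfsg.Agent.Lib.LocalEven.Util (mem_normalizer_of_conj_le)
open Cfsg.Agent.Lib.Coprime.Action (le_of_normal_of_isSylowIn)

variable {G : Type*} [Group G] [Finite G]

/-- `C_T(W_K)`. -/
def QQ (T K : Subgroup G) : Subgroup G := T ⊓ centralizer (wOf K : Set G)

section

variable {M T L K : Subgroup G} {S : Sylow 2 G} (O : One M T L K S)

include O

theorem P_le_L : K ⊔ T ≤ L := sup_le O.KL O.Sy.1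

theorem Sy_P : IsSylowTwoIn T (K ⊔ T) := by
  refine ⟨le_sup_right, O.h.hTp, ?_⟩
  have h1 := Subgroup.relIndex_mul_relIndex T (K ⊔ T) L le_sup_right (P_le_L O)
  have h2 := O.Sy.2.2
  rw [← h1] at h2
  exact (Nat.odd_mul.mp h2).1

theorem setup : ∃ d, Setup T K (pCoreOf 2 K) (wOf K) d := by
  haveI : Fact (Nat.Prime 2) := ⟨Nat.prime_two⟩
  obtain ⟨S', d, -, -, -, hS'⟩ := exists_setup O.h.hTp O.J₁
  refine ⟨d, ?_⟩
  exact
    { hS := O.h.hTp
      hQS := le_of_normal_of_isSylowIn (isSylowIn_of_two (Sy_P O)) ((pCoreOf_le K).trans le_sup_left)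
        (isPGroup_pCoreOf K) (sup_le (le_normalizer_pCoreOf K) (O.TK.trans normalizer_le_pCoreOf))
      hQK := hS'.hQK
      hKQ := hS'.hKQ
      hSQ := O.TK.trans normalizer_le_pCoreOf
      hSK := O.TK
      hK3 := hS'.hK3
      hWQ := hS'.hWQ
      hQW := hS'.hQW
      hKW := hS'.hKW
      hSW := O.TK.trans normalizer_le_wOf
      hW := hS'.hW
      hgK := hS'.hgK
      hgodd := hS'.hgodd
      hgW := hS'.hgW
      hJK := by
        rw [← thompsonSubgroupOf_eq]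
        exact O.J₁.2.1 }

theorem QQ_le_N : K ⊔ T ≤ normalizer (QQ T K : Set G) := by
  obtain ⟨d, hS⟩ := setup O
  exact sup_le hS.K_le_norm hS.S_le_norm

theorem exists_out : ∃ a ∈ T, a ∉ centralizer (wOf K : Set G) := by
  obtain ⟨d, hS⟩ := setup O
  obtain ⟨A, hA, hAC⟩ := hS.exists_max_not
  obtain ⟨a, haA, haC⟩ := SetLike.not_le_iff_exists.mp hAC
  exact ⟨a, hA.1 haA, haC⟩

theorem pcore_eq : pCoreOf 2 (K ⊔ T) = QQ T K := by
  haveI : Fact (Nat.Prime 2) := ⟨Nat.prime_two⟩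
  apply le_antisymm
  · intro r hr
    have hrT : r ∈ T := le_of_normal_of_isSylowIn (isSylowIn_of_two (Sy_P O)) (pCoreOf_le _)
      (isPGroup_pCoreOf _) (le_normalizer_pCoreOf _) hr
    refine ⟨hrT, ?_⟩
    by_contra hrW
    obtain ⟨d, hS⟩ := setup O
    obtain ⟨w₀, u, hd⟩ := hS.exists_coord
    have hdP : d ∈ K ⊔ T := (le_sup_left : K ≤ K ⊔ T) hS.hgK
    have hxR : d * r * d⁻¹ ∈ pCoreOf 2 (K ⊔ T) := conj_mem (le_normalizer_pCoreOf _ hdP) hr
    have hxT : d * r * d⁻¹ ∈ T := le_of_normal_of_isSylowIn (isSylowIn_of_two (Sy_P O)) (pCoreOf_le _)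
      (isPGroup_pCoreOf _) (le_normalizer_pCoreOf _) hxR
    have hxW : d * r * d⁻¹ ∉ centralizer (wOf K : Set G) := by
      intro hc
      apply hrW
      have := conj_mem_centralizer (inv_mem (hS.hKW hS.hgK)) hc
      have e : d⁻¹ * (d * r * d⁻¹) * d⁻¹⁻¹ = r := by group
      rwa [e] at this
    have hw : d * w₀ * d⁻¹ ∈ wOf K := conj_mem (hS.hKW hS.hgK) hd.hw₀
    have hfix : (d * r * d⁻¹) * (d * w₀ * d⁻¹) * (d * r * d⁻¹)⁻¹ = d * w₀ * d⁻¹ := by
      calc (d * r * d⁻¹) * (d * w₀ * d⁻¹) * (d * r * d⁻¹)⁻¹ = d * (r * w₀ * r⁻¹) * d⁻¹ := by group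
        _ = d * w₀ * d⁻¹ := by rw [hd.hfix r hrT]
    rcases hS.fix_of_not hd hxT hxW hw hfix with e | e
    · apply hd.hw₁
      calc w₀ = d⁻¹ * (d * w₀ * d⁻¹) * d := by group
        _ = 1 := by rw [e]; group
    · exact hS.not_fix hd.hw₀ hd.hw₁ e
  · exact le_pCoreOf (inf_le_left.trans le_sup_right) (QQ_le_N O) (O.h.hTp.to_le inf_le_left)

theorem K_not_le_T : ¬ K ≤ T := by
  obtain ⟨d, hS⟩ := setup O
  intro hKT
  have h2 : K ≤ pCoreOf 2 K := le_pCoreOf le_rfl Subgroup.le_normalizer (O.h.hTp.to_le hKT)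
  have h3 := Subgroup.relIndex_eq_one.mpr h2
  have h4 := hS.hK3
  omega

theorem idx3 : T.relIndex (K ⊔ T) = 3 := by
  haveI : Fact (Nat.Prime 2) := ⟨Nat.prime_two⟩
  obtain ⟨d, hS⟩ := setup O
  have hinf : T ⊓ K = pCoreOf 2 K := by
    apply le_antisymm
    · rintro y ⟨hyT, hyK⟩
      by_contra hy
      exact K_not_le_T O (index3_le hS.hQK hS.hK3 hS.hQS hyK hyT hy)
    · exact le_inf hS.hQS hS.hQK
  have hcard := Cfsg.Agent.Lib.QuadAct.Basic.card_sup_mul_card_inf_of_le_normalizer T K O.TK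
  rw [hinf, sup_comm] at hcard
  have h1 : Nat.card (pCoreOf 2 K) * 3 = Nat.card K := by
    have := Subgroup.relIndex_mul_relIndex (⊥ : Subgroup G) (pCoreOf 2 K) K bot_le hS.hQK
    rwa [Subgroup.relIndex_bot_left, Subgroup.relIndex_bot_left, hS.hK3] at this
  have h2 : Nat.card T * T.relIndex (K ⊔ T) = Nat.card (K ⊔ T : Subgroup G) := by
    have := Subgroup.relIndex_mul_relIndex (⊥ : Subgroup G) T (K ⊔ T) bot_le le_sup_right
    rwa [Subgroup.relIndex_bot_left, Subgroup.relIndex_bot_left] at this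
  rw [← h1, ← h2] at hcard
  have hpos1 : 0 < Nat.card T := Nat.card_pos
  have hpos2 : 0 < Nat.card (pCoreOf 2 K) := Nat.card_pos
  have h3 : (Nat.card T * Nat.card (pCoreOf 2 K)) * T.relIndex (K ⊔ T) =
      (Nat.card T * Nat.card (pCoreOf 2 K)) * 3 := by
    calc (Nat.card T * Nat.card (pCoreOf 2 K)) * T.relIndex (K ⊔ T)
        = Nat.card T * T.relIndex (K ⊔ T) * Nat.card (pCoreOf 2 K) := by ring
      _ = Nat.card T * (Nat.card (pCoreOf 2 K) * 3) := hcard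
      _ = (Nat.card T * Nat.card (pCoreOf 2 K)) * 3 := by ring
  exact Nat.eq_of_mul_eq_mul_left (Nat.mul_pos hpos1 hpos2) h3

theorem idx2 : (QQ T K).relIndex T = 2 := by
  obtain ⟨d, hS⟩ := setup O
  obtain ⟨w₀, u, hd⟩ := hS.exists_coord
  obtain ⟨a, haT, haW⟩ := exists_out O
  rw [Subgroup.relIndex_eq_two_iff]
  refine ⟨a, haT, fun b hb => ?_⟩
  by_cases hbW : b ∈ centralizer (wOf K : Set G)
  · right
    refine ⟨⟨hb, hbW⟩, fun hx => haW ?_⟩
    have h1 := (centralizer (wOf K : Set G)).mul_mem ((centralizer (wOf K : Set G)).inv_mem hbW) hx.2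
    simpa using h1
  · left
    exact ⟨⟨T.mul_mem hb haT, hS.mul_mem_of_not hd hb hbW haT haW⟩, fun hx => hbW hx.2⟩

theorem idx6 : (pCoreOf 2 (K ⊔ T)).relIndex (K ⊔ T) = 6 := by
  rw [pcore_eq O]
  have := Subgroup.relIndex_mul_relIndex (QQ T K) T (K ⊔ T) inf_le_left le_sup_right
  rw [idx2 O, idx3 O] at this
  omega

theorem cent_P : centralizer (pCoreOf 2 (K ⊔ T) : Set G) ≤ pCoreOf 2 (K ⊔ T) := by
  haveI : Fact (Nat.Prime 2) := ⟨Nat.prime_two⟩
  have hle : pCoreOf 2 L ≤ pCoreOf 2 (K ⊔ T) :=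
    le_pCoreOf (O.RT.trans le_sup_right) ((P_le_L O).trans (le_normalizer_pCoreOf L)) (isPGroup_pCoreOf L)
  intro c hc
  exact hle (O.Ov.2.2 (Subgroup.centralizer_le (by exact_mod_cast hle) hc))

theorem noncomm : ¬ ⁅K ⊔ T, K ⊔ T⁆ ≤ pCoreOf 2 (K ⊔ T) := by
  rw [pcore_eq O]
  intro hle
  obtain ⟨d, hS⟩ := setup O
  obtain ⟨w₀, u, hd⟩ := hS.exists_coord
  obtain ⟨a, haT, haW⟩ := exists_out O
  have hc := hle (Subgroup.commutator_mem_commutator ((le_sup_right : T ≤ K ⊔ T) haT)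
    ((le_sup_left : K ≤ K ⊔ T) hS.hgK))
  have hcW := hc.2
  rw [commutatorElement_def] at hcW
  have hw : d * w₀ * d⁻¹ ∈ wOf K := conj_mem (hS.hKW hS.hgK) hd.hw₀
  have h1 := (mem_centralizer_iff.mp hcW) _ hw
  have hfx : a⁻¹ * w₀ * a = w₀ := by
    have := hd.hfix a⁻¹ (T.inv_mem haT)
    simpa using this
  have h2 : a * (d * w₀ * d⁻¹) * a⁻¹ = d * w₀ * d⁻¹ := by
    have h3 : (a * d * a⁻¹ * d⁻¹) * (d * w₀ * d⁻¹) * (a * d * a⁻¹ * d⁻¹)⁻¹ = d * w₀ * d⁻¹ := by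
      rw [← h1]; group
    have h4 : (a * d * a⁻¹ * d⁻¹) * (d * w₀ * d⁻¹) * (a * d * a⁻¹ * d⁻¹)⁻¹ =
        a * (d * (a⁻¹ * w₀ * a) * d⁻¹) * a⁻¹ := by group
    rw [h4, hfx] at h3
    exact h3
  rcases hS.fix_of_not hd haT haW hw h2 with e | e
  · apply hd.hw₁
    calc w₀ = d⁻¹ * (d * w₀ * d⁻¹) * d := by group
      _ = 1 := by rw [e]; group
  · exact hS.not_fix hd.hw₀ hd.hw₁ e

theorem omega_comm : ⁅omegaCenterOf T, K ⊔ T⁆ ≠ ⊥ := by
  obtain ⟨z, hz, hzW, hz1, huniq, -, -⟩ := O.split'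
  obtain ⟨d, hS⟩ := setup O
  have hzΩ : z ∈ omegaCenterOf T := by
    refine mem_Z₁.mpr ⟨Zo_T hz, fun s hs => ?_, ?_⟩
    · have h1 := O.zfix hz hzW hz1 huniq hs
      calc s * z = (s * z * s⁻¹) * s := by group
        _ = z * s := by rw [h1]
    · rw [pow_two]
      exact Zo_sq hz
  intro hbot
  have h1 := Subgroup.commutator_mem_commutator hzΩ ((le_sup_left : K ≤ K ⊔ T) hS.hgK)
  rw [hbot, Subgroup.mem_bot, commutatorElement_def] at h1
  apply hS.not_fix hzW hz1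
  have h2 : z * d * z⁻¹ = d := by
    calc z * d * z⁻¹ = (z * d * z⁻¹ * d⁻¹) * d := by group
      _ = d := by rw [h1, one_mul]
  calc d * z * d⁻¹ = (z * d * z⁻¹) * z * d⁻¹ := by rw [h2]
    _ = z := by group

/-- All the facts about `P = ⟨K, T⟩`. -/
theorem pf : centralizer (pCoreOf 2 (K ⊔ T) : Set G) ≤ pCoreOf 2 (K ⊔ T) ∧ IsSylowTwoIn T (K ⊔ T) ∧
    (pCoreOf 2 (K ⊔ T)).relIndex (K ⊔ T) = 6 ∧ ¬ ⁅K ⊔ T, K ⊔ T⁆ ≤ pCoreOf 2 (K ⊔ T) ∧
    ⁅omegaCenterOf T, K ⊔ T⁆ ≠ ⊥ ∧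
    ∃ L' : Subgroup G, IsMaximalTwoLocal L' ∧ K ⊔ T ≤ L' ∧ IsSylowTwoIn T L' ∧
      ∀ L'' : Subgroup G, IsMaximalTwoLocal L'' → K ⊔ T ≤ L'' → L'' = L' := by
  refine ⟨cent_P O, Sy_P O, idx6 O, noncomm O, omega_comm O, L, O.isMax, P_le_L O, O.Sy, fun L'' hL'' hle => ?_⟩
  rw [O.hLd]
  exact O.h.unique_L O.J₁ O.M₁ hL'' (sup_le (le_sup_left.trans hle)
    ((thompson_le T).trans (le_sup_right.trans hle)))

/-- The flip data. -/
theorem fd {g f : G} {S₂ : Subgroup G} (hS₂ : IsPGroup 2 S₂) (hTS : T ≤ S₂) (hgS : g ∈ S₂) (hgT : g ∉ T)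
    (hgN : g ∈ normalizer (T : Set G)) (hg2 : g * g ∈ T) (hf : f ∈ Zo T) (hfW : f ∈ wOf K) (hf1 : f ≠ 1)
    (huniq : ∀ b ∈ Zo T, b ∈ wOf K → b = 1 ∨ b = f) : FD (K ⊔ T) T (QQ T K) (wOf K) f g := by
  haveI : Fact (Nat.Prime 2) := ⟨Nat.prime_two⟩
  obtain ⟨d, hS⟩ := setup O
  have hfix := fun s hs => O.zfix (s := s) hf hfW hf1 huniq hs
  obtain ⟨u, hu, hu1, huf, hc⟩ := hS.hW.coords hfW hf1
  have hd : Cfsg.Agent.Lib.LocalEven.JComp.Setup.Coord T (wOf K) f u := ⟨hfW, hf1, hfix, hu, hu1, huf, hc⟩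
  have hWsq := hS.hW.2
  have hWc := fun {a b : G} (ha : a ∈ wOf K) (hb : b ∈ wOf K) => hS.hW.comm ha hb
  have hff : f * f = 1 := hWsq f hfW
  have huu : u * u = 1 := hWsq u hu
  have hPN := QQ_le_N O
  have hPW : K ⊔ T ≤ normalizer (wOf K : Set G) := sup_le hS.hKW hS.hSW
  refine
    { QT := inf_le_left
      TP := le_sup_right
      WQ := fun w hw => ⟨hS.hQS (hS.hWQ hw), hS.hWC hw⟩
      QN := fun p hp q hq => conj_mem (hPN hp) hq
      WN := fun p hp w hw => conj_mem (hPW hp) hw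
      fW := hfW
      f1 := hf1
      Wsq := hWsq
      Wc := ?_
      w0 := ⟨u, hu, hu1, huf⟩
      fC := ?_
      QC := fun q hq w hw => ((mem_centralizer_iff.mp hq.2) w hw).symm
      Ttr := ?_
      CP := ?_
      τ₀ := ?_
      p₀ := ?_
      gT := fun t ht => conj_mem hgN ht
      gT' := fun t ht => conj_inv_mem hgN ht
      g2 := hg2
      O2 := ?_ }
  · -- `Wc`
    intro a ha b hb ha1 haf hb1 hbf
    have key : ∀ x ∈ wOf K, x ≠ 1 → x ≠ f → x = u ∨ x = f * u := by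
      intro x hx hx1 hxf
      rcases hc x hx with e | e | e | e
      · exact absurd e hx1
      · exact absurd e hxf
      · exact Or.inl e
      · exact Or.inr e
    rcases key a ha ha1 haf with ea | ea <;> rcases key b hb hb1 hbf with eb | eb
    · left
      rw [ea, eb]
    · right
      rw [ea, eb]
      exact hWc hfW hu
    · right
      rw [ea, eb]
      calc u = u * (f * f) := by rw [hff, mul_one]
        _ = (u * f) * f := by group
        _ = f * u * f := by rw [hWc hu hfW]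
    · left
      rw [ea, eb]
  · intro t ht
    calc t * f = (t * f * t⁻¹) * t := by group
      _ = f * t := by rw [hfix t ht]
  · -- `Ttr`
    intro t ht htQ w hw hw1 hwf
    have htC : t ∉ centralizer (wOf K : Set G) := fun hx => htQ ⟨ht, hx⟩
    have hm := hS.move_of_not hd ht htC
    rcases hc w hw with e | e | e | e
    · exact absurd e hw1
    · exact absurd e hwf
    · rw [e, hm]
      exact hWc hfW hu
    · rw [e]
      calc t * (f * u) * t⁻¹ = (t * f * t⁻¹) * (t * u * t⁻¹) := by group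
        _ = f * (f * u) := by rw [hfix t ht, hm]
        _ = f * (u * f) := by rw [hWc hfW hu]
        _ = f * u * f := by group
  · -- `CP`
    intro p hp hpf
    rw [sup_comm] at hp
    obtain ⟨t, ht, k, hk, rfl⟩ := Cfsg.Agent.Lib.Components.Basic.mem_sup_of_le_normalizer O.TK hp
    have hkf : k * f * k⁻¹ = f := by
      have h1 := hfix t⁻¹ (T.inv_mem ht)
      calc k * f * k⁻¹ = t⁻¹ * ((t * k) * f * (t * k)⁻¹) * t⁻¹⁻¹ := by group
        _ = t⁻¹ * f * t⁻¹⁻¹ := by rw [hpf]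
        _ = f := h1
    refine T.mul_mem ht (hS.hQS ?_)
    by_contra hkQ
    have hle : K ≤ centralizer ({f} : Set G) := by
      refine index3_le hS.hQK hS.hK3 ?_ hk ?_ hkQ
      · intro q hq
        rw [mem_centralizer_singleton_iff]
        exact ((mem_centralizer_iff.mp (hS.hQW hq)) f hfW).symm
      · rw [mem_centralizer_singleton_iff]
        calc k * f = (k * f * k⁻¹) * k := by group
          _ = f * k := by rw [hkf]
    have h2 := hle hS.hgK
    rw [mem_centralizer_singleton_iff] at h2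
    apply hS.not_fix hfW hf1
    rw [h2]
    group
  · -- `τ₀`
    obtain ⟨a, haT, haW⟩ := exists_out O
    exact ⟨a, haT, fun hx => haW hx.2⟩
  · -- `p₀`
    obtain ⟨k, hk, hkT⟩ := SetLike.not_le_iff_exists.mp (K_not_le_T O)
    exact ⟨k, (le_sup_left : K ≤ K ⊔ T) hk, hkT⟩
  · -- `O2`
    intro U hUQ hPU hgU
    by_contra hne
    have hU2 : IsPGroup 2 U := O.h.hTp.to_le (hUQ.trans inf_le_left)
    have hloc : IsTwoLocal (normalizer (U : Set G)) := ⟨U, hU2, hne, rfl⟩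
    have hPN' : K ⊔ T ≤ normalizer (U : Set G) := fun p hp =>
      nrm_of_conj (hPU p hp) (fun x hx => by
        have := hPU p⁻¹ ((K ⊔ T).inv_mem hp) x hx
        simpa using this)
    have hgN' : g ∈ normalizer (U : Set G) := mem_normalizer_of_conj_le fun y hy => hgU y hy
    have h1 := O.h.le_norm O.J₁ O.M₁ hloc (le_sup_left.trans hPN')
      ((thompson_le T).trans (le_sup_right.trans hPN'))
    rw [← O.hLd] at h1
    apply (O.conj_not_le hS₂ hTS hgS hgT hgN).2.1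
    rintro _ ⟨k, hk, rfl⟩
    exact h1 ((normalizer (U : Set G)).mul_mem ((normalizer (U : Set G)).mul_mem hgN'
      (hPN' ((le_sup_left : K ≤ K ⊔ T) hk))) ((normalizer (U : Set G)).inv_mem hgN'))

end

end Cfsg.Agent.Lib.JSub.PS
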