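import Cfsg.Agent.Lib.JSub.PS

/-!
# Two `J`-components generating a group without `O₂`
-/

set_option autoImplicit false
set_option linter.unusedSectionVars false
set_option linter.unusedSimpArgs false
set_option linter.unusedVariables false
set_option linter.style.haveILetI false

open scoped commutatorElement

namespace Cfsg.Agent.Lib.JSub.Pair

open Cfsg Subgroup
open Cfsg.Agent.Lib.JSub.Main
open Cfsg.Agent.Lib.JSub.Zero
open Cfsg.Agent.Lib.JSub.Exist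
open Cfsg.Agent.Lib.JSub.Strad
open Cfsg.Agent.Lib.JSub.Unique
open Cfsg.Agent.Lib.JSub.Split
open Cfsg.Agent.Lib.JSub.Fam
open Cfsg.Agent.Lib.JSub.Tri
open Cfsg.Agent.Lib.JSub.Flip
open Cfsg.Agent.Lib.JSub.PS
open Cfsg.Agent.Lib.PointStab.Step (nrm_of_conj conj_mem conj_inv_mem mem_Z₁ Z₁)
open Cfsg.Agent.Lib.PLocal.Thompson (IsMaxIn jOf thompsonSubgroupOf_eq IsAbExp exists_isMaxIn)
open Cfsg.Agent.Lib.LocalStruct.PCoreOf
open Cfsg.Agent.Lib.LocalEven.JComp (Setup exists_setup K_le_normalizer_wOf normalizer_le_wOf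
  index3_le index3_sq normalizer_le_omegaCenterOf normalizer_le_pCoreOf IsFour conj_mem_centralizer)
open Cfsg.Agent.Lib.LocalEven.Util (mem_normalizer_of_conj_le)
open Cfsg.Agent.Lib.Coprime.Action (le_of_normal_of_isSylowIn)

variable {G : Type*} [Group G] [Finite G]

theorem mEAO_conj (T : Subgroup G) (l : G) :
    maxElemAbelianOrder (T.map (MulAut.conj l).toMonoidHom) = maxElemAbelianOrder T := by
  obtain ⟨A, hA⟩ := exists_isMaxIn 2 T
  rw [mEAO_eq hA, mEAO_eq (IsMaxIn.map_equiv hA (MulAut.conj l)), card_map_conj]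

/-- The family is invariant under conjugation in `L`. -/
theorem maxStrad_conj {L T : Subgroup G} {l : G} (hl : l ∈ L) (hT : T ∈ maxStraddlingTwoSubgroups L) :
    T.map (MulAut.conj l).toMonoidHom ∈ maxStraddlingTwoSubgroups L := by
  obtain ⟨⟨hTp, hT1, hTL, X, hX, hTX, hXL⟩, hmax⟩ := hT
  refine ⟨⟨hTp.map _, ?_, ?_, X.map (MulAut.conj l).toMonoidHom, isTwoLocal_map hX l, Subgroup.map_mono hTX, ?_⟩, ?_⟩
  · intro h
    apply hT1
    have := congrArg (fun A : Subgroup G => A.map (MulAut.conj l⁻¹).toMonoidHom) h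
    simp only [map_conj_conj_inv] at this
    rw [this]
    simp
  · rintro _ ⟨t, ht, rfl⟩
    exact L.mul_mem (L.mul_mem hl (hTL ht)) (L.inv_mem hl)
  · intro hle
    apply hXL
    intro x hx
    have h1 : l * x * l⁻¹ ∈ L := hle ⟨x, hx, rfl⟩
    have e : x = l⁻¹ * (l * x * l⁻¹) * l := by group
    rw [e]
    exact L.mul_mem (L.mul_mem (L.inv_mem hl) h1) hl
  · intro T' hT'
    obtain ⟨h1, h2⟩ := hmax T' hT'
    rw [mEAO_conj, thompson_map, card_map_conj, card_map_conj]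
    exact ⟨h1, h2⟩

/-- A member of the family inside a given Sylow subgroup of `L`. -/
theorem exists_maxStrad_le {L T : Subgroup G} (hTL : IsSylowTwoIn T L) (hne : (straddlingTwoSubgroups L).Nonempty) :
    ∃ T' ∈ maxStraddlingTwoSubgroups L, T' ≤ T := by
  obtain ⟨T₀, hT₀⟩ := exists_maxStrad hne
  obtain ⟨P, hP, hPL⟩ := exists_sylow_in hT₀.1.1 hT₀.1.2.2.1
  obtain ⟨l, hl, rfl⟩ := exists_conj_sylow hTL hPL
  refine ⟨_, maxStrad_conj (L.inv_mem hl) hT₀, ?_⟩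
  have h2 := Subgroup.map_mono (f := (MulAut.conj l⁻¹).toMonoidHom) hP
  rwa [map_conj_conj_inv] at h2

/-- The conclusion for two components. -/
theorem concl {M₁ M₂ T L₁ L₂ K₁ K₂ : Subgroup G} {S₁ S₂ : Sylow 2 G} (O₁ : One M₁ T L₁ K₁ S₁)
    (O₂ : One M₂ T L₂ K₂ S₂) (hK₂ : ¬ K₂ ≤ L₁) :
    K₁ ≠ K₂ ∧ IsJComponent T K₁ ∧ IsJComponent T K₂ ∧ pCoreOf 2 ((K₁ ⊔ T) ⊔ (K₂ ⊔ T)) = ⊥ ∧
      ∀ P ∈ [K₁ ⊔ T, K₂ ⊔ T],
        centralizer (pCoreOf 2 P : Set G) ≤ pCoreOf 2 P ∧ IsSylowTwoIn T P ∧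
        (pCoreOf 2 P).relIndex P = 6 ∧ ¬ ⁅P, P⁆ ≤ pCoreOf 2 P ∧ ⁅omegaCenterOf T, P⁆ ≠ ⊥ ∧
        ∃ L : Subgroup G, IsMaximalTwoLocal L ∧ P ≤ L ∧ IsSylowTwoIn T L ∧
          ∀ L' : Subgroup G, IsMaximalTwoLocal L' → P ≤ L' → L' = L := by
  haveI : Fact (Nat.Prime 2) := ⟨Nat.prime_two⟩
  refine ⟨fun h => hK₂ (h ▸ O₁.KL), O₁.J₁, O₂.J₁, ?_, ?_⟩
  · by_contra hne
    have hloc : IsTwoLocal (normalizer (pCoreOf 2 ((K₁ ⊔ T) ⊔ (K₂ ⊔ T)) : Set G)) :=
      ⟨_, isPGroup_pCoreOf _, hne, rfl⟩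
    have hle := le_normalizer_pCoreOf (p := 2) ((K₁ ⊔ T) ⊔ (K₂ ⊔ T))
    have h1 := O₁.h.le_norm O₁.J₁ O₁.M₁ hloc (le_sup_left.trans (le_sup_left.trans hle))
      ((thompson_le T).trans (le_sup_right.trans (le_sup_left.trans hle)))
    rw [← O₁.hLd] at h1
    exact hK₂ ((le_sup_left.trans (le_sup_right.trans hle)).trans h1)
  · intro P hP
    simp only [List.mem_cons, List.not_mem_nil, or_false] at hP
    rcases hP with rfl | rfl
    · exact pf O₁
    · exact pf O₂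

/-- `O₂` under conjugation by an element of `N(T)`. -/
theorem pcore_conj_ne {T K : Subgroup G} {n : G} (hn : n ∈ normalizer (T : Set G)) (hne : pCoreOf 2 (K ⊔ T) ≠ ⊥) :
    pCoreOf 2 (K.map (MulAut.conj n).toMonoidHom ⊔ T) ≠ ⊥ := by
  have hTe : T.map (MulAut.conj n).toMonoidHom = T := Subgroup.mem_normalizer_iff_map_conj_eq.mp hn
  have e : K.map (MulAut.conj n).toMonoidHom ⊔ T = (K ⊔ T).map (MulAut.conj n).toMonoidHom := by
    rw [Subgroup.map_sup, hTe]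
  rw [e, ← pCoreOf_conj]
  intro h
  apply hne
  have h2 := congrArg (fun A : Subgroup G => A.map (MulAut.conj n⁻¹).toMonoidHom) h
  simp only [map_conj_conj_inv] at h2
  rw [h2]
  simp

/-- The component conjugated by an element of `N(T)` in `M`. -/
theorem outside_conj {M T K : Subgroup G} {S' : Sylow 2 G} {n : G} (h : Hyp M T S') (hK : K ∈ jComponentsOutside M T)
    (hnM : n ∈ M) (hn : n ∈ normalizer (T : Set G)) : K.map (MulAut.conj n).toMonoidHom ∈ jComponentsOutside M T := by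
  have hJ := isJ_map hK.1.1 (norm_thompson hn)
  have hKM : ¬ K.map (MulAut.conj n).toMonoidHom ≤ M := by
    intro hle
    apply hK.2.1
    intro k hk
    have h1 : n * k * n⁻¹ ∈ M := hle ⟨k, hk, rfl⟩
    have e : k = n⁻¹ * (n * k * n⁻¹) * n := by group
    rw [e]
    exact M.mul_mem (M.mul_mem (M.inv_mem hnM) h1) hnM
  exact ⟨h.zero_of_not_le hJ hKM, hKM, pcore_conj_ne hn hK.2.2⟩

/-- The case with a flip. -/
theorem case_flip {M T L K : Subgroup G} {S : Sylow 2 G} (O : One M T L K S) {g : G} {S₂ : Subgroup G}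
    (hS₂ : IsPGroup 2 S₂) (hTS : T ≤ S₂) (hgS : g ∈ S₂) (hgT : g ∉ T) (hgN : g ∈ normalizer (T : Set G)) :
    ∃ K₂ : Subgroup G, K ≠ K₂ ∧ IsJComponent T K ∧ IsJComponent T K₂ ∧ pCoreOf 2 ((K ⊔ T) ⊔ (K₂ ⊔ T)) = ⊥ ∧
      ∀ P ∈ [K ⊔ T, K₂ ⊔ T],
        centralizer (pCoreOf 2 P : Set G) ≤ pCoreOf 2 P ∧ IsSylowTwoIn T P ∧
        (pCoreOf 2 P).relIndex P = 6 ∧ ¬ ⁅P, P⁆ ≤ pCoreOf 2 P ∧ ⁅omegaCenterOf T, P⁆ ≠ ⊥ ∧
        ∃ L : Subgroup G, IsMaximalTwoLocal L ∧ P ≤ L ∧ IsSylowTwoIn T L ∧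
          ∀ L' : Subgroup G, IsMaximalTwoLocal L' → P ≤ L' → L' = L := by
  have hM := O.h.hJM (norm_thompson hgN)
  have hK := outside_conj O.h O.hK hM hgN
  have O₂ : One M T _ (K.map (MulAut.conj g).toMonoidHom) S := ⟨O.h, O.hO, hK, rfl⟩
  exact ⟨_, concl O O₂ (O.conj_not_le hS₂ hTS hgS hgT hgN).2.1⟩

/-- A step in the `2`-power map. -/
theorem exists_step {A : Subgroup G} {q : G} (hq : q ∉ A) (h2 : ∃ n, q ^ (2 ^ n) = 1) :
    ∃ i, q ^ (2 ^ i) ∉ A ∧ q ^ (2 ^ i) * q ^ (2 ^ i) ∈ A := by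
  classical
  have hex : ∃ n, q ^ (2 ^ n) ∈ A := by
    obtain ⟨n, hn⟩ := h2
    exact ⟨n, by rw [hn]; exact A.one_mem⟩
  have hspec := Nat.find_spec hex
  rcases hk : Nat.find hex with _ | i
  · rw [hk] at hspec
    simp only [pow_zero, pow_one] at hspec
    exact absurd hspec hq
  · refine ⟨i, Nat.find_min hex (by omega), ?_⟩
    rw [hk] at hspec
    have e : q ^ (2 ^ i) * q ^ (2 ^ i) = q ^ (2 ^ (i + 1)) := by
      rw [← pow_add]
      congr 1
      ring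
    rw [e]
    exact hspec

/-- The uniqueness case cannot happen. -/
theorem uniq {T L K : Subgroup G} {S : Sylow 2 G}
    (O : One (normalizer (thompsonSubgroupOf 2 T : Set G)) T L K S) (hS₁ : (S : Subgroup G) = T)
    (hall : ∀ K' ∈ jComponentsOutside (normalizer (thompsonSubgroupOf 2 T : Set G)) T, K' ≤ L) : False := by
  haveI : Fact (Nat.Prime 2) := ⟨Nat.prime_two⟩
  -- Step 1: `N(J) ≤ N(T)`
  have hΩ : omegaCenterOf T = Zo T := by
    rcases O.case_eq hS₁ with h | h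
    · rw [← h.1, hS₁]
    · rw [← h.1, hS₁]
  have hCT : centralizer (Zo T : Set G) ≤ normalizer (T : Set G) := by
    have := O.h.hZ S
    rwa [hS₁, hΩ] at this
  have hTC : T ≤ centralizer (Zo T : Set G) := by
    intro t ht
    rw [mem_centralizer_iff]
    intro a ha
    rw [← hΩ] at ha
    exact ((mem_Z₁.mp ha).2.1 t ht).symm
  have hNT : normalizer (thompsonSubgroupOf 2 T : Set G) ≤ normalizer (T : Set G) := by
    intro n hn
    have hnZ : n ∈ normalizer (Zo T : Set G) := normalizer_le_omegaCenterOf hn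
    have hTn : T.map (MulAut.conj n).toMonoidHom ≤ normalizer (T : Set G) := by
      rintro _ ⟨t, ht, rfl⟩
      exact hCT (conj_mem_centralizer hnZ (hTC ht))
    have hp : IsPGroup 2 (T.map (MulAut.conj n).toMonoidHom ⊔ T : Subgroup G) :=
      IsPGroup.to_sup_of_normal_right' (O.h.hTp.map _) O.h.hTp hTn
    have heq : T.map (MulAut.conj n).toMonoidHom ⊔ T = T := by
      have := S.is_maximal' (Q := T.map (MulAut.conj n).toMonoidHom ⊔ T) hp (by rw [hS₁]; exact le_sup_right)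
      rwa [hS₁] at this
    have hle : T.map (MulAut.conj n).toMonoidHom ≤ T := by
      have h1 : T.map (MulAut.conj n).toMonoidHom ≤ T.map (MulAut.conj n).toMonoidHom ⊔ T := le_sup_left
      rwa [heq] at h1
    exact mem_normalizer_of_conj_le fun t ht => hle ⟨t, ht, rfl⟩
  -- Step 2: `N(J) ≤ L`
  have hNL : normalizer (thompsonSubgroupOf 2 T : Set G) ≤ L := by
    intro n hn
    have hK₃ := outside_conj O.h O.hK hn (hNT hn)
    exact mem_of_conj_le O.h hK₃.1.1 hK₃.2.1 O.isMax O.Rne O.JL hn (hall _ hK₃) (Subgroup.map_mono O.KL)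
  -- Step 3: every `2`-local subgroup containing `T` lies in `L`
  have hU2 : ∀ X : Subgroup G, IsTwoLocal X → T ≤ X → X ≤ L := by
    intro X hX hTX
    have hs : IsSylowTwoIn T X := by
      refine ⟨hTX, O.h.hTp, ?_⟩
      have h1 := Subgroup.relIndex_mul_index hTX
      have h2 : ¬ 2 ∣ T.index := by
        rw [← hS₁]
        exact S.not_dvd_index
      rw [← Nat.not_even_iff_odd, even_iff_two_dvd]
      intro h3
      exact h2 (by rw [← h1]; exact dvd_mul_of_dvd_left h3 _)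
    obtain ⟨C, E, Y, V, hCE⟩ := exists_CE5 O.h.hZ (O.h.hN X hX) O.h.hTp hs (hRc_of_local O.h.hL hX)
    refine hCE.L_le O.Sy.1 (inf_le_right.trans hNL) fun K' hK' hK'X => hall K' ?_
    have hnot : ¬ K' ≤ normalizer (thompsonSubgroupOf 2 T : Set G) := fun hle =>
      not_le_norm hK' le_rfl O.h.hJp hle
    have hRT : pCoreOf 2 X ≤ T := le_of_normal_of_isSylowIn (isSylowIn_of_two hs) (pCoreOf_le X)
      (isPGroup_pCoreOf X) (le_normalizer_pCoreOf X)
    have hne := pCoreOf_ne_bot O.h.hT1 hTX (hRc_of_local O.h.hL hX) hRT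
    have hle : pCoreOf 2 X ≤ pCoreOf 2 (K' ⊔ T) :=
      le_pCoreOf (hRT.trans le_sup_right) ((sup_le hK'X hTX).trans (le_normalizer_pCoreOf X)) (isPGroup_pCoreOf X)
    refine ⟨O.h.zero_of_not_le hK' hnot, hnot, fun h => hne (le_bot_iff.mp (h ▸ hle))⟩
  -- Step 4: a member of the family for `L`
  obtain ⟨T', hT', hT'T⟩ := exists_maxStrad_le O.Sy O.strad_ne
  have hMJ' : normalizer (thompsonSubgroupOf 2 (S : Subgroup G) : Set G) ≤ L := by
    rw [hS₁]
    exact hNL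
  obtain ⟨K', hK'⟩ := s2949 O.h.hL O.h.hN O.h.hZ hMJ' hT'
  have O' : One L T' (normalizer (WW T' K' : Set G)) K' S :=
    ⟨⟨O.h.hL, O.h.hN, O.h.hZ, hMJ', hT'⟩, O.hO, hK', rfl⟩
  have hne : T' ≠ T := by
    rintro rfl
    obtain ⟨-, -, -, X, hX, hTX, hXL⟩ := hT'.1
    exact hXL (hU2 X hX hTX)
  have hlt : T' < T := lt_of_le_of_ne hT'T hne
  -- The data
  obtain ⟨d, hS⟩ := setup O
  have hVT : wOf K ≤ T := hS.hWQ.trans hS.hQS
  obtain ⟨f, hf, hfW, hf1, huniq, hfnot, hs⟩ := O'.split'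
  have mkFD : ∀ g, g ∈ T → g ∉ T' → g ∈ normalizer (T' : Set G) → g * g ∈ T' →
      FD (K' ⊔ T') T' (QQ T' K') (wOf K') f g := fun g hg hgT hgN hg2 =>
    fd O' O.h.hTp hT'T hg hgT hgN hg2 hf hfW hf1 huniq
  by_cases hVT' : wOf K ≤ T'
  swap
  · -- Case (i): a flip inside `W_K`
    have hTV : T' ≤ normalizer (wOf K : Set G) := hT'T.trans hS.hSW
    have hsupT : T' ⊔ wOf K ≤ T := sup_le hT'T hVT
    have hlt2 : T' < T' ⊔ wOf K := by
      refine lt_of_le_of_ne le_sup_left fun h => hVT' ?_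
      rw [h]
      exact le_sup_right
    obtain ⟨x, hx, hxT, hxN⟩ := exists_lt_normalizer (O.h.hTp.to_le hsupT) hlt2
    obtain ⟨t, ht, v, hv, rfl⟩ := Cfsg.Agent.Lib.Components.Basic.mem_sup_of_le_normalizer hTV hx
    have hvT : v ∉ T' := fun hh => hxT (T'.mul_mem ht hh)
    have hvN : v ∈ normalizer (T' : Set G) := by
      have h1 := (normalizer (T' : Set G)).mul_mem ((normalizer (T' : Set G)).inv_mem
        (Subgroup.le_normalizer ht)) hxN
      simpa using h1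
    have hvv : v * v = 1 := hS.hW.2 v hv
    have hvi : v⁻¹ = v := hS.hW.inv_eq hv
    have F := mkFD v (hVT hv) hvT hvN (by rw [hvv]; exact T'.one_mem)
    obtain ⟨⟨w, hw, hwQ⟩, -⟩ := F.main
    have hwT' : w ∈ T' := F.QT (F.WQ hw)
    have hcV : w * v * w⁻¹ * v⁻¹ ∈ wOf K :=
      (wOf K).mul_mem (conj_mem (hS.hSW (hT'T hwT')) hv) ((wOf K).inv_mem hv)
    have hcT : w * v * w⁻¹ * v⁻¹ ∈ T' := by
      have h1 := T'.mul_mem hwT' (F.gT _ (T'.inv_mem hwT'))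
      have e : w * (v * w⁻¹ * v⁻¹) = w * v * w⁻¹ * v⁻¹ := by group
      rwa [e] at h1
    have hcQ : w * v * w⁻¹ * v⁻¹ ∉ QQ T' K' := by
      intro hx
      apply hwQ
      have h1 := (QQ T' K').inv_mem ((QQ T' K').mul_mem (((QQ T' K').inv_mem (F.WQ hw))) hx)
      have e : (w⁻¹ * (w * v * w⁻¹ * v⁻¹))⁻¹ = v * w * v⁻¹ := by group
      rw [e] at h1
      rwa [hvi] at *
    have hcg : v⁻¹ * (w * v * w⁻¹ * v⁻¹) * v = w * v * w⁻¹ * v⁻¹ := by
      have := hS.hW.comm hv hcV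
      calc v⁻¹ * (w * v * w⁻¹ * v⁻¹) * v = v⁻¹ * (v * (w * v * w⁻¹ * v⁻¹)) := by
            rw [mul_assoc v⁻¹, this]
        _ = w * v * w⁻¹ * v⁻¹ := by group
    have h3 := F.third hcT hcQ (by rwa [hcg])
    rw [hS.hW.2 _ hcV] at h3
    exact hf1 h3.symm
  -- `V` central in `T'` gives `V = Ω₁(Z(J(T')))`
  have hVeq : (∀ v ∈ wOf K, ∀ t ∈ T', t * v = v * t) → wOf K = Zo T' := by
    intro hc
    have hle : wOf K ≤ Zo T' := fun v hv =>
      mem_Zo_of_comm (hVT' hv) (hS.hW.2 v hv) fun j hj => hc v hv j (thompson_le T' hj)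
    have h4 : Nat.card ↥(Zo T') = 4 := by
      have hdvd : Nat.card ↥(wOf K) ∣ Nat.card ↥(Zo T') := Subgroup.card_dvd_of_le hle
      rw [hS.hW.1] at hdvd
      have hlt' : T' ≠ (S : Subgroup G) := by rw [hS₁]; exact hne
      have hTS : T' ≤ (S : Subgroup G) := by rw [hS₁]; exact hT'T
      rcases O'.case_lt hTS hlt' with ⟨-, h2⟩ | ⟨-, h4, -⟩
      · rw [h2] at hdvd
        norm_num at hdvd
      · exact h4
    exact Subgroup.eq_of_le_of_card_ge hle (by rw [h4, hS.hW.1])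
  obtain ⟨w₀, u, hd⟩ := hS.exists_coord
  by_cases hQ₀ : QQ T K ≤ T'
  · -- Case: `T' = C_T(W_K)`
    have hT'Q : T' ≤ centralizer (wOf K : Set G) := by
      intro t ht
      by_contra htC
      apply hne
      apply le_antisymm hT'T
      intro y hy
      by_cases hyC : y ∈ centralizer (wOf K : Set G)
      · exact hQ₀ ⟨hy, hyC⟩
      · have h1 := hS.mul_mem_of_not hd (hT'T ht) htC hy hyC
        have h2 : t * y ∈ T' := hQ₀ ⟨T.mul_mem (hT'T ht) hy, h1⟩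
        have h3 := T'.mul_mem (T'.inv_mem ht) h2
        simpa using h3
    have hEq : T' = QQ T K := le_antisymm (le_inf hT'T hT'Q) hQ₀
    have hVe := hVeq fun v hv t ht => ((mem_centralizer_iff.mp (hT'Q ht)) v hv).symm
    have hfV : f ∈ wOf K := by
      rw [hVe]
      exact hf
    obtain ⟨a, haT, haC⟩ := exists_out O
    have haT' : a ∉ T' := fun h => haC (hT'Q h)
    have haN : a ∈ normalizer (T' : Set G) := by
      rw [hEq]
      exact hS.S_le_norm haT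
    have ha2 : a * a ∈ T' := hQ₀ ⟨T.mul_mem haT haT, hS.mul_mem_of_not hd haT haC haT haC⟩
    have F := mkFD a haT haT' haN ha2
    obtain ⟨v₃, hv₃, hsq⟩ := F.exists_sq
    have hdN : d ∈ normalizer (T' : Set G) := by
      rw [hEq]
      exact hS.K_le_norm hS.hgK
    have hx : d * v₃ * d⁻¹ ∈ T' := conj_mem hdN hv₃
    have e : (d * v₃ * d⁻¹) * (d * v₃ * d⁻¹) = d * f * d⁻¹ := by
      rw [← hsq]
      group
    rcases F.sq_cases hx with h | h
    · rw [e] at h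
      apply hf1
      calc f = d⁻¹ * (d * f * d⁻¹) * d := by group
        _ = 1 := by rw [h]; group
    · rw [e] at h
      exact hS.not_fix hfV hf1 h
  · -- Case: a flip centralizing `W_K`
    have hTQ : T' ≤ normalizer (QQ T K : Set G) := hT'T.trans hS.S_le_norm
    have hsupT : T' ⊔ QQ T K ≤ T := sup_le hT'T inf_le_left
    have hlt2 : T' < T' ⊔ QQ T K := by
      refine lt_of_le_of_ne le_sup_left fun h => hQ₀ ?_
      rw [h]
      exact le_sup_right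
    obtain ⟨x, hx, hxT, hxN⟩ := exists_lt_normalizer (O.h.hTp.to_le hsupT) hlt2
    obtain ⟨t, ht, q, hq, rfl⟩ := Cfsg.Agent.Lib.Components.Basic.mem_sup_of_le_normalizer hTQ hx
    have hqT' : q ∉ T' := fun hh => hxT (T'.mul_mem ht hh)
    have hqN : q ∈ normalizer (T' : Set G) := by
      have h1 := (normalizer (T' : Set G)).mul_mem ((normalizer (T' : Set G)).inv_mem
        (Subgroup.le_normalizer ht)) hxN
      simpa using h1
    have hqT : q ∈ T := hq.1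
    obtain ⟨i, hi1, hi2⟩ := exists_step hqT' (by
      obtain ⟨n, hn⟩ := O.h.hTp ⟨q, hqT⟩
      exact ⟨n, by simpa using congrArg Subtype.val hn⟩)
    set g' := q ^ (2 ^ i) with hg'
    have hg'Q : g' ∈ QQ T K := pow_mem hq _
    have hg'N : g' ∈ normalizer (T' : Set G) := pow_mem hqN _
    have F := mkFD g' hg'Q.1 hi1 hg'N hi2
    have hcomm : ∀ v ∈ wOf K, g'⁻¹ * v * g' = v := by
      intro v hv
      have := (mem_centralizer_iff.mp hg'Q.2) v hv
      calc g'⁻¹ * v * g' = g'⁻¹ * (v * g') := by group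
        _ = g'⁻¹ * (g' * v) := by rw [this]
        _ = v := by group
    have hcent : ∀ v ∈ wOf K, ∀ t ∈ T', t * v = v * t := by
      intro v hv t ht
      rcases F.inv_cases (hVT' hv) (hS.hW.2 v hv) with h | h
      · exact F.E_central h (by rwa [hcomm v hv]) ht
      · rw [hcomm v hv] at h
        exact F.E_central h (by rwa [hcomm v hv]) ht
    have hVe := hVeq hcent
    have hfV : f ∈ wOf K := by
      rw [hVe]
      exact hf
    obtain ⟨a, haV, ha1, haf, -⟩ := hS.hW.coords hfV hf1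
    obtain ⟨y, hy, hy1, hyV⟩ : ∃ y ∈ FF T' K', y ≠ 1 ∧ y ∈ wOf K := by
      rcases hs a (by rw [← hVe]; exact haV) with h | h
      · exact ⟨a, h, ha1, haV⟩
      · refine ⟨a * f, h, fun e => haf ?_, (wOf K).mul_mem haV hfV⟩
        rw [mul_eq_one_iff_eq_inv, Zo_inv hf] at e
        exact e
    have hg'y : g' * y = y * g' := ((mem_centralizer_iff.mp hg'Q.2) y hyV).symm
    apply (O'.conj_not_le O.h.hTp hT'T hg'Q.1 hi1 hg'N).2.1
    rintro _ ⟨k, hk, rfl⟩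
    refine O'.cent_le hy hy1 ?_
    have hky := (mem_FF.mp hy).2 k hk
    have e1 : g'⁻¹ * y = y * g'⁻¹ := by
      calc g'⁻¹ * y = g'⁻¹ * (y * g') * g'⁻¹ := by group
        _ = g'⁻¹ * (g' * y) * g'⁻¹ := by rw [hg'y]
        _ = y * g'⁻¹ := by group
    show (g' * k * g'⁻¹) * y = y * (g' * k * g'⁻¹)
    calc g' * k * g'⁻¹ * y = g' * k * (g'⁻¹ * y) := by group
      _ = g' * k * (y * g'⁻¹) := by rw [e1]
      _ = g' * (k * y) * g'⁻¹ := by group
      _ = g' * (y * k) * g'⁻¹ := by rw [hky]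
      _ = (g' * y) * k * g'⁻¹ := by group
      _ = (y * g') * k * g'⁻¹ := by rw [hg'y]
      _ = y * (g' * k * g'⁻¹) := by group

/-- The main theorem. -/
theorem s2953 (hL : IsCharacteristicTwoType G) (hN : ∀ N : Subgroup G, IsTwoLocal N → Group.IsSolvable ↥N)
    (hZ : ∀ S : Sylow 2 G, centralizer (omegaCenterOf (S : Subgroup G) : Set G) ≤
      normalizer ((S : Subgroup G) : Set G)) (hO : Cfsg.pCore 2 G = ⊥) (S : Sylow 2 G) (M : Subgroup G)
    (hMJ : normalizer (thompsonSubgroupOf 2 (S : Subgroup G) : Set G) ≤ M) (T : Subgroup G)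
    (hT : T ∈ maxStraddlingTwoSubgroups M) :
    ∃ K₁ K₂ : Subgroup G, K₁ ≠ K₂ ∧ IsJComponent T K₁ ∧ IsJComponent T K₂ ∧
      pCoreOf 2 ((K₁ ⊔ T) ⊔ (K₂ ⊔ T)) = ⊥ ∧
      ∀ P ∈ [K₁ ⊔ T, K₂ ⊔ T],
        centralizer (pCoreOf 2 P : Set G) ≤ pCoreOf 2 P ∧ IsSylowTwoIn T P ∧
        (pCoreOf 2 P).relIndex P = 6 ∧ ¬ ⁅P, P⁆ ≤ pCoreOf 2 P ∧ ⁅omegaCenterOf T, P⁆ ≠ ⊥ ∧
        ∃ L : Subgroup G, IsMaximalTwoLocal L ∧ P ≤ L ∧ IsSylowTwoIn T L ∧
          ∀ L' : Subgroup G, IsMaximalTwoLocal L' → P ≤ L' → L' = L := by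
  haveI : Fact (Nat.Prime 2) := ⟨Nat.prime_two⟩
  have hM : Hyp M T S := ⟨hL, hN, hZ, hMJ, hT⟩
  obtain ⟨K₁, hK₁⟩ := s2949 hL hN hZ hMJ hT
  have O : One M T _ K₁ S := ⟨hM, hO, hK₁, rfl⟩
  obtain ⟨S₂, hS₂⟩ := hM.hTp.exists_le_sylow
  by_cases hne : T = S₂
  · -- `T` is a Sylow subgroup
    have hS₁ : (S₂ : Subgroup G) = T := hne.symm
    have hM₂ : Hyp M T S₂ := ⟨hL, hN, hZ, by rw [hS₁]; exact hM.hJM, hT⟩
    have O₂ : One M T _ K₁ S₂ := ⟨hM₂, hO, hK₁, rfl⟩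
    have hH₀ := O₂.hyp_N hS₁
    have hK₁' : K₁ ∈ jComponentsOutside (normalizer (thompsonSubgroupOf 2 T : Set G)) T :=
      ⟨hK₁.1, fun hle => not_le_norm hK₁.1.1 le_rfl hM.hJp hle, hK₁.2.2⟩
    have O₃ : One (normalizer (thompsonSubgroupOf 2 T : Set G)) T _ K₁ S₂ := ⟨hH₀, hO, hK₁', rfl⟩
    by_cases hall : ∀ K' ∈ jComponentsOutside (normalizer (thompsonSubgroupOf 2 T : Set G)) T,
        K' ≤ normalizer (WW T K₁ : Set G)
    · exact (uniq O₃ hS₁ hall).elim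
    · push Not at hall
      obtain ⟨K₂, hK₂, hK₂L⟩ := hall
      have O₄ : One (normalizer (thompsonSubgroupOf 2 T : Set G)) T _ K₂ S₂ := ⟨hH₀, hO, hK₂, rfl⟩
      exact ⟨K₁, K₂, concl O₃ O₄ hK₂L⟩
  · -- a flip
    have hlt : T < S₂ := lt_of_le_of_ne hS₂ hne
    obtain ⟨g, hgS, hgT, hgN⟩ := exists_lt_normalizer S₂.isPGroup' hlt
    obtain ⟨K₂, h⟩ := case_flip O S₂.isPGroup' hS₂ hgS hgT hgN
    exact ⟨K₁, K₂, h⟩

end Cfsg.Agent.Lib.JSub.Pair
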