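import Cfsg.Agent.Lib.JSub.TV
import Cfsg.Agent.Lib.LocalEven.Util

/-!
# Blocks of order three and transvections
-/

set_option autoImplicit false
set_option linter.unusedSectionVars false
set_option linter.unusedSimpArgs false
set_option linter.style.haveILetI false

namespace Cfsg.Agent.Lib.JSub.SnTV

open Cfsg.Agent.Lib.SolvFF.Core
open Cfsg.Agent.Lib.QuadAct.FFTrans
open Cfsg.Agent.Lib.JSub.TV (rho_mul eq_of_add tau_sq)

/-- Coordinates. -/
abbrev V3 := ZMod 2 × ZMod 2 × ZMod 2

def tt (v : V3) : V3 := (v.2.1, v.1 + v.2.1, v.2.2)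
def ftau (e1 e2 fb : ZMod 2) (v : V3) : ZMod 2 := v.1 + v.2.1 * fb + v.2.2 * (e1 + e2 * fb)
def tau (e1 e2 fb : ZMod 2) (v : V3) : V3 :=
  (v.1 + ftau e1 e2 fb v * e1, v.2.1 + ftau e1 e2 fb v * e2, v.2.2 + ftau e1 e2 fb v)
def w1 (e1 e2 fb : ZMod 2) (v : V3) : V3 := tt (tau e1 e2 fb (tt (tau e1 e2 fb v)))
def w2 (e1 e2 fb : ZMod 2) (v : V3) : V3 := tt (tau e1 e2 fb (tt (tt (tau e1 e2 fb v))))

set_option maxRecDepth 100000 in
theorem check : ∀ e1 e2 fb : ZMod 2,
    ((∀ v, w1 e1 e2 fb (w1 e1 e2 fb (w1 e1 e2 fb (w1 e1 e2 fb v))) = v) ∧ ∃ v, w1 e1 e2 fb v ≠ v) ∨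
    ((∀ v, w2 e1 e2 fb (w2 e1 e2 fb (w2 e1 e2 fb (w2 e1 e2 fb v))) = v) ∧ ∃ v, w2 e1 e2 fb v ≠ v) := by
  decide

variable {Γ : Type*} [Group Γ] [Finite Γ] {M : Type*} [AddCommGroup M] [Module (ZMod 2) M] [Finite M]
  {ρ : Γ →* Module.End (ZMod 2) M}

/-- The coordinate map. -/
def pi3 (a b c : M) (v : V3) : M := v.1 • a + v.2.1 • b + v.2.2 • c

theorem pi3_add (a b c : M) (u v : V3) : pi3 a b c (u + v) = pi3 a b c u + pi3 a b c v := by
  simp only [pi3, Prod.fst_add, Prod.snd_add, add_smul]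
  abel

theorem add_self_v3 : ∀ v : V3, v + v = 0 := by decide

theorem eq_of_add_v3 {u v : V3} (h : u + v = 0) : u = v := by
  calc u = u + (v + v) := by rw [add_self_v3, add_zero]
    _ = (u + v) + v := by rw [add_assoc]
    _ = v := by rw [h, zero_add]

theorem aux_pow {w : Γ} {S : M → Prop} (hS : ∀ x, S x → ρ (w ^ 4) x = x)
    (hp : ∃ n : ℕ, w ^ (3 ^ n) = 1) {x : M} (hx : S x) : ρ w x = x := by
  obtain ⟨n, hn⟩ := hp
  have h1 : orderOf w ∣ 3 ^ n := orderOf_dvd_of_pow_eq_one hn
  have hco : Nat.Coprime 4 (orderOf w) :=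
    Nat.Coprime.coprime_dvd_right h1 (Nat.Coprime.pow_right _ (by norm_num))
  obtain ⟨m, hm⟩ := exists_pow_eq_self_of_coprime hco
  have h2 : ∀ k : ℕ, ρ ((w ^ 4) ^ k) x = x := by
    intro k
    induction k with
    | zero => simp
    | succ k ih =>
      rw [pow_succ, rho_mul, hS x hx, ih]
  rw [← hm]
  exact h2 m

theorem pow4 (w : Γ) (x : M) : ρ (w ^ 4) x = ρ w (ρ w (ρ w (ρ w x))) := by
  have e : w ^ 4 = w * (w * (w * w)) := by simp only [pow_succ, pow_zero, one_mul, mul_assoc]
  rw [e, rho_mul, rho_mul, rho_mul]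

/-- The transvection must preserve the block. -/
theorem no_tv {t τ : Γ} {a e : M} {f : M →ₗ[ZMod 2] ZMod 2} (hT : TV ρ τ e f)
    (hfa : f a = 1) (hrel : a + ρ t a + ρ (t * t) a = 0)
    (hw : ρ t e + e = 0 ∨ ρ t e + e = a ∨ ρ t e + e = ρ t a ∨ ρ t e + e = ρ (t * t) a)
    (hea : e ≠ a) (heb : e ≠ ρ t a) (hec : e ≠ ρ (t * t) a) (hfix : ρ t a ≠ a)
    (hp1 : ∃ n : ℕ, (t * τ * t * τ) ^ (3 ^ n) = 1)
    (hp2 : ∃ n : ℕ, (t * τ * (t * t) * τ) ^ (3 ^ n) = 1) : False := by
  have he0 : e ≠ 0 := hT.e0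
  set b := ρ t a with hb
  have hc' : ρ (t * t) a = a + b := (eq_of_add hrel).symm
  have htb : ρ t b = a + b := by
    rw [hb, ← rho_mul, hc']
  have hch : ∀ x : M, x + x = 0 := add_self_eq
  -- the fixed vector
  obtain ⟨c, e1, e2, hc, he⟩ : ∃ (c : M) (e1 e2 : ZMod 2), ρ t c = c ∧ e = e1 • a + e2 • b + c := by
    rw [hc'] at hw
    rcases hw with h | h | h | h
    · refine ⟨e, 0, 0, eq_of_add h, by simp⟩
    · have h1 : ρ t e = a + e := by
        have := eq_of_add (show ρ t e + (a + e) = 0 by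
          rw [← add_assoc, add_right_comm, h, hch])
        exact this
      refine ⟨e + b, 0, 1, ?_, ?_⟩
      · rw [map_add, h1, htb]
        calc a + e + (a + b) = e + b + (a + a) := by abel
          _ = e + b := by rw [hch, add_zero]
      · rw [zero_smul, one_smul, zero_add]
        calc e = e + (b + b) := by rw [hch, add_zero]
          _ = b + (e + b) := by abel
    · have h1 : ρ t e = b + e := by
        have := eq_of_add (show ρ t e + (b + e) = 0 by
          rw [← add_assoc, add_right_comm, h, hch])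
        exact this
      refine ⟨e + (a + b), 1, 1, ?_, ?_⟩
      · rw [map_add, h1, map_add, htb]
        have ht' : ρ t a = b := rfl
        rw [ht']
        calc b + e + (b + (a + b)) = e + (a + b) + (b + b) := by abel
          _ = e + (a + b) := by rw [hch, add_zero]
      · rw [one_smul, one_smul]
        calc e = e + ((a + b) + (a + b)) := by rw [hch, add_zero]
          _ = a + b + (e + (a + b)) := by abel
    · have h1 : ρ t e = a + b + e := by
        have := eq_of_add (show ρ t e + (a + b + e) = 0 by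
          rw [← add_assoc, add_right_comm, h, hch])
        exact this
      refine ⟨e + a, 1, 0, ?_, ?_⟩
      · rw [map_add, h1]
        have ht' : ρ t a = b := rfl
        rw [ht']
        calc a + b + e + b = e + a + (b + b) := by abel
          _ = e + a := by rw [hch, add_zero]
      · rw [one_smul, zero_smul, add_zero]
        calc e = e + (a + a) := by rw [hch, add_zero]
          _ = a + (e + a) := by abel
  set fb := f b with hfb
  have hfc : f c = e1 + e2 * fb := by
    have h1 : f e = 0 := hT.fe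
    rw [he, map_add, map_add, map_smul, map_smul, hfa, smul_eq_mul, smul_eq_mul, mul_one] at h1
    have h2 : ∀ x y : ZMod 2, x + y = 0 → y = x := by decide
    exact h2 _ _ h1
  -- equivariance
  have htt : ∀ v : V3, ρ t (pi3 a b c v) = pi3 a b c (tt v) := by
    rintro ⟨x, y, z⟩
    simp only [pi3, tt, map_add, map_smul, htb, hc]
    have ht' : ρ t a = b := rfl
    rw [ht', smul_add, add_smul]
    abel
  have hττ : ∀ v : V3, ρ τ (pi3 a b c v) = pi3 a b c (tau e1 e2 fb v) := by
    rintro ⟨x, y, z⟩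
    rw [hT.apply]
    have h1 : f (pi3 a b c (x, y, z)) = ftau e1 e2 fb (x, y, z) := by
      simp only [pi3, ftau, map_add, map_smul, hfa, hfc, smul_eq_mul, mul_one, ← hfb]
    rw [h1, he]
    simp only [pi3, tau]
    set φ := ftau e1 e2 fb (x, y, z)
    module
  have hw1 : ∀ v, ρ (t * τ * t * τ) (pi3 a b c v) = pi3 a b c (w1 e1 e2 fb v) := by
    intro v
    rw [rho_mul, rho_mul, rho_mul, hττ, htt, hττ, htt]
    rfl
  have hw2 : ∀ v, ρ (t * τ * (t * t) * τ) (pi3 a b c v) = pi3 a b c (w2 e1 e2 fb v) := by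
    intro v
    rw [rho_mul, rho_mul, rho_mul, hττ, rho_mul, htt, htt, hττ, htt]
    rfl
  -- injectivity
  have ha0 : a ≠ 0 := by
    intro h
    rw [h, map_zero] at hfa
    exact zero_ne_one hfa
  have hker : ∀ v : V3, pi3 a b c v = 0 → v = 0 := by
    rintro ⟨x, y, z⟩ h
    simp only [pi3] at h
    rcases zmod2_cases z with rfl | rfl
    · rcases zmod2_cases x with rfl | rfl <;> rcases zmod2_cases y with rfl | rfl
      · rfl
      · exfalso
        simp only [zero_smul, one_smul, add_zero, zero_add] at h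
        apply ha0
        apply rho_injective (ρ := ρ) t
        rw [map_zero]
        exact h
      · exfalso
        simp only [zero_smul, one_smul, add_zero] at h
        exact ha0 h
      · exfalso
        simp only [zero_smul, one_smul, add_zero] at h
        exact hfix (eq_of_add h).symm
    · exfalso
      have hcc : c = x • a + y • b := by
        simp only [one_smul] at h
        exact (eq_of_add h).symm
      have he' : e = (e1 + x) • a + (e2 + y) • b := by
        rw [he, hcc]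
        module
      generalize e1 + x = u at he'
      generalize e2 + y = u' at he'
      rcases zmod2_cases u with rfl | rfl <;> rcases zmod2_cases u' with rfl | rfl
      · simp only [zero_smul, add_zero] at he'
        exact he0 he'
      · simp only [zero_smul, one_smul, zero_add] at he'
        exact heb he'
      · simp only [zero_smul, one_smul, add_zero] at he'
        exact hea he'
      · simp only [one_smul] at he'
        exact hec (he'.trans hc'.symm)
  have hinj : ∀ u v : V3, pi3 a b c u = pi3 a b c v → u = v := by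
    intro u v h
    apply eq_of_add_v3
    apply hker
    rw [pi3_add, h, hch]
  -- conclusion
  rcases check e1 e2 fb with ⟨h4, v₀, hv₀⟩ | ⟨h4, v₀, hv₀⟩
  · apply hv₀
    apply hinj
    rw [← hw1]
    refine aux_pow (S := fun x => ∃ v, x = pi3 a b c v) ?_ hp1 ⟨v₀, rfl⟩
    rintro _ ⟨v, rfl⟩
    rw [pow4, hw1, hw1, hw1, hw1, h4]
  · apply hv₀
    apply hinj
    rw [← hw2]
    refine aux_pow (S := fun x => ∃ v, x = pi3 a b c v) ?_ hp2 ⟨v₀, rfl⟩
    rintro _ ⟨v, rfl⟩
    rw [pow4, hw2, hw2, hw2, hw2, h4]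

section group

open Cfsg.Agent.Lib.QuadAct.FFBasic Cfsg.Agent.Lib.QuadAct.FFQuot Cfsg.Agent.Lib.QuadAct.FFMin
open Cfsg.Agent.Lib.SFourFree.Offender
open Cfsg.Agent.Lib.Core.Basic

universe u

variable {X : Type u} [Group X] [Finite X] {V W : Subgroup X} [hVn : V.Normal]

/-- An element commuting with `t`, moving `a` within its `t`-orbit, fixes `a` if it is a `2`-element. -/
theorem fix_of_orbit {y r : Γ} {a : M} (hyt : y * r = r * y) (hr3 : r ^ 3 = 1) (hya : ρ y a = ρ r a)
    (hy : ∃ m : ℕ, y ^ (2 ^ m) = 1) : ρ y a = a := by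
  obtain ⟨m, hm⟩ := hy
  have h1 : orderOf y ∣ 2 ^ m := orderOf_dvd_of_pow_eq_one hm
  have hco : Nat.Coprime 3 (orderOf y) :=
    Nat.Coprime.coprime_dvd_right h1 (Nat.Coprime.pow_right _ (by norm_num))
  obtain ⟨k, hk⟩ := exists_pow_eq_self_of_coprime hco
  have hry : ∀ x : M, ρ y (ρ r x) = ρ r (ρ y x) := by
    intro x
    rw [← rho_mul, hyt, rho_mul]
  have h3 : ρ (y ^ 3) a = a := by
    have e : y ^ 3 = y * (y * y) := by simp only [pow_succ, pow_zero, one_mul, mul_assoc]
    have e' : r ^ 3 = r * r * r := by simp only [pow_succ, pow_zero, one_mul]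
    have h4 : ρ (r * r * r) a = a := by
      rw [← e', hr3, map_one]
      rfl
    rw [e, rho_mul, rho_mul, hya, hry, hya, hry, hry, hya, ← rho_mul, ← rho_mul, h4]
  have h2 : ∀ j : ℕ, ρ ((y ^ 3) ^ j) a = a := by
    intro j
    induction j with
    | zero => simp
    | succ j ih => rw [pow_succ, rho_mul, h3, ih]
  rw [← hk]
  exact h2 k

/-- The main theorem at the level of `X`. -/
theorem X_main {d : X} (hsep : Cfsg.IsPSolvable 2 X) (hVe : Cfsg.IsElementaryAbelian 2 V)
    (hVW : V = Subgroup.normalClosure (W : Set X))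
    (hd3 : d ^ 3 ∈ Subgroup.centralizer (V : Set X))
    (hdW : ∀ v ∈ V, d * v * d⁻¹ * v⁻¹ ∈ W)
    (hrel : ∀ w ∈ W, w * (d * w * d⁻¹) * ((d * d) * w * (d * d)⁻¹) = 1)
    (hfix : ∀ w ∈ W, d * w * d⁻¹ = w → w = 1)
    (hcov : ∀ w ∈ W, w ≠ 1 → ∀ z ∈ W, z = 1 ∨ z = w ∨ z = d * w * d⁻¹ ∨ z = (d * d) * w * (d * d)⁻¹)
    (hP3 : piV V d ∈ Cfsg.pCore 3 (X ⧸ Subgroup.centralizer (V : Set X))) :
    Cfsg.pCore 2 (X ⧸ Subgroup.centralizer (V : Set X)) = ⊥ ∧
      ∀ A : Subgroup X, Cfsg.IsBestOffenderOn 2 V A → ∀ a ∈ A, a ∈ Subgroup.normalizer (W : Set X) := by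
  classical
  haveI : Fact (Nat.Prime 3) := ⟨Nat.prime_three⟩
  haveI : Fact (Nat.Prime 2) := ⟨Nat.prime_two⟩
  obtain ⟨M, _, _, _, ρ, ι, D⟩ := exists_coordQ (p := 2) hVe
  have hWV : W ≤ V := by
    rw [hVW]
    exact Subgroup.le_normalClosure
  have hπ : ∀ x : X, piV V x = 1 ↔ x ∈ Subgroup.centralizer (V : Set X) := by
    intro x
    rw [← MonoidHom.mem_ker, piV_ker]
  have hι0 : ι 0 = 1 := by
    have h := D.add 0 0
    rw [add_zero] at h
    exact (mul_eq_left.mp h.symm)
  have hconj : ∀ (g : X) (m : M), ι (ρ (piV V g) m) = g * ι m * g⁻¹ := fun g m => D.conj g m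
  have hιinv : ∀ m : M, (ι m)⁻¹ = ι m := by
    intro m
    have h := D.add m m
    rw [add_self_eq, hι0] at h
    exact inv_eq_of_mul_eq_one_left h.symm
  set t := piV V d with ht
  have ht3 : t ^ 3 = 1 := by
    rw [ht, ← map_pow]
    exact (hπ _).mpr hd3
  -- the module `W̃`
  have hdWM : ∀ m : M, ι (ρ t m + m) ∈ W := by
    intro m
    rw [D.add, hconj]
    have := hdW _ (D.mem m)
    rwa [hιinv] at this
  have hιW : ∀ {m n : M}, ι m ∈ W → ι n ∈ W → ι (m + n) ∈ W := fun hm hn => by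
    rw [D.add]
    exact W.mul_mem hm hn
  have htW : ∀ {m : M}, ι m ∈ W → ι (ρ t m) ∈ W := by
    intro m hm
    have h1 := hdWM m
    have h2 := hιW h1 hm
    rwa [add_assoc, add_self_eq, add_zero] at h2
  have hrelM : ∀ {m : M}, ι m ∈ W → m + ρ t m + ρ (t * t) m = 0 := by
    intro m hm
    apply D.inj
    rw [hι0, D.add, D.add, ← map_mul, hconj, hconj]
    exact hrel _ hm
  have hfixM : ∀ {m : M}, ι m ∈ W → ρ t m = m → m = 0 := by
    intro m hm h
    apply D.inj
    rw [hι0]
    apply hfix _ hm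
    rw [← hconj, ← ht, h]
  have hcovM : ∀ {a : M}, ι a ∈ W → a ≠ 0 → ∀ {z : M}, ι z ∈ W →
      z = 0 ∨ z = a ∨ z = ρ t a ∨ z = ρ (t * t) a := by
    intro a ha ha0 z hz
    have ha1 : ι a ≠ 1 := fun h => ha0 (D.inj (by rw [h, hι0]))
    rcases hcov _ ha ha1 _ hz with h | h | h | h
    · left
      exact D.inj (by rw [h, hι0])
    · right; left
      exact D.inj h
    · right; right; left
      apply D.inj
      rw [h, hconj]
    · right; right; right
      apply D.inj
      rw [h, ht, ← map_mul, hconj]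
  -- elements in `O₂`
  have hcommO : ∀ {q : X ⧸ Subgroup.centralizer (V : Set X)},
      q ∈ Cfsg.pCore 2 (X ⧸ Subgroup.centralizer (V : Set X)) → q * t = t * q := by
    intro q hq
    have hd := IsPGroup.disjoint_of_ne 2 3 (by norm_num) _ _
      (pCore_isPGroup (p := 2) (G := X ⧸ Subgroup.centralizer (V : Set X)))
      (pCore_isPGroup (p := 3) (G := X ⧸ Subgroup.centralizer (V : Set X)))
    have h1 : q * t * q⁻¹ * t⁻¹ ∈ Cfsg.pCore 2 (X ⧸ Subgroup.centralizer (V : Set X)) := by
      have h2 := (pCore_normal 2 (X ⧸ Subgroup.centralizer (V : Set X))).conj_mem q⁻¹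
        ((Subgroup.inv_mem _ hq)) t
      have e : q * t * q⁻¹ * t⁻¹ = q * (t * q⁻¹ * t⁻¹) := by group
      rw [e]
      exact Subgroup.mul_mem _ hq h2
    have h3 : q * t * q⁻¹ * t⁻¹ ∈ Cfsg.pCore 3 (X ⧸ Subgroup.centralizer (V : Set X)) := by
      have h2 := (pCore_normal 3 (X ⧸ Subgroup.centralizer (V : Set X))).conj_mem t hP3 q
      exact Subgroup.mul_mem _ h2 (Subgroup.inv_mem _ hP3)
    have h4 := Subgroup.disjoint_def.mp hd h1 h3
    exact mul_inv_eq_iff_eq_mul.mp (mul_inv_eq_one.mp h4)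
  have hfixO : ∀ {q : X ⧸ Subgroup.centralizer (V : Set X)},
      q ∈ Cfsg.pCore 2 (X ⧸ Subgroup.centralizer (V : Set X)) → ∀ {a : M}, ι a ∈ W → ρ q a = a := by
    intro q hq a ha
    have hqt := hcommO hq
    have hq2 : ∃ m : ℕ, q ^ (2 ^ m) = 1 := by
      obtain ⟨m, hm⟩ := (pCore_isPGroup (p := 2) (G := X ⧸ Subgroup.centralizer (V : Set X))) ⟨q, hq⟩
      exact ⟨m, by simpa using congrArg Subtype.val hm⟩
    have hqW : ∀ {m : M}, ι m ∈ W → ι (ρ q m) ∈ W := by
      intro m hm
      have h1 : m = ρ t (ρ t m) + ρ t m := by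
        have h2 := hrelM hm
        rw [rho_mul] at h2
        have h3 := eq_of_add (show m + (ρ t (ρ t m) + ρ t m) = 0 by
          rw [← h2]
          abel)
        exact h3
      have h4 : ρ q m = ρ t (ρ q (ρ t m)) + ρ q (ρ t m) := by
        conv_lhs => rw [h1]
        rw [map_add, ← rho_mul q t, hqt, rho_mul]
      rw [h4]
      exact hdWM _
    by_cases ha0 : a = 0
    · rw [ha0, map_zero]
    rcases hcovM ha ha0 (hqW ha) with h | h | h | h
    · exfalso
      apply ha0
      apply rho_injective (ρ := ρ) q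
      rw [h, map_zero]
    · exact h
    · exact fix_of_orbit hqt ht3 h hq2
    · refine fix_of_orbit (r := t * t) ?_ ?_ h hq2
      · rw [← mul_assoc, hqt, mul_assoc, hqt, mul_assoc]
      · calc (t * t) ^ 3 = t ^ 6 := by rw [← pow_two, ← pow_mul]
          _ = (t ^ 3) ^ 2 := by rw [← pow_mul]
          _ = 1 := by rw [ht3, one_pow]
  have hO : Cfsg.pCore 2 (X ⧸ Subgroup.centralizer (V : Set X)) = ⊥ := by
    rw [eq_bot_iff]
    intro q hq
    obtain ⟨x, rfl⟩ := piV_surj (V := V) q
    rw [Subgroup.mem_bot, hπ]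
    have hle : V ≤ Subgroup.centralizer ({x} : Set X) := by
      rw [hVW, Subgroup.normalClosure, Subgroup.closure_le]
      intro z hz
      obtain ⟨w, hw, hwz⟩ := Group.mem_conjugatesOfSet_iff.mp hz
      obtain ⟨b, rfl⟩ := isConj_iff.mp hwz
      have h1 : piV V (b⁻¹ * x * b) ∈ Cfsg.pCore 2 (X ⧸ Subgroup.centralizer (V : Set X)) := by
        have := (pCore_normal 2 (X ⧸ Subgroup.centralizer (V : Set X))).conj_mem _ hq (piV V b⁻¹)
        rw [map_inv, inv_inv] at this
        rw [map_mul, map_mul, map_inv]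
        exact this
      obtain ⟨m, rfl⟩ := D.surj w (hWV hw)
      have h2 := hfixO h1 hw
      have h3 := congrArg ι h2
      rw [hconj] at h3
      simp only [SetLike.mem_coe, Subgroup.mem_centralizer_singleton_iff]
      have h4 : x * (b * ι m * b⁻¹) * x⁻¹ = b * ι m * b⁻¹ := by
        calc x * (b * ι m * b⁻¹) * x⁻¹ = b * ((b⁻¹ * x * b) * ι m * (b⁻¹ * x * b)⁻¹) * b⁻¹ := by group
          _ = b * ι m * b⁻¹ := by rw [h3]
      calc b * ι m * b⁻¹ * x = x * (b * ι m * b⁻¹) * x⁻¹ * x := by rw [h4]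
        _ = x * (b * ι m * b⁻¹) := by group
    rw [Subgroup.mem_centralizer_iff]
    intro v hv
    exact (Subgroup.mem_centralizer_singleton_iff.mp (hle hv))
  refine ⟨hO, ?_⟩
  intro A hA a ha
  have hsep' : Cfsg.IsPSolvable 2 (X ⧸ Subgroup.centralizer (V : Set X)) :=
    Cfsg.Agent.Lib.Core.PSolvable.isPSolvable_of_surjective _ piV_surj hsep
  have hS1 := Cfsg.Agent.Lib.QuadAct.Sections.centralizer_pPrimeCore_le hsep' hO
  have hb : Best ρ (A.map (piV V)) := best_map_of_isBest D hA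
  obtain ⟨k, B, hB, -, hsup⟩ := exists_decomp D.faith hS1 hb
  set N := Subgroup.normalizer (W : Set X) with hN
  have hCN : Subgroup.centralizer (V : Set X) ≤ N := by
    intro c hc
    refine Cfsg.Agent.Lib.LocalEven.Util.mem_normalizer_of_conj_le fun w hw => ?_
    rw [← Subgroup.mem_centralizer_iff.mp hc w (hWV hw)]
    simpa using hw
  have hle : ⨆ i, B i ≤ N.map (piV V) := by
    refine iSup_le fun i => ?_
    obtain ⟨τ, hτz, e, f, hT⟩ := exists_TV D.faith hS1 (hB i).2
    have hτA : τ ∈ A.map (piV V) := (hB i).1 (by rw [hτz]; exact Subgroup.mem_zpowers τ)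
    obtain ⟨j, hj, rfl⟩ := hτA
    rw [hτz, Subgroup.zpowers_le]
    refine Subgroup.mem_map_of_mem _ ?_
    refine Cfsg.Agent.Lib.LocalEven.Util.mem_normalizer_of_conj_le fun w hw => ?_
    obtain ⟨m, rfl⟩ := D.surj w (hWV hw)
    rw [← hconj, hT.apply]
    rcases zmod2_cases (f m) with h | h
    · rw [h, zero_smul, add_zero]
      exact hw
    · rw [h, one_smul]
      by_contra hcon
      have hie : ι e ∉ W := fun h' => hcon (hιW hw h')
      have hm0 : m ≠ 0 := by
        intro h0
        rw [h0, map_zero] at h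
        exact zero_ne_one h
      have hmem : ∀ x : X ⧸ Subgroup.centralizer (V : Set X),
          x ∈ Cfsg.pCore 3 (X ⧸ Subgroup.centralizer (V : Set X)) → ∃ n : ℕ, x ^ (3 ^ n) = 1 := by
        intro x hx
        obtain ⟨n, hn⟩ := (pCore_isPGroup (p := 3) (G := X ⧸ Subgroup.centralizer (V : Set X))) ⟨x, hx⟩
        exact ⟨n, by simpa using congrArg Subtype.val hn⟩
      have hτ2 := Cfsg.Agent.Lib.JSub.TV.tau_sq D.faith hT
      have hτi : (piV V j)⁻¹ = piV V j := inv_eq_of_mul_eq_one_left hτ2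
      have hp3n := pCore_normal 3 (X ⧸ Subgroup.centralizer (V : Set X))
      refine no_tv hT h (hrelM hw) (hcovM hw hm0 (hdWM e)) ?_ ?_ ?_ ?_ ?_ ?_
      · rintro rfl
        exact hie hw
      · rintro rfl
        exact hie (htW hw)
      · intro h'
        apply hie
        rw [h', rho_mul]
        exact htW (htW hw)
      · intro h'
        exact hm0 (hfixM hw h')
      · apply hmem
        have h1 := hp3n.conj_mem t hP3 (piV V j)
        rw [hτi] at h1
        have e' : t * piV V j * t * piV V j = t * (piV V j * t * piV V j) := by group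
        rw [e']
        exact Subgroup.mul_mem _ hP3 h1
      · apply hmem
        have h1 := hp3n.conj_mem (t * t) (Subgroup.mul_mem _ hP3 hP3) (piV V j)
        rw [hτi] at h1
        have e' : t * piV V j * (t * t) * piV V j = t * (piV V j * (t * t) * piV V j) := by group
        rw [e']
        exact Subgroup.mul_mem _ hP3 h1
  rw [hsup] at hle
  obtain ⟨n, hn, hne⟩ := hle (Subgroup.mem_map_of_mem (piV V) ha)
  have h1 : n⁻¹ * a ∈ Subgroup.centralizer (V : Set X) := by
    rw [← hπ, map_mul, map_inv, ← hne, inv_mul_cancel]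
  have h2 := N.mul_mem hn (hCN h1)
  simpa using h2

end group

end Cfsg.Agent.Lib.JSub.SnTV
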