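import Cfsg.Agent.Lib.JSub.Zero
import Cfsg.Agent.Lib.JSub.SnTV

/-!
# Subnormal conjugates of `J`-components in the family `𝒞₀`
-/

set_option autoImplicit false
set_option linter.unusedSectionVars false
set_option linter.unusedSimpArgs false
set_option linter.style.haveILetI false

open scoped commutatorElement

namespace Cfsg.Agent.Lib.JSub.Sn

open Cfsg Subgroup
open Cfsg.Agent.Lib.JSub.Main
open Cfsg.Agent.Lib.JSub.Core (LE2 hbest_of)
open Cfsg.Agent.Lib.JSub.NormW (rel_of_setup)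
open Cfsg.Agent.Lib.JSub.Zero
open Cfsg.Agent.Lib.Subnormal.Basic
open Cfsg.Agent.Lib.PointStab.Step (nrm_of_conj conj_mem conj_inv_mem mem_Z₁ Z₁)
open Cfsg.Agent.Lib.PLocal.Thompson (IsMaxIn jOf thompsonSubgroupOf_eq IsAbExp)
open Cfsg.Agent.Lib.LocalStruct.PCoreOf
open Cfsg.Agent.Lib.LocalEven.JComp (Setup IsFour exists_setup normalizer_le_omegaCenterOf)
open Cfsg.Agent.Lib.QuadAct.FFQuot (piV piV_surj piV_ker)

variable {G : Type*} [Group G] [Finite G]

/-- Subnormal `p`-subgroups lie in the `p`-core. -/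
theorem le_pCoreOf_of_SN {p : ℕ} [Fact p.Prime] {P Y : Subgroup G} (h : SN P Y) (hp : IsPGroup p P) :
    P ≤ pCoreOf p Y := by
  induction h with
  | refl => exact le_pCoreOf le_rfl Subgroup.le_normalizer hp
  | @tail X Y' h1 h2 ih =>
    refine ih.trans (le_pCoreOf ((pCoreOf_le X).trans h2.1) ?_ (isPGroup_pCoreOf X))
    exact h2.2.trans (Cfsg.Agent.Lib.LocalStruct.Large2.le_normalizer_pCoreOf_of (fun _ h => h))

/-- Subnormality under homomorphisms. -/
theorem SN_map {H : Type*} [Group H] (φ : G →* H) {A T : Subgroup G} (h : SN A T) :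
    SN (A.map φ) (T.map φ) := by
  induction h with
  | refl => exact SN.refl _
  | @tail X Y h1 h2 ih =>
    refine ih.trans (SN.of_le_normalizer (Subgroup.map_mono h2.1) ?_)
    rintro _ ⟨y, hy, rfl⟩
    have hyn := h2.2 hy
    refine nrm_of_conj ?_ ?_
    · rintro _ ⟨x, hx, rfl⟩
      exact ⟨y * x * y⁻¹, conj_mem hyn hx, by simp⟩
    · rintro _ ⟨x, hx, rfl⟩
      exact ⟨y⁻¹ * x * y, conj_inv_mem hyn hx, by simp⟩

/-- A subnormal subgroup generated by odd elements is normalized by a `2`-group it normalizes. -/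
theorem le_normalizer_of_SN {K D : Subgroup G} (hK : closure {g : G | g ∈ K ∧ Odd (orderOf g)} = K)
    (hD : IsPGroup 2 D) (hKD : K ≤ normalizer (D : Set G)) (hsn : SN K (K ⊔ D)) :
    D ≤ normalizer (K : Set G) := by
  classical
  obtain ⟨a, ha⟩ := IsPGroup.iff_card.mp hD
  have hindex : K.relIndex (K ⊔ D) ∣ 2 ^ a := by
    have h2 := Cfsg.Agent.Lib.QuadAct.Basic.card_sup_mul_card_inf_of_le_normalizer K D hKD
    have h3 : Nat.card K * K.relIndex (K ⊔ D) = Nat.card ↥(K ⊔ D) :=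
      Cfsg.Agent.Lib.Coprime.Action.card_eq_card_mul_relIndex le_sup_left |>.symm
    rw [← ha]
    have hK0 : 0 < Nat.card K := Nat.card_pos
    refine ⟨Nat.card ↥(K ⊓ D), Nat.eq_of_mul_eq_mul_left hK0 ?_⟩
    rw [← mul_assoc, h3, h2]
  have key : ∀ Y, SN K Y → Y ≤ K ⊔ D → ∀ x ∈ Y, Odd (orderOf x) → x ∈ K := by
    intro Y hY
    induction hY with
    | refl => exact fun _ x hx _ => hx
    | @tail Y₁ Y₂ h1 h2 ih =>
      intro hle x hx hodd
      apply ih (h2.1.trans hle) x _ hodd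
      haveI hN : (Y₁.subgroupOf Y₂).Normal := Subgroup.normal_subgroupOf_of_le_normalizer h2.2
      have h3 := Subgroup.pow_index_mem (Y₁.subgroupOf Y₂) (⟨x, hx⟩ : Y₂)
      rw [Subgroup.mem_subgroupOf] at h3
      have h4 : x ^ Y₁.relIndex Y₂ ∈ Y₁ := by simpa [Subgroup.relIndex] using h3
      have hd : Y₁.relIndex Y₂ ∣ K.relIndex (K ⊔ D) := by
        have e1 := Subgroup.relIndex_mul_relIndex K Y₁ Y₂ (SN.le h1) h2.1
        have e2 := Subgroup.relIndex_mul_relIndex K Y₂ (K ⊔ D) ((SN.le h1).trans h2.1) hle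
        rw [← e2, ← e1]
        exact Dvd.dvd.mul_right (dvd_mul_left _ _) _
      obtain ⟨b, -, hb⟩ := (Nat.dvd_prime_pow Nat.prime_two).mp (hd.trans hindex)
      have hco : Nat.Coprime (Y₁.relIndex Y₂) (orderOf x) := by
        rw [hb]
        exact Nat.Coprime.pow_left _ (Nat.coprime_two_left.mpr hodd)
      obtain ⟨m, hm⟩ := exists_pow_eq_self_of_coprime hco
      rw [← hm]
      exact Y₁.pow_mem h4 m
  have hconj : ∀ x ∈ D, ∀ k ∈ K, x * k * x⁻¹ ∈ K := by
    intro x hx k hk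
    have hle : K ≤ K.comap (MulAut.conj x).toMonoidHom := by
      conv_lhs => rw [← hK]
      rw [closure_le]
      rintro g ⟨hg, hgo⟩
      have h1 : Odd (orderOf (x * g * x⁻¹)) := by
        have := MulEquiv.orderOf_eq (MulAut.conj x) g
        rw [MulAut.conj_apply] at this
        rwa [this]
      refine key _ hsn le_rfl _ ?_ h1
      exact Subgroup.mul_mem _ (Subgroup.mul_mem _ (Subgroup.mem_sup_right hx) (Subgroup.mem_sup_left hg))
        (Subgroup.inv_mem _ (Subgroup.mem_sup_right hx))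
    exact hle hk
  refine fun x hx => nrm_of_conj (hconj x hx) (fun k hk => ?_)
  have := hconj x⁻¹ (D.inv_mem hx) k hk
  simpa using this

/-- A `2`-element acting on a block of order three and commuting with it is trivial on it. -/
theorem fix_of_comm {W : Subgroup G} {d y : G} (hdW : ∀ w ∈ W, d * w * d⁻¹ ∈ W)
    (h3 : ∀ w ∈ W, (d * d * d) * w * (d * d * d)⁻¹ = w)
    (hcov : ∀ w ∈ W, w ≠ 1 → ∀ z ∈ W, z = 1 ∨ z = w ∨ z = d * w * d⁻¹ ∨ z = (d * d) * w * (d * d)⁻¹)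
    (hyW : ∀ w ∈ W, y * w * y⁻¹ ∈ W) (hc : y * d * y⁻¹ * d⁻¹ ∈ centralizer (W : Set G))
    (hy : ∃ m : ℕ, y ^ (2 ^ m) = 1) : y ∈ centralizer (W : Set G) := by
  obtain ⟨m, hm⟩ := hy
  have hord : orderOf y ∣ 2 ^ m := orderOf_dvd_of_pow_eq_one hm
  have hco : Nat.Coprime 3 (orderOf y) :=
    Nat.Coprime.coprime_dvd_right hord (Nat.Coprime.pow_right _ (by norm_num))
  obtain ⟨k, hk⟩ := exists_pow_eq_self_of_coprime hco
  have hcW : ∀ c ∈ centralizer (W : Set G), ∀ w ∈ W, c * w * c⁻¹ = w := by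
    intro c hc w hw
    rw [← mem_centralizer_iff.mp hc w hw]
    group
  have hαδ : ∀ v ∈ W, y * (d * v * d⁻¹) * y⁻¹ = d * (y * v * y⁻¹) * d⁻¹ := by
    intro v hv
    have h1 := hcW _ hc _ (hdW _ (hyW v hv))
    calc y * (d * v * d⁻¹) * y⁻¹
        = (y * d * y⁻¹ * d⁻¹) * (d * (y * v * y⁻¹) * d⁻¹) * (y * d * y⁻¹ * d⁻¹)⁻¹ := by group
      _ = d * (y * v * y⁻¹) * d⁻¹ := h1
  have hfix3 : ∀ w ∈ W, (y * y * y) * w * (y * y * y)⁻¹ = w := by
    intro w hw
    by_cases hw1 : w = 1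
    · rw [hw1]
      group
    have hdw := hdW w hw
    have hddw := hdW _ hdw
    have e2 : d * (d * w * d⁻¹) * d⁻¹ = (d * d) * w * (d * d)⁻¹ := by group
    have e3 : d * (d * (d * w * d⁻¹) * d⁻¹) * d⁻¹ = (d * d * d) * w * (d * d * d)⁻¹ := by group
    rcases hcov w hw hw1 _ (hyW w hw) with h | h | h | h
    · exfalso
      apply hw1
      calc w = y⁻¹ * (y * w * y⁻¹) * y := by group
        _ = 1 := by rw [h]; group
    · calc (y * y * y) * w * (y * y * y)⁻¹ = y * (y * (y * w * y⁻¹) * y⁻¹) * y⁻¹ := by group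
        _ = w := by rw [h, h, h]
    · calc (y * y * y) * w * (y * y * y)⁻¹ = y * (y * (y * w * y⁻¹) * y⁻¹) * y⁻¹ := by group
        _ = y * (y * (d * w * d⁻¹) * y⁻¹) * y⁻¹ := by rw [h]
        _ = y * (d * (d * w * d⁻¹) * d⁻¹) * y⁻¹ := by rw [hαδ w hw, h]
        _ = d * (d * (d * w * d⁻¹) * d⁻¹) * d⁻¹ := by rw [hαδ _ hdw, hαδ w hw, h]
        _ = w := by rw [e3, h3 w hw]
    · rw [← e2] at h
      have hstep1 : y * (y * w * y⁻¹) * y⁻¹ = d * w * d⁻¹ := by
        rw [h, hαδ _ hdw, hαδ w hw, h, e3, h3 w hw]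
      calc (y * y * y) * w * (y * y * y)⁻¹ = y * (y * (y * w * y⁻¹) * y⁻¹) * y⁻¹ := by group
        _ = y * (d * w * d⁻¹) * y⁻¹ := by rw [hstep1]
        _ = w := by rw [hαδ w hw, h, e3, h3 w hw]
  have hy3 : y ^ 3 ∈ centralizer (W : Set G) := by
    rw [mem_centralizer_iff]
    intro w hw
    have e : y ^ 3 = y * y * y := by rw [pow_succ, pow_two]
    rw [e]
    have h1 := hfix3 w hw
    calc w * (y * y * y) = (y * y * y) * w * (y * y * y)⁻¹ * (y * y * y) := by rw [h1]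
      _ = (y * y * y) * w := by group
  rw [← hk]
  exact Subgroup.pow_mem _ hy3 k

/-- The four elements. -/
theorem cover_of_setup {S K Q W : Subgroup G} {g : G} (hS : Setup S K Q W g) (h3 : g ^ 3 ∈ Q) :
    ∀ y ∈ W, y ≠ 1 → ∀ z ∈ W, z = 1 ∨ z = y ∨ z = g * y * g⁻¹ ∨ z = (g * g) * y * (g * g)⁻¹ := by
  intro y hyW hy1
  have hrel := rel_of_setup hS h3 hyW
  have hWg : ∀ {w : G}, w ∈ W → g * w * g⁻¹ ∈ W := fun hw => conj_mem (hS.hKW hS.hgK) hw
  have hyy : y * y = 1 := hS.hW.2 y hyW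
  have hy₁W : g * y * g⁻¹ ∈ W := hWg hyW
  have hy₁1 : g * y * g⁻¹ ≠ 1 := fun h => hy1 (by
    calc y = g⁻¹ * (g * y * g⁻¹) * g := by group
      _ = 1 := by rw [h]; group)
  have hy₁y : g * y * g⁻¹ ≠ y := hS.not_fix hyW hy1
  have hy₂ : (g * g) * y * (g * g)⁻¹ = y * (g * y * g⁻¹) := by
    have h1 : (y * (g * y * g⁻¹)) * (y * (g * y * g⁻¹)) = 1 := hS.hW.2 _ (W.mul_mem hyW hy₁W)
    calc (g * g) * y * (g * g)⁻¹ = ((y * (g * y * g⁻¹)) * (y * (g * y * g⁻¹))) * ((g * g) * y * (g * g)⁻¹) := by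
          rw [h1, one_mul]
      _ = (y * (g * y * g⁻¹)) * (y * (g * y * g⁻¹) * ((g * g) * y * (g * g)⁻¹)) := by group
      _ = y * (g * y * g⁻¹) := by rw [hrel, mul_one]
  rw [hy₂]
  obtain ⟨u, hu, hu1, huy, hc⟩ := hS.hW.coords hyW hy1
  intro z hz
  rcases hc _ hy₁W with h | h | h | h
  · exact absurd h hy₁1
  · exact absurd h hy₁y
  · rw [← h] at hc
    exact hc z hz
  · have hu' : u = y * (g * y * g⁻¹) := by
      rw [h, ← mul_assoc, hyy, one_mul]
    rw [hu'] at hc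
    rcases hc z hz with h1 | h1 | h1 | h1
    · exact Or.inl h1
    · exact Or.inr (Or.inl h1)
    · exact Or.inr (Or.inr (Or.inr h1))
    · right; right; left
      rw [h1, ← mul_assoc, hyy, one_mul]

/-- The key theorem: `J(T)` normalizes `W_K` for a subnormal `K`. -/
theorem thompson_le_normalizer {L T T₁ K : Subgroup G} (hsolv : Group.IsSolvable L)
    (hTL : IsSylowTwoIn T L) (hT₁ : IsPGroup 2 T₁) (hK₁ : IsJComponent T₁ K) (hKL : K ≤ L)
    (hsn : (K.subgroupOf (K ⊔ thompsonSubgroupOf 2 T)).IsSubnormal) :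
    thompsonSubgroupOf 2 T ≤ normalizer (wOf K : Set G) := by
  classical
  haveI : Fact (Nat.Prime 3) := ⟨Nat.prime_three⟩
  haveI : Fact (Nat.Prime 2) := ⟨Nat.prime_two⟩
  obtain ⟨S, d, -, -, -, hS⟩ := exists_setup hT₁ hK₁
  set J := thompsonSubgroupOf 2 T with hJ
  set Q := pCoreOf 2 K with hQd
  set W := wOf K with hWd
  set B := K ⊔ J with hB
  have hJT : J ≤ T := Cfsg.Agent.Lib.Core.ThompsonMap.thompsonSubgroupOf_le T
  have hJL : J ≤ L := hJT.trans hTL.1
  have hJ2 : IsPGroup 2 J := hTL.2.1.to_le hJT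
  have hBL : B ≤ L := sup_le hKL hJL
  have hKB : K ≤ B := le_sup_left
  have hJB : J ≤ B := le_sup_right
  have hSN : SN K B := SN_of_isSubnormal_subgroupOf hKB hsn
  have hdK : d ∈ K := hS.hgK
  have hcube : ∀ k ∈ K, k ^ 3 ∈ Q := by
    intro k hk
    haveI hN : (Q.subgroupOf K).Normal := Subgroup.normal_subgroupOf_of_le_normalizer hS.hKQ
    have h1 := Subgroup.pow_index_mem (Q.subgroupOf K) (⟨k, hk⟩ : K)
    have h2 : (Q.subgroupOf K).index = 3 := hS.hK3
    rw [h2, Subgroup.mem_subgroupOf] at h1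
    simpa using h1
  -- the `2`-core of `B`
  set D := pCoreOf 2 B with hD
  have hBD : B ≤ normalizer (D : Set G) := le_normalizer_pCoreOf B
  have hDp : IsPGroup 2 D := isPGroup_pCoreOf B
  have hDB : D ≤ B := pCoreOf_le B
  have hQD : Q ≤ D :=
    le_pCoreOf_of_SN ((SN.of_le_normalizer hS.hQK hS.hKQ).trans hSN) (isPGroup_pCoreOf K)
  have hDK : D ≤ normalizer (K : Set G) :=
    le_normalizer_of_SN hK₁.1 hDp (hKB.trans hBD) (hSN.restrict le_sup_left (sup_le hKB hDB))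
  have hDKQ : D ⊓ K ≤ Q := by
    refine le_pCoreOf inf_le_right ?_ (hDp.to_le inf_le_left)
    refine le_trans ?_ Subgroup.inf_normalizer_le_normalizer_inf
    exact le_inf (hKB.trans hBD) Subgroup.le_normalizer
  have hcov := cover_of_setup hS (hcube d hdK)
  have hd3W : ∀ w ∈ W, (d * d * d) * w * (d * d * d)⁻¹ = w := by
    intro w hw
    have h5 := mem_centralizer_iff.mp (hS.hQW (hcube d hdK)) w hw
    have e : d ^ 3 = d * d * d := by rw [pow_succ, pow_two]
    rw [e] at h5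
    rw [← h5]
    group
  -- `D` centralizes `W`
  have hDW : ∀ x ∈ D, ∀ w ∈ W, x * w = w * x := by
    intro x hx w hw
    have h1 : x ∈ normalizer (W : Set G) :=
      Cfsg.Agent.Lib.LocalEven.JComp.normalizer_le_wOf (hDK hx)
    have h2 : x * d * x⁻¹ * d⁻¹ ∈ Q := by
      refine hDKQ ⟨?_, ?_⟩
      · have e : x * d * x⁻¹ * d⁻¹ = x * (d * x⁻¹ * d⁻¹) := by group
        rw [e]
        exact D.mul_mem hx (conj_mem (hBD (hKB hdK)) (D.inv_mem hx))
      · exact K.mul_mem (conj_mem (hDK hx) hdK) (K.inv_mem hdK)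
    obtain ⟨m, hm⟩ := (IsPGroup.iff_orderOf.mp hDp) ⟨x, hx⟩
    have hm' : orderOf x = 2 ^ m := by rwa [Subgroup.orderOf_mk] at hm
    have h3 := fix_of_comm (fun v hv => conj_mem (hS.hKW hdK) hv) hd3W hcov
      (fun v hv => conj_mem h1 hv) (hS.hQW h2) ⟨m, by rw [← hm', pow_orderOf_eq_one]⟩
    exact (mem_centralizer_iff.mp h3 w hw).symm
  -- the module
  set Vt := omegaCenterOf D with hVt
  have hVt1 : ∀ {u : G}, u ∈ Vt → u ∈ D ∧ (∀ r ∈ D, r * u = u * r) ∧ u ^ 2 = 1 := fun hu =>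
    mem_Z₁.mp hu
  have hVtc : ∀ {u v : G}, u ∈ Vt → v ∈ Vt → u * v = v * u := by
    intro u v hu hv
    exact (hVt1 hv).2.1 u (hVt1 hu).1
  have hVt2 : ∀ {u : G}, u ∈ Vt → u * u = 1 := fun hu => by
    rw [← pow_two]
    exact (hVt1 hu).2.2
  have hVti : ∀ {u : G}, u ∈ Vt → u⁻¹ = u := fun hu => inv_eq_of_mul_eq_one_left (hVt2 hu)
  have hWVt : W ≤ Vt := fun w hw =>
    mem_Z₁.mpr ⟨hQD (hS.hWQ hw), fun r hr => hDW r hr w hw, by
      rw [pow_two]
      exact hS.hW.2 w hw⟩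
  have hBVt : B ≤ normalizer (Vt : Set G) := hBD.trans normalizer_le_omegaCenterOf
  have hdVt : ∀ {u : G}, u ∈ Vt → d * u * d⁻¹ ∈ Vt := fun hu => conj_mem (hBVt (hKB hdK)) hu
  have hd3Vt : ∀ {u : G}, u ∈ Vt → (d * d * d) * u * (d * d * d)⁻¹ = u := by
    intro u hu
    have h1 := (hVt1 hu).2.1 _ (hQD (hcube d hdK))
    have e : d ^ 3 = d * d * d := by rw [pow_succ, pow_two]
    rw [e] at h1
    rw [h1]
    group
  -- `[Vt, d] ≤ W`
  have hVtW : ∀ u ∈ Vt, d * u * d⁻¹ * u⁻¹ ∈ W := by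
    intro u hu
    have hq := hdVt hu
    have hr := hdVt hq
    have hu₁Vt : d * u * d⁻¹ * u⁻¹ ∈ Vt := Vt.mul_mem hq (Vt.inv_mem hu)
    have hu₁D : d * u * d⁻¹ * u⁻¹ ∈ D := (hVt1 hu₁Vt).1
    have hu₁K : d * u * d⁻¹ * u⁻¹ ∈ K := by
      have e : d * u * d⁻¹ * u⁻¹ = d * (u * d⁻¹ * u⁻¹) := by group
      rw [e]
      exact K.mul_mem hdK (conj_mem (hDK (hVt1 hu).1) (K.inv_mem hdK))
    have hu₁Q : d * u * d⁻¹ * u⁻¹ ∈ Q := hDKQ ⟨hu₁D, hu₁K⟩
    -- `ω`
    have hωVt : d * (d * u * d⁻¹ * u⁻¹) * d⁻¹ ∈ Vt := hdVt hu₁Vt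
    have hωQ : d * (d * u * d⁻¹ * u⁻¹) * d⁻¹ ∈ Q := conj_mem (hS.hKQ hdK) hu₁Q
    have hω : d * (d * u * d⁻¹ * u⁻¹) * d⁻¹ ∈ omegaCenterOf Q := by
      refine mem_Z₁.mpr ⟨hωQ, fun r hr => (hVt1 hωVt).2.1 r (hQD hr), (hVt1 hωVt).2.2⟩
    have hmem := Subgroup.commutator_mem_commutator hω hdK
    have hmem' : ⁅d * (d * u * d⁻¹ * u⁻¹) * d⁻¹, d⁆ ∈ W := hmem
    have e : ⁅d * (d * u * d⁻¹ * u⁻¹) * d⁻¹, d⁆ = d * u * d⁻¹ * u⁻¹ := by
      rw [commutatorElement_def]
      -- write everything in terms of `p, q, r`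
      set q := d * u * d⁻¹ with hqd
      set r := d * q * d⁻¹ with hrd
      have hdr : d * r * d⁻¹ = u := by
        have := hd3Vt hu
        rw [hrd, hqd]
        calc d * (d * (d * u * d⁻¹) * d⁻¹) * d⁻¹ = (d * d * d) * u * (d * d * d)⁻¹ := by group
          _ = u := this
      have hω' : d * (q * u⁻¹) * d⁻¹ = r * q⁻¹ := by
        rw [hrd, hqd]
        group
      rw [hω']
      have hdω : d * (r * q⁻¹)⁻¹ * d⁻¹ = (d * r * d⁻¹ * (d * q * d⁻¹)⁻¹)⁻¹ := by group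
      have e1 : r * q⁻¹ * d * (r * q⁻¹)⁻¹ * d⁻¹ = (r * q⁻¹) * (d * (r * q⁻¹)⁻¹ * d⁻¹) := by group
      rw [e1, hdω, hdr, ← hrd, hVti hq, hVti hr, hVti hu]
      have hr' : r ∈ Vt := hr
      have hq' : q ∈ Vt := hq
      rw [mul_inv_rev, hVti hr', hVti hu]
      calc r * q * (r * u) = (r * r) * (q * u) := by
            rw [mul_assoc r q, ← mul_assoc q r, hVtc hq' hr', mul_assoc r q, mul_assoc r r]
        _ = q * u := by rw [hVt2 hr', one_mul]
    rwa [e] at hmem'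
  -- the level of `B`
  set WX : Subgroup B := W.subgroupOf B with hWX
  set V : Subgroup B := normalClosure (WX : Set B) with hVd
  haveI hVn : V.Normal := normalClosure_normal
  haveI hVtn : (Vt.subgroupOf B).Normal := Subgroup.normal_subgroupOf_of_le_normalizer hBVt
  have hVle : V ≤ Vt.subgroupOf B := by
    refine normalClosure_le_normal ?_
    intro w hw
    have h1 : (w : G) ∈ W := by
      have : w ∈ W.subgroupOf B := hw
      rwa [Subgroup.mem_subgroupOf] at this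
    show w ∈ Vt.subgroupOf B
    rw [Subgroup.mem_subgroupOf]
    exact hWVt h1
  have hVG : ∀ {v : B}, v ∈ V → (v : G) ∈ Vt := fun hv => by
    have := hVle hv
    rwa [Subgroup.mem_subgroupOf] at this
  have hVe : IsElementaryAbelian 2 V := by
    refine ⟨⟨⟨fun a b => Subtype.ext (Subtype.ext ?_)⟩⟩, fun a ha => Subtype.ext ?_⟩
    · exact hVtc (hVG a.2) (hVG b.2)
    · have := (hVt1 (hVG ha)).2.2
      simpa using this
  have hsB : Group.IsSolvable B :=
    Group.isSolvable_of_isSolvable_injective (f := Subgroup.inclusion hBL)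
      (Subgroup.inclusion_injective hBL)
  have hsep : Cfsg.IsPSolvable 2 B := Cfsg.Agent.Lib.Core.PSolvable2.isPSolvable_of_isSolvable
  set d₀ : B := ⟨d, hKB hdK⟩ with hd₀
  have hcenD : ∀ {x : B}, (x : G) ∈ D → x ∈ centralizer (V : Set B) := by
    intro x hx
    rw [mem_centralizer_iff]
    intro v hv
    exact Subtype.ext ((hVt1 (hVG hv)).2.1 _ hx).symm
  have hP3 : piV V d₀ ∈ Cfsg.pCore 3 (B ⧸ centralizer (V : Set B)) := by
    set E₃ := (K.subgroupOf B).map (piV V) with hE₃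
    have h1 : IsPGroup 3 E₃ := by
      rintro ⟨_, k, hk, rfl⟩
      refine ⟨1, Subtype.ext ?_⟩
      have hk' : (k : G) ∈ K := Subgroup.mem_subgroupOf.mp hk
      have h2 : k ^ 3 ∈ centralizer (V : Set B) := hcenD (by
        have := hQD (hcube _ hk')
        simpa using this)
      have h3 : piV V (k ^ 3) = 1 := by
        rw [← MonoidHom.mem_ker, piV_ker]
        exact h2
      simpa [pow_one, map_pow] using h3
    have h2 : SN E₃ ⊤ := by
      have h3 := SN_map (piV V) (isSubnormal_iff_SN_top.mp hsn)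
      rwa [Subgroup.map_top_of_surjective _ piV_surj] at h3
    have h3 := le_pCoreOf_of_SN h2 h1
    have hn : (pCoreOf 3 (⊤ : Subgroup (B ⧸ centralizer (V : Set B)))).Normal :=
      Subgroup.normalizer_eq_top_iff.mp (top_le_iff.mp (le_normalizer_pCoreOf ⊤))
    have h4 := Cfsg.Agent.Lib.Core.Basic.le_pCore hn (isPGroup_pCoreOf (p := 3) ⊤)
    apply h4
    apply h3
    exact ⟨d₀, Subgroup.mem_subgroupOf.mpr hdK, rfl⟩
  have hrelW := fun w (hw : w ∈ W) => rel_of_setup hS (hcube d hdK) hw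
  obtain ⟨hO, hnorm⟩ := Cfsg.Agent.Lib.JSub.SnTV.X_main (V := V) (W := WX) (d := d₀) hsep hVe rfl
    (hcenD (by
      have := hQD (hcube d hdK)
      simpa using this))
    (fun v hv => by
      rw [hWX, Subgroup.mem_subgroupOf]
      exact hVtW _ (hVG hv))
    (fun w hw => Subtype.ext (by
      have hw' : (w : G) ∈ W := by rwa [hWX, Subgroup.mem_subgroupOf] at hw
      simpa using hrelW _ hw'))
    (fun w hw h => Subtype.ext (by
      have hw' : (w : G) ∈ W := by rwa [hWX, Subgroup.mem_subgroupOf] at hw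
      by_contra hne
      exact hS.not_fix hw' hne (congrArg Subtype.val h)))
    (fun w hw hw1 z hz => by
      have hw' : (w : G) ∈ W := by rwa [hWX, Subgroup.mem_subgroupOf] at hw
      have hz' : (z : G) ∈ W := by rwa [hWX, Subgroup.mem_subgroupOf] at hz
      have hw1' : (w : G) ≠ 1 := fun h => hw1 (Subtype.ext h)
      rcases hcov _ hw' hw1' _ hz' with h | h | h | h
      · exact Or.inl (Subtype.ext h)
      · exact Or.inr (Or.inl (Subtype.ext h))
      · exact Or.inr (Or.inr (Or.inl (Subtype.ext h)))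
      · exact Or.inr (Or.inr (Or.inr (Subtype.ext h))))
    hP3
  -- a Sylow subgroup of `B` inside a conjugate of `T`
  obtain ⟨P, hJP, hPB⟩ := exists_sylow_in hJ2 hJB
  obtain ⟨S₀, hPS₀, hS₀L⟩ := exists_sylow_in hPB.2.1 (hPB.1.trans hBL)
  obtain ⟨ℓ, -, hS₀⟩ := exists_conj_sylow hTL hS₀L
  have hP2 : IsPGroup 2 (P.subgroupOf B) := hPB.2.1.comap_subtype
  let PX : Sylow 2 B := hP2.toSylow (isSylowIn_of_two hPB).2.2
  have hPX : (PX : Subgroup B) = P.subgroupOf B := rfl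
  have hVp : IsPGroup 2 V := fun v => by
    refine ⟨1, Subtype.ext (Subtype.ext ?_)⟩
    have := (hVt1 (hVG v.2)).2.2
    simpa [pow_one] using this
  have hVP : V ≤ P.subgroupOf B := by
    rw [← hPX]
    exact IsPGroup.le_sylow_of_normal hVp PX
  -- the best offenders
  rw [hJ, thompsonSubgroupOf_eq]
  refine sSup_le fun A hA a ha => ?_
  have hAJ : A ≤ J := by
    rw [hJ, thompsonSubgroupOf_eq]
    exact hA.le_jOf
  have hAB : A ≤ B := hAJ.trans hJB
  have hLE : LE2 (P.subgroupOf B) (A.subgroupOf B) := by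
    refine ⟨fun x hx => ?_, ?_, fun C hC hCe => ?_⟩
    · rw [Subgroup.mem_subgroupOf] at hx ⊢
      exact hJP (hAJ hx)
    · exact IsAbExp.comap_of_injective hA.2.1 B.subtype B.subtype_injective
    · have h1 : C.map B.subtype ≤ P := by
        rintro _ ⟨b, hb, rfl⟩
        have := hC hb
        rwa [Subgroup.mem_subgroupOf] at this
      have h2 : (C.map B.subtype).map (MulAut.conj ℓ⁻¹).toMonoidHom ≤ T := by
        have h3 := Subgroup.map_mono (f := (MulAut.conj ℓ⁻¹).toMonoidHom) (h1.trans hPS₀)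
        rwa [hS₀, map_conj_conj_inv] at h3
      have h3 := hA.2.2 _ h2 (IsAbExp.map (IsAbExp.map hCe _) _)
      rw [card_map_conj] at h3
      have h4 : Nat.card (C.map B.subtype) = Nat.card C :=
        (Nat.card_congr (C.equivMapOfInjective _ B.subtype_injective).toEquiv).symm
      have h5 : Nat.card (A.subgroupOf B) = Nat.card A :=
        Nat.card_congr (Subgroup.subgroupOfEquivOfLe hAB).toEquiv
      rw [h5, ← h4]
      exact h3
  have hbest := hbest_of (T := P.subgroupOf B) hsep hP2 hVe hVP hO hLE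
  have haN := hnorm _ hbest (⟨a, hAB ha⟩ : B) (by
    rw [Subgroup.mem_subgroupOf]
    exact ha)
  refine Cfsg.Agent.Lib.LocalEven.Util.mem_normalizer_of_conj_le fun w hw => ?_
  have hwB : w ∈ B := hKB (hS.hQK (hS.hWQ hw))
  have h1 := conj_mem haN (show (⟨w, hwB⟩ : B) ∈ WX by
    rw [hWX, Subgroup.mem_subgroupOf]
    exact hw)
  rw [hWX, Subgroup.mem_subgroupOf] at h1
  simpa using h1

/-- The theorem. -/
theorem main {L T K : Subgroup G} (hL : IsCharacteristicTwoType G)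
    (hN : ∀ N : Subgroup G, IsTwoLocal N → Group.IsSolvable ↥N)
    (hZ : ∀ S : Sylow 2 G, centralizer (omegaCenterOf (S : Subgroup G) : Set G) ≤
      normalizer ((S : Subgroup G) : Set G)) (hT : IsPGroup 2 T) (hT1 : T ≠ ⊥)
    (hLT : L ∈ jOvergroups T) (hKL : K ≤ L)
    (hKsn : (K.subgroupOf (K ⊔ thompsonSubgroupOf 2 T)).IsSubnormal) (g : G)
    (hKg : K ∈ jComponentsZero (T.map (MulAut.conj g).toMonoidHom)) : IsJComponent T K := by
  obtain ⟨hTL, -, hRc⟩ := hLT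
  have hs := isSylowIn_of_two hTL
  have hLR : L ≤ normalizer (pCoreOf 2 L : Set G) := le_normalizer_pCoreOf L
  have hRT : pCoreOf 2 L ≤ T :=
    Cfsg.Agent.Lib.Coprime.Action.le_of_normal_of_isSylowIn hs (pCoreOf_le L) (isPGroup_pCoreOf L) hLR
  have hne := pCoreOf_ne_bot hT1 hTL.1 hRc hRT
  have hsolvN := hN _ ⟨pCoreOf 2 L, isPGroup_pCoreOf L, hne, rfl⟩
  have hsolv : Group.IsSolvable L :=
    Group.isSolvable_of_isSolvable_injective (f := Subgroup.inclusion hLR)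
      (Subgroup.inclusion_injective hLR)
  have hT₁ : IsPGroup 2 (T.map (MulAut.conj g).toMonoidHom) := hT.map _
  have hJW := thompson_le_normalizer hsolv hTL hT₁ hKg.1 hKL hKsn
  have h := (Cfsg.Agent.Lib.JSub.Zero.main hL hN hZ hT₁ hKg).2 g⁻¹ (by
    rw [map_conj_conj_inv]
    exact hJW)
  rwa [map_conj_conj_inv] at h

end Cfsg.Agent.Lib.JSub.Sn
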