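import Cfsg.Agent.Lib.JSub.Unique
import Cfsg.Agent.S2946

/-!
# Two `J`-components with distinct four-groups: `T` is a Sylow subgroup
-/

set_option autoImplicit false
set_option linter.unusedSectionVars false
set_option linter.unusedSimpArgs false
set_option linter.style.haveILetI false

open scoped commutatorElement

namespace Cfsg.Agent.Lib.JSub.Split

open Cfsg Subgroup
open Cfsg.Agent.Lib.JSub.Main
open Cfsg.Agent.Lib.JSub.NormW (rel_of_setup)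
open Cfsg.Agent.Lib.JSub.Zero
open Cfsg.Agent.Lib.JSub.Exist
open Cfsg.Agent.Lib.JSub.Strad
open Cfsg.Agent.Lib.JSub.Unique
open Cfsg.Agent.Lib.JSub.Sn (cover_of_setup)
open Cfsg.Agent.Lib.PointStab.Step (nrm_of_conj conj_mem conj_inv_mem mem_Z₁ Z₁)
open Cfsg.Agent.Lib.PLocal.Thompson (IsMaxIn jOf thompsonSubgroupOf_eq IsAbExp exists_isMaxIn)
open Cfsg.Agent.Lib.LocalStruct.PCoreOf
open Cfsg.Agent.Lib.LocalEven.JComp (Setup exists_setup K_le_normalizer_wOf normalizer_le_wOf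
  index3_le normalizer_le_omegaCenterOf normalizer_le_pCoreOf)
open Cfsg.Agent.Lib.LocalEven.Util (mem_normalizer_of_conj_le)
open Cfsg.Agent.Lib.Coprime.Action (le_of_normal_of_isSylowIn)

variable {G : Type*} [Group G] [Finite G]

/-- `Ω₁(Z(J(T)))`. -/
abbrev Zo (T : Subgroup G) : Subgroup G := omegaCenterOf (thompsonSubgroupOf 2 T)

theorem Zo_J {T : Subgroup G} {a : G} (ha : a ∈ Zo T) : a ∈ thompsonSubgroupOf 2 T :=
  (mem_Z₁.mp ha).1

theorem Zo_T {T : Subgroup G} {a : G} (ha : a ∈ Zo T) : a ∈ T := thompson_le T (Zo_J ha)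

theorem Zo_cent {T : Subgroup G} {a j : G} (ha : a ∈ Zo T) (hj : j ∈ thompsonSubgroupOf 2 T) :
    j * a = a * j := (mem_Z₁.mp ha).2.1 j hj

theorem Zo_comm {T : Subgroup G} {a b : G} (ha : a ∈ Zo T) (hb : b ∈ Zo T) : a * b = b * a :=
  Zo_cent hb (Zo_J ha)

theorem Zo_sq {T : Subgroup G} {a : G} (ha : a ∈ Zo T) : a * a = 1 := by
  have := (mem_Z₁.mp ha).2.2
  rwa [pow_two] at this

theorem Zo_inv {T : Subgroup G} {a : G} (ha : a ∈ Zo T) : a⁻¹ = a :=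
  inv_eq_of_mul_eq_one_left (Zo_sq ha)

/-- An element commuting with `T` with square one lies in `Ω₁(Z(J(T)))`. -/
theorem mem_Zo_of_comm {T : Subgroup G} {x : G} (hxT : x ∈ T) (hxx : x * x = 1)
    (hc : ∀ j ∈ thompsonSubgroupOf 2 T, j * x = x * j) : x ∈ Zo T := by
  have hJ : x ∈ thompsonSubgroupOf 2 T := by
    obtain ⟨A, hA⟩ := exists_isMaxIn 2 T
    have hle : A ≤ thompsonSubgroupOf 2 T := by
      rw [thompsonSubgroupOf_eq]
      exact hA.le_jOf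
    exact hle (hA.mem_of_commute hxT (by rw [pow_two]; exact hxx) fun a ha => hc a (hle ha))
  exact mem_Z₁.mpr ⟨hJ, hc, by rw [pow_two]; exact hxx⟩

/-- Split form of the decomposition of `Ω₁(Z(J(T)))`. -/
theorem split (hL : IsCharacteristicTwoType G)
    (hN : ∀ N : Subgroup G, IsTwoLocal N → Group.IsSolvable ↥N)
    (hZ : ∀ S : Sylow 2 G, centralizer (omegaCenterOf (S : Subgroup G) : Set G) ≤
      normalizer ((S : Subgroup G) : Set G)) {T K : Subgroup G} (hT : IsPGroup 2 T) (hT1 : T ≠ ⊥)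
    (hK : IsJComponent T K) :
    ∃ z ∈ Zo T, z ∈ wOf K ∧ z ≠ 1 ∧
      ∀ a ∈ Zo T, (∀ k ∈ K, k * a = a * k) ∨ (∀ k ∈ K, k * (a * z) = (a * z) * k) := by
  obtain ⟨h2, hsup⟩ := Cfsg.Agent.S2946.result hL hN hZ T hT hT1 K hK _ rfl
  obtain ⟨⟨z, hz⟩, hz1, hzu⟩ := (Nat.card_eq_two_iff' (1 : ↥(Zo T ⊓ wOf K))).mp h2
  have hz1' : z ≠ 1 := fun h => hz1 (Subtype.ext h)
  have hcases : ∀ x ∈ Zo T ⊓ wOf K, x = 1 ∨ x = z := by
    intro x hx
    by_cases h : x = 1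
    · exact Or.inl h
    · right
      have := hzu ⟨x, hx⟩ (fun h' => h (congrArg Subtype.val h'))
      exact congrArg Subtype.val this
  refine ⟨z, hz.1, hz.2, hz1', fun a ha => ?_⟩
  have ha' := ha
  unfold Zo at ha'
  rw [← hsup] at ha'
  have hle : omegaCenterOf (thompsonSubgroupOf 2 T) ⊓ ((K ⊔ thompsonSubgroupOf 2 T) ⊓
      centralizer ((K : Set G) ⊔ (thompsonSubgroupOf 2 T : Set G))) ≤
      normalizer ((Zo T ⊓ wOf K : Subgroup G) : Set G) := by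
    intro x hx
    refine mem_normalizer_of_conj_le fun y hy => ?_
    have e : x * y * x⁻¹ = y := by
      rw [Zo_comm hx.1 hy.1]
      group
    rw [e]
    exact hy
  obtain ⟨x, hx, b, hb, rfl⟩ := Cfsg.Agent.Lib.Components.Basic.mem_sup_of_le_normalizer hle ha'
  have hxc : ∀ k ∈ K, k * x = x * k := fun k hk =>
    mem_centralizer_iff.mp hx.2.2 k (Or.inl hk)
  rcases hcases b hb with rfl | rfl
  · left
    rwa [mul_one]
  · right
    rw [mul_assoc, Zo_sq hb.1, mul_one]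
    exact hxc

/-- Elements commuting with `x` normalize `⟨x⟩`. -/
theorem mem_norm_zp {x c : G} (h : c * x = x * c) : c ∈ normalizer (zpowers x : Set G) := by
  refine Subgroup.centralizer_le_normalizer _ ?_
  rw [mem_centralizer_iff]
  intro y hy
  obtain ⟨k, rfl⟩ := Subgroup.mem_zpowers_iff.mp hy
  exact (Commute.zpow_left (show Commute x c from h.symm) k).eq

theorem isTwoLocal_zp {x : G} (hxx : x * x = 1) (hx1 : x ≠ 1) :
    IsTwoLocal (normalizer (zpowers x : Set G)) := by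
  refine ⟨zpowers x, ?_, by simpa using hx1, rfl⟩
  rintro ⟨y, hy⟩
  obtain ⟨k, rfl⟩ := Subgroup.mem_zpowers_iff.mp hy
  refine ⟨1, Subtype.ext ?_⟩
  have h2 : x ^ 2 = 1 := by rw [pow_two]; exact hxx
  show (x ^ k) ^ 2 ^ 1 = 1
  rw [pow_one, ← zpow_natCast, ← zpow_mul, mul_comm, zpow_mul]
  simp [h2]

section CEfacts

variable {L T C E Y V K₁ K₂ : Subgroup G}

/-- Distinct four-groups meet trivially. -/
theorem ce_inf_bot (h : CE L T C E Y V) (hT : IsPGroup 2 T) (hK₁ : IsJComponent T K₁) (hK₁L : K₁ ≤ L)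
    (hK₂ : IsJComponent T K₂) (hK₂L : K₂ ≤ L) (hRK₂ : pCoreOf 2 L ≤ normalizer (K₂ : Set G))
    (hne : wOf K₁ ≠ wOf K₂) : wOf K₁ ⊓ wOf K₂ = ⊥ := by
  obtain ⟨S, d, -, -, -, hS⟩ := exists_setup hT hK₁
  have hd₂ : d ∈ normalizer (wOf K₂ : Set G) :=
    ce_E_le h hT hK₂ hK₂L hRK₂ (ce_KE h hK₁ hK₁L hS.hgK)
  rw [eq_bot_iff]
  intro e he
  by_contra he1
  have he1' : e ≠ 1 := fun h => he1 (by simpa using h)
  apply hne
  have hle : wOf K₁ ≤ wOf K₂ := by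
    intro w hw
    rcases cover_of_setup hS (cube_mem hK₁ hS.hgK) e he.1 he1' w hw with h1 | h1 | h1 | h1
    · rw [h1]
      exact one_mem _
    · rw [h1]
      exact he.2
    · rw [h1]
      exact conj_mem hd₂ he.2
    · rw [h1]
      exact conj_mem (mul_mem hd₂ hd₂) he.2
  refine Subgroup.eq_of_le_of_card_ge hle ?_
  rw [hK₁.2.2.2.2.1, hK₂.2.2.2.2.1]

/-- `K₁` centralizes the four-group of `K₂`. -/
theorem ce_comm (h : CE L T C E Y V) (hT : IsPGroup 2 T) (hK₁ : IsJComponent T K₁) (hK₁L : K₁ ≤ L)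
    (hRK₁ : pCoreOf 2 L ≤ normalizer (K₁ : Set G))
    (hK₂ : IsJComponent T K₂) (hK₂L : K₂ ≤ L) (hRK₂ : pCoreOf 2 L ≤ normalizer (K₂ : Set G))
    (hne : wOf K₁ ≠ wOf K₂) : ∀ k ∈ K₁, ∀ w ∈ wOf K₂, k * w = w * k := by
  obtain ⟨S₁, d, -, -, -, hS₁⟩ := exists_setup hT hK₁
  obtain ⟨S₂, d₂, -, -, -, hS₂⟩ := exists_setup hT hK₂
  have hinf := ce_inf_bot h hT hK₁ hK₁L hK₂ hK₂L hRK₂ hne
  have hd₂ : d ∈ normalizer (wOf K₂ : Set G) :=
    ce_E_le h hT hK₂ hK₂L hRK₂ (ce_KE h hK₁ hK₁L hS₁.hgK)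
  intro k hk w hw
  have hwV : w ∈ V := (ce_W_le_V h hT hK₂ hK₂L hRK₂ hS₂ w hw).1
  have hc : d * w * d⁻¹ * w⁻¹ ∈ wOf K₁ ⊓ wOf K₂ :=
    ⟨ce_comm_mem_W h hK₁ hK₁L hRK₁ hS₁.hgK hwV,
      (wOf K₂).mul_mem (conj_mem hd₂ hw) ((wOf K₂).inv_mem hw)⟩
  rw [hinf, Subgroup.mem_bot, mul_inv_eq_one, mul_inv_eq_iff_eq_mul] at hc
  have hle : K₁ ≤ centralizer ({w} : Set G) := by
    refine index3_le (pCoreOf_le K₁) hK₁.2.2.1 ?_ hS₁.hgK
      (Subgroup.mem_centralizer_singleton_iff.mpr hc) hS₁.hgQ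
    intro q hq
    exact Subgroup.mem_centralizer_singleton_iff.mpr (ce_VR h hwV (ce_QR h hK₁ hK₁L hq))
  exact Subgroup.mem_centralizer_singleton_iff.mp (hle hk)

end CEfacts

/-- A `2`-group containing `T` in `L` is `T`. -/
theorem eq_of_sylow {T P L : Subgroup G} (hT : IsSylowTwoIn T L) (hTP : T ≤ P) (hPL : P ≤ L)
    (hP : IsPGroup 2 P) : P = T := by
  haveI : Fact (Nat.Prime 2) := ⟨Nat.prime_two⟩
  by_contra hne
  obtain ⟨x, hxP, hxT⟩ := SetLike.exists_of_lt (lt_of_le_of_ne hTP (Ne.symm hne))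
  have hs := Cfsg.Agent.Lib.PointStab.Step.isSylowIn_of_le (isSylowIn_of_two hT) hTP hPL
  apply hs.2.2
  have h1 : T.relIndex P ∣ Nat.card P := by
    refine ⟨Nat.card ↥(T.subgroupOf P), ?_⟩
    have := Subgroup.card_mul_index (T.subgroupOf P)
    rw [mul_comm]
    exact this.symm
  obtain ⟨n, hn⟩ := IsPGroup.iff_card.mp hP
  rw [hn] at h1
  obtain ⟨k, -, hk⟩ := (Nat.dvd_prime_pow Nat.prime_two).mp h1
  rw [hk]
  rcases k with _ | k
  · exfalso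
    rw [pow_zero, Subgroup.relIndex_eq_one] at hk
    exact hxT (hk hxP)
  · exact dvd_pow_self 2 (by omega)

/-- `N_G(L) = L` for maximal `2`-locals with nontrivial `2`-core. -/
theorem norm_self {L : Subgroup G} (hLm : IsMaximalTwoLocal L) (hR : pCoreOf 2 L ≠ ⊥) :
    normalizer (L : Set G) ≤ L := by
  haveI : Fact (Nat.Prime 2) := ⟨Nat.prime_two⟩
  have hloc : IsTwoLocal (normalizer (pCoreOf 2 L : Set G)) := ⟨_, isPGroup_pCoreOf L, hR, rfl⟩
  have h1 := hLm.2 _ hloc (le_normalizer_pCoreOf L)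
  intro g hg
  have h2 : g ∈ normalizer (pCoreOf 2 L : Set G) := normalizer_le_pCoreOf hg
  rwa [h1] at h2

theorem isTwoLocal_map {L : Subgroup G} (hL : IsTwoLocal L) (g : G) :
    IsTwoLocal (L.map (MulAut.conj g).toMonoidHom) := by
  obtain ⟨W, hW, hWne, rfl⟩ := hL
  refine ⟨W.map (MulAut.conj g).toMonoidHom, hW.map _, ?_, ?_⟩
  · intro h
    apply hWne
    have h1 := Subgroup.map_injective (MulAut.conj g).injective (h.trans (Subgroup.map_bot _).symm)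
    exact h1
  · rw [Cfsg.Agent.Lib.LocalStruct.Basic.normalizer_map_conj]

/-- A component inside a `2`-group normalizer is impossible. -/
theorem not_le_norm {T K X : Subgroup G} (hK : IsJComponent T K) (hJX : thompsonSubgroupOf 2 T ≤ X)
    (hX : IsPGroup 2 X) (hle : K ≤ normalizer (X : Set G)) : False := by
  haveI : Fact (Nat.Prime 2) := ⟨Nat.prime_two⟩
  have h1 : K ≤ X := by
    conv_lhs => rw [← hK.2.1]
    rw [Subgroup.commutator_le]
    intro k hk j hj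
    rw [commutatorElement_def]
    exact X.mul_mem (conj_mem (hle hk) (hJX hj)) (X.inv_mem (hJX hj))
  have h2 : K ≤ pCoreOf 2 K := le_pCoreOf le_rfl Subgroup.le_normalizer (hX.to_le h1)
  have h3 := Subgroup.relIndex_eq_one.mpr h2
  have h4 := hK.2.2.1
  omega

/-- A component outside `M` has a conjugate in `L` only if the conjugating element lies in `L`. -/
theorem mem_of_conj_le {M' T L K : Subgroup G} {S' : Sylow 2 G} (hH : Hyp M' T S') (hK : IsJComponent T K)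
    (hKM : ¬ K ≤ M') (hLm : IsMaximalTwoLocal L) (hR : pCoreOf 2 L ≠ ⊥)
    (hJL : thompsonSubgroupOf 2 T ≤ L) {g : G} (hg : g ∈ normalizer (thompsonSubgroupOf 2 T : Set G))
    (hKL : K ≤ L) (hKLg : K ≤ L.map (MulAut.conj g).toMonoidHom) : g ∈ L := by
  have hJLg : thompsonSubgroupOf 2 T ≤ L.map (MulAut.conj g).toMonoidHom := by
    have h1 : (thompsonSubgroupOf 2 T).map (MulAut.conj g).toMonoidHom = thompsonSubgroupOf 2 T :=
      Subgroup.mem_normalizer_iff_map_conj_eq.mp hg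
    rw [← h1]
    exact Subgroup.map_mono hJL
  have h1 := hH.le_norm hK hKM hLm.1 hKL hJL
  have h2 := hLm.2 _ (hH.isTwoLocal_WW hK hKM) h1
  have h3 := hH.le_norm hK hKM (isTwoLocal_map hLm.1 g) hKLg hJLg
  rw [h2] at h3
  have h4 : L.map (MulAut.conj g).toMonoidHom = L := by
    refine Subgroup.eq_of_le_of_card_ge h3 ?_
    rw [card_map_conj]
  exact norm_self hLm hR (Subgroup.mem_normalizer_iff_map_conj_eq.mpr h4)

/-- Commuting with a product. -/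
theorem comm_mul {K : Subgroup G} {a b : G} (ha : ∀ k ∈ K, k * a = a * k) (hb : ∀ k ∈ K, k * b = b * k) :
    ∀ k ∈ K, k * (a * b) = (a * b) * k := by
  intro k hk
  rw [← mul_assoc, ha k hk, mul_assoc, hb k hk, mul_assoc]

/-- Two `J`-components in `L = L(K₁)` with distinct four-groups. -/
structure Two (M T L K₁ K₂ : Subgroup G) (S : Sylow 2 G) (t : G) : Prop where
  h : Hyp M T S
  hK₁ : K₁ ∈ jComponentsOutside M T
  hLd : L = normalizer (WW T K₁ : Set G)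
  ht : t ∈ T
  hK₂d : K₂ = K₁.map (MulAut.conj t).toMonoidHom
  hW : wOf K₁ ≠ wOf K₂

namespace Two

variable {M T L K₁ K₂ : Subgroup G} {S : Sylow 2 G} {t : G} (H : Two M T L K₁ K₂ S t)

include H

theorem J₁ : IsJComponent T K₁ := H.hK₁.1.1

theorem M₁ : ¬ K₁ ≤ M := H.hK₁.2.1

theorem J₂ : IsJComponent T K₂ := by
  rw [H.hK₂d]
  exact isJ_map H.J₁ (le_normalizer_thompson T H.ht)

theorem tM : t ∈ M := H.h.hT.1.2.2.1 H.ht

theorem M₂ : ¬ K₂ ≤ M := by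
  intro hle
  apply H.M₁
  intro k hk
  have h1 : t * k * t⁻¹ ∈ M := hle (by rw [H.hK₂d]; exact ⟨k, hk, rfl⟩)
  have e : k = t⁻¹ * (t * k * t⁻¹) * t := by group
  rw [e]
  exact M.mul_mem (M.mul_mem (M.inv_mem H.tM) h1) H.tM

theorem isMax : IsMaximalTwoLocal L := by
  rw [H.hLd]
  exact H.h.isMax_L H.J₁ H.M₁

theorem Sy : IsSylowTwoIn T L := by
  rw [H.hLd]
  exact H.h.sylow_L H.hK₁

theorem Ov : L ∈ jOvergroups T := by
  rw [H.hLd]
  exact H.h.over_L H.hK₁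

theorem K₁L : K₁ ≤ L := by
  rw [H.hLd]
  exact H.h.K_le_L H.J₁ H.M₁

theorem JL : thompsonSubgroupOf 2 T ≤ L := (thompson_le T).trans H.Sy.1

theorem K₂L : K₂ ≤ L := by
  rw [H.hK₂d]
  rintro _ ⟨k, hk, rfl⟩
  have htL := H.Sy.1 H.ht
  exact L.mul_mem (L.mul_mem htL (H.K₁L hk)) (L.inv_mem htL)

theorem Rne : pCoreOf 2 L ≠ ⊥ := by
  haveI : Fact (Nat.Prime 2) := ⟨Nat.prime_two⟩
  exact pCoreOf_ne_bot H.h.hT1 H.Sy.1 H.Ov.2.2 (le_of_normal_of_isSylowIn (isSylowIn_of_two H.Sy)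
    (pCoreOf_le L) (isPGroup_pCoreOf L) (le_normalizer_pCoreOf L))

theorem CEx : ∃ C E Y V, CE L T C E Y V :=
  exists_CE5 H.h.hZ (H.h.hN L H.isMax.1) H.h.hTp H.Sy H.Ov.2.2

theorem RK {K : Subgroup G} (hK : IsJComponent T K) (hKL : K ≤ L) : pCoreOf 2 L ≤ normalizer (K : Set G) :=
  H.h.RK H.Sy H.h.hTp H.h.hT1 rfl hK hKL

theorem inf : wOf K₁ ⊓ wOf K₂ = ⊥ := by
  obtain ⟨C, E, Y, V, hCE⟩ := H.CEx
  exact ce_inf_bot hCE H.h.hTp H.J₁ H.K₁L H.J₂ H.K₂L (H.RK H.J₂ H.K₂L) H.hW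

theorem comm₁₂ : ∀ k ∈ K₁, ∀ w ∈ wOf K₂, k * w = w * k := by
  obtain ⟨C, E, Y, V, hCE⟩ := H.CEx
  exact ce_comm hCE H.h.hTp H.J₁ H.K₁L (H.RK H.J₁ H.K₁L) H.J₂ H.K₂L (H.RK H.J₂ H.K₂L) H.hW

theorem comm₂₁ : ∀ k ∈ K₂, ∀ w ∈ wOf K₁, k * w = w * k := by
  obtain ⟨C, E, Y, V, hCE⟩ := H.CEx
  exact ce_comm hCE H.h.hTp H.J₂ H.K₂L (H.RK H.J₂ H.K₂L) H.J₁ H.K₁L (H.RK H.J₁ H.K₁L) H.hW.symm

/-- Common centralized elements force containment in `L`. -/
theorem le_L {K K' : Subgroup G} {x : G} (hK : IsJComponent T K) (hKM : ¬ K ≤ M) (hKL : K ≤ L)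
    (hx : x ∈ Zo T) (hx1 : x ≠ 1) (hc : ∀ k ∈ K, k * x = x * k) (hc' : ∀ k ∈ K', k * x = x * k) :
    K' ≤ L := by
  have hloc := isTwoLocal_zp (Zo_sq hx) hx1
  have hKH : K ≤ normalizer (zpowers x : Set G) := fun k hk => mem_norm_zp (hc k hk)
  have hJH : thompsonSubgroupOf 2 T ≤ normalizer (zpowers x : Set G) := fun j hj =>
    mem_norm_zp (Zo_cent hx hj)
  have h1 := H.h.le_norm hK hKM hloc hKH hJH
  have h2 := H.h.unique_L hK hKM H.isMax (sup_le hKL H.JL)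
  rw [← h2] at h1
  have h3 : K' ≤ normalizer (zpowers x : Set G) := fun k hk => mem_norm_zp (hc' k hk)
  exact h3.trans h1

/-- The structure of `Ω₁(Z(J))` if some component lies outside `L`. -/
theorem lemZ {K' : Subgroup G} (hK' : IsJComponent T K') (hK'L : ¬ K' ≤ L) :
    ∃ y ∈ Zo T, y ≠ 1 ∧ (∀ k ∈ K', k * y = y * k) ∧ (∀ a ∈ Zo T, (∀ k ∈ K', k * a = a * k) → a = 1 ∨ a = y) ∧
      (∀ s ∈ T, s * y * s⁻¹ = y) ∧ (∀ a ∈ Zo T, (∀ s ∈ T, s * a * s⁻¹ = a) → a = 1 ∨ a = y) := by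
  haveI : Fact (Nat.Prime 2) := ⟨Nat.prime_two⟩
  have hL' := H.h.hL
  have hN' := H.h.hN
  have hZ' := H.h.hZ
  have hT := H.h.hTp
  have hT1 := H.h.hT1
  obtain ⟨z₁, hz₁, hz₁W, hz₁1, hs₁⟩ := split hL' hN' hZ' hT hT1 H.J₁
  obtain ⟨z₂, hz₂, hz₂W, hz₂1, hs₂⟩ := split hL' hN' hZ' hT hT1 H.J₂
  obtain ⟨z', hz', hz'W, hz'1, hs'⟩ := split hL' hN' hZ' hT hT1 hK'
  have hz₂c : ∀ k ∈ K₁, k * z₂ = z₂ * k := fun k hk => H.comm₁₂ k hk z₂ hz₂W
  have hz₁c : ∀ k ∈ K₂, k * z₁ = z₁ * k := fun k hk => H.comm₂₁ k hk z₁ hz₁W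
  have hne : z₁ ≠ z₂ := by
    intro h
    have h1 : z₁ ∈ wOf K₁ ⊓ wOf K₂ := ⟨hz₁W, h ▸ hz₂W⟩
    rw [H.inf, Subgroup.mem_bot] at h1
    exact hz₁1 h1
  have hA₁ : ∀ x ∈ Zo T, x ≠ 1 → (∀ k ∈ K₁, k * x = x * k) → ¬ (∀ k ∈ K', k * x = x * k) :=
    fun x hx hx1 hc hc' => hK'L (H.le_L H.J₁ H.M₁ H.K₁L hx hx1 hc hc')
  have hA₂ : ∀ x ∈ Zo T, x ≠ 1 → (∀ k ∈ K₂, k * x = x * k) → ¬ (∀ k ∈ K', k * x = x * k) :=
    fun x hx hx1 hc hc' => hK'L (H.le_L H.J₂ H.M₂ H.K₂L hx hx1 hc hc')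
  -- products with `z'`
  have hprod : ∀ a ∈ Zo T, ∀ b ∈ Zo T, (∀ k ∈ K', k * (a * z') = (a * z') * k) →
      (∀ k ∈ K', k * (b * z') = (b * z') * k) → ∀ k ∈ K', k * (a * b) = (a * b) * k := by
    intro a ha b hb h1 h2
    have e : (a * z') * (b * z') = a * b := by
      calc (a * z') * (b * z') = a * (z' * b) * z' := by group
        _ = a * (b * z') * z' := by rw [Zo_comm hz' hb]
        _ = (a * b) * (z' * z') := by group
        _ = a * b := by rw [Zo_sq hz', mul_one]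
    have := comm_mul h1 h2
    rwa [e] at this
  have hF₁ : ∀ a ∈ Zo T, (∀ k ∈ K₁, k * a = a * k) → a = 1 ∨ a = z₂ := by
    intro a ha hc
    by_contra hcon
    push Not at hcon
    obtain ⟨ha1, ha2⟩ := hcon
    have h1 := (hs' a ha).resolve_left (hA₁ a ha ha1 hc)
    have h2 := (hs' z₂ hz₂).resolve_left (hA₁ z₂ hz₂ hz₂1 hz₂c)
    have h3 := hprod a ha z₂ hz₂ h1 h2
    have h4 : a * z₂ ≠ 1 := by
      intro h
      rw [mul_eq_one_iff_eq_inv, Zo_inv hz₂] at h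
      exact ha2 h
    exact hA₁ _ ((Zo T).mul_mem ha hz₂) h4 (comm_mul hc hz₂c) h3
  have hF₂ : ∀ a ∈ Zo T, (∀ k ∈ K₂, k * a = a * k) → a = 1 ∨ a = z₁ := by
    intro a ha hc
    by_contra hcon
    push Not at hcon
    obtain ⟨ha1, ha2⟩ := hcon
    have h1 := (hs' a ha).resolve_left (hA₂ a ha ha1 hc)
    have h2 := (hs' z₁ hz₁).resolve_left (hA₂ z₁ hz₁ hz₁1 hz₁c)
    have h3 := hprod a ha z₁ hz₁ h1 h2
    have h4 : a * z₁ ≠ 1 := by
      intro h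
      rw [mul_eq_one_iff_eq_inv, Zo_inv hz₁] at h
      exact ha2 h
    exact hA₂ _ ((Zo T).mul_mem ha hz₁) h4 (comm_mul hc hz₁c) h3
  have hyZ : z₁ * z₂ ∈ Zo T := (Zo T).mul_mem hz₁ hz₂
  have hy1 : z₁ * z₂ ≠ 1 := by
    intro h
    rw [mul_eq_one_iff_eq_inv, Zo_inv hz₂] at h
    exact hne h
  have hy' : ∀ k ∈ K', k * (z₁ * z₂) = (z₁ * z₂) * k :=
    hprod z₁ hz₁ z₂ hz₂ ((hs' z₁ hz₁).resolve_left (hA₂ z₁ hz₁ hz₁1 hz₁c))
      ((hs' z₂ hz₂).resolve_left (hA₁ z₂ hz₂ hz₂1 hz₂c))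
  have hF' : ∀ a ∈ Zo T, (∀ k ∈ K', k * a = a * k) → a = 1 ∨ a = z₁ * z₂ := by
    intro a ha hc
    by_contra hcon
    push Not at hcon
    obtain ⟨ha1, ha2⟩ := hcon
    have h1 : ¬ ∀ k ∈ K₁, k * a = a * k := fun h => hA₁ a ha ha1 h hc
    have h2 := (hs₁ a ha).resolve_left h1
    have h3 := comm_mul h2 hz₂c
    rw [mul_assoc] at h3
    have h4 : a * (z₁ * z₂) ≠ 1 := by
      intro h
      rw [mul_eq_one_iff_eq_inv, Zo_inv hyZ] at h
      exact ha2 h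
    exact hA₁ _ ((Zo T).mul_mem ha hyZ) h4 h3 (comm_mul hc hy')
  have hAll : ∀ a ∈ Zo T, a = 1 ∨ a = z₁ ∨ a = z₂ ∨ a = z₁ * z₂ := by
    intro a ha
    rcases hs₁ a ha with h | h
    · rcases hF₁ a ha h with h1 | h1
      · exact Or.inl h1
      · exact Or.inr (Or.inr (Or.inl h1))
    · rcases hF₁ _ ((Zo T).mul_mem ha hz₁) h with h1 | h1
      · right; left
        rw [mul_eq_one_iff_eq_inv, Zo_inv hz₁] at h1
        exact h1
      · right; right; right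
        have h2 : a = z₂ * z₁ := by
          calc a = (a * z₁) * z₁ := by rw [mul_assoc, Zo_sq hz₁, mul_one]
            _ = z₂ * z₁ := by rw [h1]
        rw [h2, Zo_comm hz₂ hz₁]
  -- the action of `t`
  have htJ := le_normalizer_thompson T H.ht
  have hZon : T ≤ normalizer (Zo T : Set G) := (le_normalizer_thompson T).trans normalizer_le_omegaCenterOf
  have ht₂ : t * z₂ * t⁻¹ = z₁ := by
    have h1 : t * z₂ * t⁻¹ ∈ Zo T := conj_mem (hZon H.ht) hz₂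
    have h2 : ∀ k ∈ K₂, k * (t * z₂ * t⁻¹) = (t * z₂ * t⁻¹) * k := by
      intro k hk
      rw [H.hK₂d] at hk
      obtain ⟨k₀, hk₀, rfl⟩ := hk
      have h3 := hz₂c k₀ hk₀
      have e : ((MulAut.conj t).toMonoidHom k₀) = t * k₀ * t⁻¹ := rfl
      rw [e]
      calc (t * k₀ * t⁻¹) * (t * z₂ * t⁻¹) = t * (k₀ * z₂) * t⁻¹ := by group
        _ = t * (z₂ * k₀) * t⁻¹ := by rw [h3]
        _ = _ := by group
    rcases hF₂ _ h1 h2 with h3 | h3
    · exfalso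
      apply hz₂1
      calc z₂ = t⁻¹ * (t * z₂ * t⁻¹) * t := by group
        _ = 1 := by rw [h3]; group
    · exact h3
  have hnotfix₁ : ¬ ∀ s ∈ T, s * z₁ * s⁻¹ = z₁ := by
    intro h
    apply hne
    have h2 : t * z₁ * t⁻¹ = t * z₂ * t⁻¹ := (h t H.ht).trans ht₂.symm
    exact mul_left_cancel (mul_right_cancel h2)
  have hnotfix₂ : ¬ ∀ s ∈ T, s * z₂ * s⁻¹ = z₂ := by
    intro h
    apply hne
    have h1 := h t H.ht
    rw [ht₂] at h1
    exact h1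
  have hfixuniq : ∀ a ∈ Zo T, (∀ s ∈ T, s * a * s⁻¹ = a) → a = 1 ∨ a = z₁ * z₂ := by
    intro a ha hfix
    rcases hAll a ha with h | h | h | h
    · exact Or.inl h
    · exact absurd (h ▸ hfix) hnotfix₁
    · exact absurd (h ▸ hfix) hnotfix₂
    · exact Or.inr h
  have hZne : (⊥ : Subgroup G) < Zo T := by
    refine lt_of_le_of_ne bot_le ?_
    intro h
    rw [← h, Subgroup.mem_bot] at hz₁
    exact hz₁1 hz₁
  obtain ⟨f, hf, hf1, hfix⟩ := Cfsg.Agent.Lib.JSub.F4.exists_fix_above hT hZne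
    (fun x hx => Zo_T hx) (fun s _ => by
      refine mem_normalizer_of_conj_le fun x hx => ?_
      rw [Subgroup.mem_bot] at hx ⊢
      rw [hx]
      group) hZon
  have hfix' : ∀ s ∈ T, s * f * s⁻¹ = f := by
    intro s hs
    have h1 := hfix s hs
    rw [Subgroup.mem_bot, inv_mul_eq_one] at h1
    exact h1.symm
  have hfy : f = z₁ * z₂ := by
    rcases hfixuniq f hf hfix' with h | h
    · exact absurd (by rw [h]; exact one_mem _) hf1
    · exact h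
  refine ⟨z₁ * z₂, hyZ, hy1, hy', hF', ?_, hfixuniq⟩
  rw [← hfy]
  exact hfix'

/-- `T` is a Sylow `2`-subgroup of `G`. -/
theorem exists_sylow : ∃ S₁ : Sylow 2 G, (S₁ : Subgroup G) = T := by
  haveI : Fact (Nat.Prime 2) := ⟨Nat.prime_two⟩
  obtain ⟨hTp, hT1, hTM, -⟩ := H.h.hT.1
  have hSM : (S : Subgroup G) ≤ M :=
    (Cfsg.Agent.Lib.QuadAct.ZJ.sylow_le_normalizer_thompson S).trans H.h.hMJ
  have hSs : IsSylowTwoIn (S : Subgroup G) M := by
    refine ⟨hSM, S.isPGroup', ?_⟩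
    have h1 := Subgroup.relIndex_mul_index hSM
    have h2 : ¬ 2 ∣ (S : Subgroup G).index := S.not_dvd_index
    rw [← Nat.not_even_iff_odd, even_iff_two_dvd]
    intro h3
    exact h2 (by rw [← h1]; exact dvd_mul_of_dvd_left h3 _)
  obtain ⟨S₁, hTS₁, hS₁⟩ := exists_sylow_in hTp hTM
  obtain ⟨m, hm, rfl⟩ := exists_conj_sylow hSs hS₁
  set S' := (S : Subgroup G).map (MulAut.conj m).toMonoidHom with hS'
  by_cases hTS : T = S'
  · have hnd : ¬ 2 ∣ T.index := by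
      rw [hTS, hS', Subgroup.index_map_of_bijective (MulAut.conj m).bijective]
      exact S.not_dvd_index
    exact ⟨hTp.toSylow hnd, rfl⟩
  · exfalso
    obtain ⟨g, hgS, hgT, hgN⟩ := exists_lt_normalizer hS₁.2.1 (lt_of_le_of_ne hTS₁ hTS)
    have hgJ : g ∈ normalizer (thompsonSubgroupOf 2 T : Set G) := norm_thompson hgN
    have hgM : g ∈ M := H.h.hJM hgJ
    have hK₃ := isJ_map H.J₁ hgJ
    set K₃ := K₁.map (MulAut.conj g).toMonoidHom with hK₃d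
    have hK₃M : ¬ K₃ ≤ M := by
      intro hle
      apply H.M₁
      intro k hk
      have h1 : g * k * g⁻¹ ∈ M := hle ⟨k, hk, rfl⟩
      have e : k = g⁻¹ * (g * k * g⁻¹) * g := by group
      rw [e]
      exact M.mul_mem (M.mul_mem (M.inv_mem hgM) h1) hgM
    have hgL : g ∉ L := by
      intro hgL
      have h1 : S' ⊓ L = T := eq_of_sylow H.Sy (le_inf hTS₁ H.Sy.1) inf_le_right
        (hS₁.2.1.to_le inf_le_left)
      exact hgT (h1 ▸ (⟨hgS, hgL⟩ : g ∈ S' ⊓ L))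
    have hK₃L : ¬ K₃ ≤ L := by
      intro hle
      exact hgL (mem_of_conj_le H.h hK₃ hK₃M H.isMax H.Rne H.JL hgJ hle
        (Subgroup.map_mono H.K₁L))
    obtain ⟨y, hy, hy1, hyK, hyF, hyT, hyU⟩ := H.lemZ hK₃ hK₃L
    obtain ⟨x, hx, hxW, hx1, -⟩ := split H.h.hL H.h.hN H.h.hZ hTp hT1 H.J₂
    have hxc : ∀ k ∈ K₁, k * x = x * k := fun k hk => H.comm₁₂ k hk x hxW
    have hZn : g ∈ normalizer (Zo T : Set G) := normalizer_le_omegaCenterOf hgJ
    have hne1 : ∀ {u : G}, u ≠ 1 → g * u * g⁻¹ ≠ 1 := by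
      intro u hu h
      apply hu
      calc u = g⁻¹ * (g * u * g⁻¹) * g := by group
        _ = 1 := by rw [h]; group
    have h1 : g * x * g⁻¹ = y := by
      have h2 : ∀ k ∈ K₃, k * (g * x * g⁻¹) = (g * x * g⁻¹) * k := by
        rintro _ ⟨k₀, hk₀, rfl⟩
        have h3 := hxc k₀ hk₀
        have e : ((MulAut.conj g).toMonoidHom k₀) = g * k₀ * g⁻¹ := rfl
        rw [e]
        calc (g * k₀ * g⁻¹) * (g * x * g⁻¹) = g * (k₀ * x) * g⁻¹ := by group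
          _ = g * (x * k₀) * g⁻¹ := by rw [h3]
          _ = _ := by group
      exact (hyF _ (conj_mem hZn hx) h2).resolve_left (hne1 hx1)
    have h2 : g * y * g⁻¹ = y := by
      refine (hyU _ (conj_mem hZn hy) fun s hs => ?_).resolve_left (hne1 hy1)
      have h3 := hyT _ (conj_inv_mem hgN hs)
      calc s * (g * y * g⁻¹) * s⁻¹ = g * ((g⁻¹ * s * g) * y * (g⁻¹ * s * g)⁻¹) * g⁻¹ := by group
        _ = g * y * g⁻¹ := by rw [h3]
    have h3 : x = y := by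
      have h4 : g * x * g⁻¹ = g * y * g⁻¹ := h1.trans h2.symm
      exact mul_left_cancel (mul_right_cancel h4)
    rw [h3] at hxc
    exact hK₃L (H.le_L H.J₁ H.M₁ H.K₁L hy hy1 hxc hyK)

/-- All `J`-components lie in `L`. -/
theorem all_le {S₁ : Sylow 2 G} (hS₁ : (S₁ : Subgroup G) = T) {K' : Subgroup G}
    (hK' : IsJComponent T K') : K' ≤ L := by
  by_contra hK'L
  obtain ⟨y, hy, hy1, hyK, hyF, hyT, hyU⟩ := H.lemZ hK' hK'L
  refine not_le_norm hK' (thompson_le T) H.h.hTp ?_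
  intro k hk
  have h1 : k ∈ centralizer (omegaCenterOf (S₁ : Subgroup G) : Set G) := by
    rw [mem_centralizer_iff, hS₁]
    intro x hx
    obtain ⟨hxT, hxc, hxx⟩ := mem_Z₁.mp hx
    have hxx' : x * x = 1 := by rwa [pow_two] at hxx
    have hxZ : x ∈ Zo T := mem_Zo_of_comm hxT hxx' fun j hj => hxc j (thompson_le T hj)
    have hxF : ∀ s ∈ T, s * x * s⁻¹ = x := fun s hs => by
      rw [hxc s hs]
      group
    rcases hyU x hxZ hxF with h | h
    · rw [h]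
      group
    · rw [h]
      exact (hyK k hk).symm
  have h2 := H.h.hZ S₁ h1
  rwa [hS₁] at h2

end Two

/-- `T` is maximal if it is a Sylow subgroup. -/
theorem sylow_max {T T' : Subgroup G} {S₁ : Sylow 2 G} (hS₁ : (S₁ : Subgroup G) = T) (hT' : IsPGroup 2 T') :
    maxElemAbelianOrder T' ≤ maxElemAbelianOrder T ∧
    (maxElemAbelianOrder T' = maxElemAbelianOrder T →
      Nat.card ↥(thompsonSubgroupOf 2 T') ≤ Nat.card ↥(thompsonSubgroupOf 2 T) ∧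
      (Nat.card ↥(thompsonSubgroupOf 2 T') = Nat.card ↥(thompsonSubgroupOf 2 T) → Nat.card ↥T' ≤ Nat.card ↥T)) := by
  haveI : Fact (Nat.Prime 2) := ⟨Nat.prime_two⟩
  have hTs : IsSylowTwoIn T ⊤ := by
    refine ⟨le_top, hS₁ ▸ S₁.isPGroup', ?_⟩
    rw [Subgroup.relIndex_top_right, ← Nat.not_even_iff_odd, even_iff_two_dvd, ← hS₁]
    exact S₁.not_dvd_index
  obtain ⟨P, hT'P, hP⟩ := exists_sylow_in hT' (le_top : T' ≤ ⊤)
  obtain ⟨x, -, rfl⟩ := exists_conj_sylow hTs hP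
  obtain ⟨A, hA⟩ := exists_isMaxIn 2 T
  obtain ⟨B, hB⟩ := exists_isMaxIn 2 T'
  rw [mEAO_eq hA, mEAO_eq hB]
  have hbound : ∀ C : Subgroup G, C ≤ T.map (MulAut.conj x).toMonoidHom → IsAbExp 2 C → Nat.card C ≤ Nat.card A := by
    intro C hC hCe
    have h1 : C.map (MulAut.conj x⁻¹).toMonoidHom ≤ T := by
      have h2 := Subgroup.map_mono (f := (MulAut.conj x⁻¹).toMonoidHom) hC
      rwa [map_conj_conj_inv] at h2
    have h3 := hA.2.2 _ h1 (IsAbExp.map hCe _)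
    rwa [card_map_conj] at h3
  refine ⟨hbound B (hB.1.trans hT'P) hB.2.1, fun heq => ?_⟩
  refine ⟨?_, fun _ => ?_⟩
  · have hle : thompsonSubgroupOf 2 T' ≤ (thompsonSubgroupOf 2 T).map (MulAut.conj x).toMonoidHom := by
      rw [← thompson_map, thompsonSubgroupOf_eq, thompsonSubgroupOf_eq]
      refine sSup_le fun B' hB' => IsMaxIn.le_jOf (P := T.map (MulAut.conj x).toMonoidHom)
        ⟨hB'.1.trans hT'P, hB'.2.1, fun C hC hCe => ?_⟩
      have h1 := hB'.2.2 B hB.1 hB.2.1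
      have h2 := hbound C hC hCe
      omega
    have h1 := Nat.card_le_card_of_injective _ (Subgroup.inclusion_injective hle)
    rwa [card_map_conj] at h1
  · have h1 := Nat.card_le_card_of_injective _ (Subgroup.inclusion_injective hT'P)
    rwa [card_map_conj] at h1

namespace Two

variable {M T L K₁ K₂ : Subgroup G} {S : Sylow 2 G} {t : G} (H : Two M T L K₁ K₂ S t)

include H

/-- The set-up with `M = N_G(J(T))`. -/
theorem hyp_N {S₁ : Sylow 2 G} (hS₁ : (S₁ : Subgroup G) = T) :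
    Hyp (normalizer (thompsonSubgroupOf 2 T : Set G)) T S₁ := by
  refine ⟨H.h.hL, H.h.hN, H.h.hZ, by rw [hS₁], ?_, ?_⟩
  · refine ⟨H.h.hTp, H.h.hT1, le_normalizer_thompson T, L, H.isMax.1, H.Sy.1, fun hle => ?_⟩
    exact not_le_norm H.J₁ le_rfl H.h.hJp (H.K₁L.trans hle)
  · intro T' hT'
    exact sylow_max hS₁ hT'.1

/-- `N_G(J(T)) ≤ L`. -/
theorem norm_le_L {S₁ : Sylow 2 G} (hS₁ : (S₁ : Subgroup G) = T) :
    normalizer (thompsonSubgroupOf 2 T : Set G) ≤ L := by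
  intro n hn
  have hK := isJ_map H.J₁ hn
  refine mem_of_conj_le (H.hyp_N hS₁) hK (fun hle => not_le_norm hK le_rfl H.h.hJp hle) H.isMax H.Rne
    H.JL hn (H.all_le hS₁ hK) (Subgroup.map_mono H.K₁L)

end Two

end Cfsg.Agent.Lib.JSub.Split
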