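import Cfsg.Agent.Lib.JSub.Exist
import Cfsg.Agent.Lib.QuadAct.ZJ

/-!
# Maximal straddling `2`-subgroups
-/

set_option autoImplicit false
set_option linter.unusedSectionVars false
set_option linter.unusedSimpArgs false
set_option linter.style.haveILetI false

open scoped commutatorElement

namespace Cfsg.Agent.Lib.JSub.Strad

open Cfsg Subgroup
open Cfsg.Agent.Lib.JSub.Main
open Cfsg.Agent.Lib.JSub.Zero
open Cfsg.Agent.Lib.JSub.Exist
open Cfsg.Agent.Lib.PointStab.Step (nrm_of_conj conj_mem conj_inv_mem mem_Z₁ Z₁)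
open Cfsg.Agent.Lib.PLocal.Thompson (IsMaxIn jOf thompsonSubgroupOf_eq IsAbExp jOf_eq_of_le jOf_conj
  exists_isMaxIn isMaxIn_map_subtype mem_maxEA_iff)
open Cfsg.Agent.Lib.LocalStruct.PCoreOf
open Cfsg.Agent.Lib.LocalEven.JComp (two_mul_card_le K_le_normalizer_wOf normalizer_le_wOf)
open Cfsg.Agent.Lib.LocalEven.Util (mem_normalizer_of_conj_le)
open Cfsg.Agent.Lib.Coprime.Action (le_of_normal_of_isSylowIn)

variable {G : Type*} [Group G] [Finite G]

theorem mEAO_eq {T A : Subgroup G} (hA : IsMaxIn 2 T A) : maxElemAbelianOrder T = Nat.card A := by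
  unfold maxElemAbelianOrder
  have himg : (fun B : Subgroup ↥T => Nat.card ↥B) '' maxElementaryAbelianSubgroups 2 ↥T = {Nat.card A} := by
    ext n
    constructor
    · rintro ⟨B, hB, rfl⟩
      have h1 : IsMaxIn 2 T (B.map T.subtype) := isMaxIn_map_subtype.mpr (mem_maxEA_iff.mp hB)
      have h2 := h1.2.2 A hA.1 hA.2.1
      have h3 := hA.2.2 _ h1.1 h1.2.1
      rw [Subgroup.card_map_of_injective T.subtype_injective] at h2 h3
      exact le_antisymm h3 h2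
    · rintro rfl
      have h1 : IsMaxIn 2 T ((A.subgroupOf T).map T.subtype) := by
        rwa [Subgroup.map_subgroupOf_eq_of_le hA.1]
      refine ⟨A.subgroupOf T, mem_maxEA_iff.mpr (isMaxIn_map_subtype.mp h1), ?_⟩
      exact Nat.card_congr (Subgroup.subgroupOfEquivOfLe hA.1).toEquiv
  rw [himg, csSup_singleton]

theorem thompson_le (T : Subgroup G) : thompsonSubgroupOf 2 T ≤ T := by
  rw [thompsonSubgroupOf_eq]
  exact Cfsg.Agent.Lib.PLocal.Thompson.jOf_le 2 T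

theorem thompson_ne_bot {T : Subgroup G} (hT : IsPGroup 2 T) (hT1 : T ≠ ⊥) :
    thompsonSubgroupOf 2 T ≠ ⊥ := by
  haveI : Fact (Nat.Prime 2) := ⟨Nat.prime_two⟩
  intro hbot
  obtain ⟨t, ht, ht1⟩ := T.bot_or_exists_ne_one.resolve_left hT1
  have hx : (⟨t, ht⟩ : T) ≠ 1 := fun h => ht1 (congrArg Subtype.val h)
  have h1 := Cfsg.Agent.Lib.PGroups.Basic.exists_orderOf_eq_of_ne_one hT hx
  set z := (⟨t, ht⟩ : T) ^ (orderOf (⟨t, ht⟩ : T) / 2) with hz
  obtain ⟨A, hA⟩ := exists_isMaxIn 2 T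
  have hA1 : A ≤ ⊥ := by
    rw [← hbot, thompsonSubgroupOf_eq]
    exact hA.le_jOf
  have hz2 : (z : G) ^ 2 = 1 := by
    have := pow_orderOf_eq_one z
    rw [h1] at this
    simpa using congrArg Subtype.val this
  have hzA : (z : G) ∈ A := hA.mem_of_commute z.2 hz2 (fun a ha => by
    have : a = 1 := by simpa using hA1 ha
    simp [this])
  have hz1 : (z : G) = 1 := by simpa using hA1 hzA
  have hz2' : z = 1 := Subtype.ext hz1
  rw [hz2', orderOf_one] at h1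
  omega

/-- The lexicographic maximality. -/
theorem strad_J {M T P : Subgroup G} (hT : T ∈ maxStraddlingTwoSubgroups M)
    (hP : P ∈ straddlingTwoSubgroups M) (hJP : thompsonSubgroupOf 2 T ≤ P) :
    thompsonSubgroupOf 2 P = thompsonSubgroupOf 2 T ∧ Nat.card P ≤ Nat.card T := by
  obtain ⟨A, hA⟩ := exists_isMaxIn 2 T
  obtain ⟨B, hB⟩ := exists_isMaxIn 2 P
  have hAJ : A ≤ thompsonSubgroupOf 2 T := by
    rw [thompsonSubgroupOf_eq]
    exact hA.le_jOf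
  have hAB : Nat.card A ≤ Nat.card B := hB.2.2 A (hAJ.trans hJP) hA.2.1
  obtain ⟨h1, h2⟩ := hT.2 P hP
  rw [mEAO_eq hB, mEAO_eq hA] at h1 h2
  have heq : Nat.card B = Nat.card A := le_antisymm h1 hAB
  obtain ⟨h3, h4⟩ := h2 heq
  have hle : thompsonSubgroupOf 2 T ≤ thompsonSubgroupOf 2 P := by
    rw [thompsonSubgroupOf_eq 2 P]
    have hJ2 := hJP
    rw [thompsonSubgroupOf_eq] at hJ2 ⊢
    refine sSup_le fun A' hA' => IsMaxIn.le_jOf (P := P) ⟨hA'.le_jOf.trans hJ2, hA'.2.1, fun C hC hC' => ?_⟩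
    have h5 := hB.2.2 C hC hC'
    have h6 := hA'.2.2 A hA.1 hA.2.1
    omega
  have hJeq := (Subgroup.eq_of_le_of_card_ge hle h3).symm
  exact ⟨hJeq, h4 (by rw [hJeq])⟩

theorem exists_lt_normalizer {T S : Subgroup G} (hS : IsPGroup 2 S) (hlt : T < S) :
    ∃ x ∈ S, x ∉ T ∧ x ∈ normalizer (T : Set G) := by
  haveI : Fact (Nat.Prime 2) := ⟨Nat.prime_two⟩
  haveI hnil : Group.IsNilpotent S := hS.isNilpotent
  have hTS : T.subgroupOf S < ⊤ := by
    rw [lt_top_iff_ne_top]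
    intro h
    rw [subgroupOf_eq_top] at h
    exact absurd (le_antisymm hlt.le h) (ne_of_lt hlt)
  have h1 := Group.normalizerCondition_of_isNilpotent _ hTS
  obtain ⟨x, hxN, hxT⟩ := SetLike.exists_of_lt h1
  refine ⟨x, x.2, fun h => hxT (mem_subgroupOf.mpr h), mem_normalizer_of_conj_le fun t ht => ?_⟩
  have h2 := (mem_normalizer_iff.mp hxN ⟨t, hlt.le ht⟩).mp (mem_subgroupOf.mpr ht)
  have h3 := mem_subgroupOf.mp h2
  simpa using h3

/-- `N_G(J(T)) ≤ M`. -/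
theorem norm_le {M T : Subgroup G} {S : Sylow 2 G}
    (hMJ : normalizer (thompsonSubgroupOf 2 (S : Subgroup G) : Set G) ≤ M)
    (hT : T ∈ maxStraddlingTwoSubgroups M) : normalizer (thompsonSubgroupOf 2 T : Set G) ≤ M := by
  haveI : Fact (Nat.Prime 2) := ⟨Nat.prime_two⟩
  by_contra hcon
  obtain ⟨hTp, hT1, hTM, -⟩ := hT.1
  have hJT := thompson_le T
  have hJ1 := thompson_ne_bot hTp hT1
  have hJp : IsPGroup 2 (thompsonSubgroupOf 2 T) := hTp.to_le hJT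
  have hNloc : IsTwoLocal (normalizer (thompsonSubgroupOf 2 T : Set G)) := ⟨_, hJp, hJ1, rfl⟩
  have hSM : (S : Subgroup G) ≤ M :=
    (Cfsg.Agent.Lib.QuadAct.ZJ.sylow_le_normalizer_thompson S).trans hMJ
  have hSs : IsSylowTwoIn (S : Subgroup G) M := by
    refine ⟨hSM, S.isPGroup', ?_⟩
    have h1 := Subgroup.relIndex_mul_index hSM
    have h2 : ¬ 2 ∣ (S : Subgroup G).index := S.not_dvd_index
    rw [← Nat.not_even_iff_odd, even_iff_two_dvd]
    intro h3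
    exact h2 (by rw [← h1]; exact dvd_mul_of_dvd_left h3 _)
  obtain ⟨S₁, hTS₁, hS₁⟩ := exists_sylow_in hTp hTM
  obtain ⟨m, hm, rfl⟩ := exists_conj_sylow hSs hS₁
  set S' := (S : Subgroup G).map (MulAut.conj m).toMonoidHom with hS'
  have hNS' : normalizer (thompsonSubgroupOf 2 S' : Set G) ≤ M := by
    intro g hg
    have h1 : m⁻¹ * g * m ∈ normalizer (thompsonSubgroupOf 2 (S : Subgroup G) : Set G) := by
      apply mem_normalizer_of_conj_le
      intro x hx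
      have h2 : m * x * m⁻¹ ∈ thompsonSubgroupOf 2 S' := by
        rw [hS', thompson_map]
        exact ⟨x, hx, rfl⟩
      have h3 := conj_mem hg h2
      have h4 : g * (m * x * m⁻¹) * g⁻¹ ∈ (thompsonSubgroupOf 2 (S : Subgroup G)).map (MulAut.conj m).toMonoidHom := by
        rw [← thompson_map, ← hS']
        exact h3
      obtain ⟨z, hz, hze⟩ := h4
      have hze' : m * z * m⁻¹ = g * (m * x * m⁻¹) * g⁻¹ := hze
      have e : m⁻¹ * g * m * x * (m⁻¹ * g * m)⁻¹ = z := by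
        have e1 : m⁻¹ * g * m * x * (m⁻¹ * g * m)⁻¹ = m⁻¹ * (g * (m * x * m⁻¹) * g⁻¹) * m := by group
        rw [e1, ← hze']
        group
      rw [e]
      exact hz
    have h2 := hMJ h1
    have e : g = m * (m⁻¹ * g * m) * m⁻¹ := by group
    rw [e]
    exact M.mul_mem (M.mul_mem hm h2) (M.inv_mem hm)
  by_cases hTS : T = S'
  · apply hcon
    rw [hTS]
    exact hNS'
  · obtain ⟨x, hxS, hxT, hxN⟩ := exists_lt_normalizer hS₁.2.1 (lt_of_le_of_ne hTS₁ hTS)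
    set T' := S' ⊓ normalizer (T : Set G) with hT'
    have hTT' : T ≤ T' := le_inf hTS₁ Subgroup.le_normalizer
    have hT's : T' ∈ straddlingTwoSubgroups M := by
      refine ⟨hS₁.2.1.to_le inf_le_left, ?_, inf_le_left.trans hS₁.1, _, hNloc, ?_, hcon⟩
      · intro h
        apply hT1
        rw [eq_bot_iff, ← h]
        exact hTT'
      · intro y hy
        exact norm_thompson hy.2
    have h1 := (strad_J hT hT's (hJT.trans hTT')).2
    have h2 := two_mul_card_le hTT' (⟨hxS, hxN⟩ : x ∈ T') hxT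
    have h3 : 0 < Nat.card T := Nat.card_pos
    omega

/-- The main step. -/
theorem main1 {M T L T₀ : Subgroup G} {S : Sylow 2 G}
    (hMJ : normalizer (thompsonSubgroupOf 2 (S : Subgroup G) : Set G) ≤ M)
    (hT : T ∈ maxStraddlingTwoSubgroups M) (hL2 : IsTwoLocal L) (hLM : ¬ L ≤ M)
    (hT₀ : IsSylowTwoIn T₀ L) (hJT₀ : thompsonSubgroupOf 2 T ≤ T₀) :
    T₀ ∈ straddlingTwoSubgroups M ∧ thompsonSubgroupOf 2 T₀ = thompsonSubgroupOf 2 T := by
  have hNM := norm_le hMJ hT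
  obtain ⟨hTp, hT1, hTM, -⟩ := hT.1
  have hJT := thompson_le T
  have hJ1 := thompson_ne_bot hTp hT1
  set T₁ := T₀ ⊓ M with hT₁
  have hJT₁ : thompsonSubgroupOf 2 T ≤ T₁ := le_inf hJT₀ (hJT.trans hTM)
  have hT₁s : T₁ ∈ straddlingTwoSubgroups M := by
    refine ⟨hT₀.2.1.to_le inf_le_left, ?_, inf_le_right, L, hL2, inf_le_left.trans hT₀.1, hLM⟩
    intro h
    apply hJ1
    rw [eq_bot_iff, ← h]
    exact hJT₁
  have h1 := (strad_J hT hT₁s hJT₁).1
  have hT₀M : T₀ ≤ M := by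
    by_contra hne
    have hlt : T₁ < T₀ := lt_of_le_of_ne inf_le_left (fun h => hne (inf_eq_left.mp h))
    obtain ⟨x, hx, hxT₁, hxN⟩ := exists_lt_normalizer hT₀.2.1 hlt
    have hxJ := norm_thompson hxN
    rw [h1] at hxJ
    exact hxT₁ ⟨hx, hNM hxJ⟩
  have e : T₁ = T₀ := inf_eq_left.mpr hT₀M
  rw [e] at h1 hT₁s
  exact ⟨hT₁s, h1⟩

/-- `C_G(O₂(L)) ≤ O₂(L)` for `2`-locals. -/
theorem hRc_of_local (hL : IsCharacteristicTwoType G) {L : Subgroup G} (hL2 : IsTwoLocal L) :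
    centralizer (pCoreOf 2 L : Set G) ≤ pCoreOf 2 L := by
  haveI : Fact (Nat.Prime 2) := ⟨Nat.prime_two⟩
  obtain ⟨W, hW2, hWne, rfl⟩ := hL2
  set L := normalizer (W : Set G) with hLd
  have hWR : W ≤ pCoreOf 2 L := le_pCoreOf Subgroup.le_normalizer le_rfl hW2
  intro c hc
  have h1 : c ∈ centralizer (W : Set G) := Subgroup.centralizer_le (by exact_mod_cast hWR) hc
  have hcL : c ∈ L := Subgroup.centralizer_le_normalizer _ h1
  have h2 : IsOfCharacteristicTwo L := hL.2 W hW2 hWne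
  have h3 : (⟨c, hcL⟩ : L) ∈ centralizer (Cfsg.pCore 2 L : Set L) := by
    rw [mem_centralizer_iff]
    intro r hr
    apply Subtype.ext
    exact mem_centralizer_iff.mp hc (r : G) ⟨r, hr, rfl⟩
  exact ⟨_, h2 h3, rfl⟩

/-- `L` lies in `ℒ(T₀)`. -/
theorem mem_jOver (hL : IsCharacteristicTwoType G) {M T L T₀ : Subgroup G} {S : Sylow 2 G}
    (hMJ : normalizer (thompsonSubgroupOf 2 (S : Subgroup G) : Set G) ≤ M)
    (hT : T ∈ maxStraddlingTwoSubgroups M) (hL2 : IsTwoLocal L) (hLM : ¬ L ≤ M)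
    (hT₀ : IsSylowTwoIn T₀ L) (hJ : thompsonSubgroupOf 2 T₀ = thompsonSubgroupOf 2 T) :
    L ∈ jOvergroups T₀ := by
  haveI : Fact (Nat.Prime 2) := ⟨Nat.prime_two⟩
  refine ⟨hT₀, fun hJle => ?_, hRc_of_local hL hL2⟩
  apply hLM
  have hRT : pCoreOf 2 L ≤ T₀ := le_of_normal_of_isSylowIn (isSylowIn_of_two hT₀) (pCoreOf_le L)
    (isPGroup_pCoreOf L) (le_normalizer_pCoreOf L)
  have e : thompsonSubgroupOf 2 (pCoreOf 2 L) = thompsonSubgroupOf 2 T₀ := by
    rw [thompsonSubgroupOf_eq, thompsonSubgroupOf_eq]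
    refine jOf_eq_of_le hRT ?_
    rw [← thompsonSubgroupOf_eq]
    exact hJle
  intro l hl
  have h1 := norm_thompson (le_normalizer_pCoreOf (p := 2) L hl)
  rw [e, hJ] at h1
  exact norm_le hMJ hT h1

/-- The main theorem: `S2948`. -/
theorem s2948 (hL : IsCharacteristicTwoType G) (hN : ∀ N : Subgroup G, IsTwoLocal N → Group.IsSolvable ↥N)
    (hZ : ∀ S : Sylow 2 G, centralizer (omegaCenterOf (S : Subgroup G) : Set G) ≤
      normalizer ((S : Subgroup G) : Set G)) {M T L T₀ : Subgroup G} {S : Sylow 2 G}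
    (hMJ : normalizer (thompsonSubgroupOf 2 (S : Subgroup G) : Set G) ≤ M)
    (hT : T ∈ maxStraddlingTwoSubgroups M) (hL2 : IsTwoLocal L) (hLM : ¬ L ≤ M)
    (hT₀ : IsSylowTwoIn T₀ L) (hJT₀ : thompsonSubgroupOf 2 T ≤ T₀) :
    thompsonSubgroupOf 2 T = thompsonSubgroupOf 2 T₀ ∧ T₀ ∈ straddlingTwoSubgroups M ∧ L ∈ jOvergroups T₀ ∧
      (T ≤ L → L ∈ jOvergroups T ∧ ∃ K : Subgroup G, IsJComponent T K ∧ K ≤ L) := by
  obtain ⟨h1, h2⟩ := main1 hMJ hT hL2 hLM hT₀ hJT₀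
  refine ⟨h2.symm, h1, mem_jOver hL hMJ hT hL2 hLM hT₀ h2, fun hTL => ?_⟩
  obtain ⟨hTp, hT1, hTM, -⟩ := hT.1
  obtain ⟨T₂, hTT₂, hT₂⟩ := exists_sylow_in hTp hTL
  have hJT₂ := (thompson_le T).trans hTT₂
  obtain ⟨h3, h4⟩ := main1 hMJ hT hL2 hLM hT₂ hJT₂
  have h5 := (strad_J hT h3 hJT₂).2
  have e : T = T₂ := Subgroup.eq_of_le_of_card_ge hTT₂ h5
  rw [← e] at hT₂
  have hmem : L ∈ jOvergroups T := mem_jOver hL hMJ hT hL2 hLM hT₂ rfl
  refine ⟨hmem, ?_⟩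
  obtain ⟨K, hK, hKL⟩ := exists_jcomp hZ (hN L hL2) hTp hT₂ hmem.2.2 hmem.2.1
  exact ⟨K, hK, hKL⟩

/-- `T` is a Sylow `2`-subgroup of any `2`-local subgroup outside `M` containing it. -/
theorem sylow_of_le {M T L : Subgroup G} {S : Sylow 2 G}
    (hMJ : normalizer (thompsonSubgroupOf 2 (S : Subgroup G) : Set G) ≤ M)
    (hT : T ∈ maxStraddlingTwoSubgroups M) (hL2 : IsTwoLocal L) (hLM : ¬ L ≤ M) (hTL : T ≤ L) :
    IsSylowTwoIn T L := by
  obtain ⟨hTp, hT1, hTM, -⟩ := hT.1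
  obtain ⟨T₂, hTT₂, hT₂⟩ := exists_sylow_in hTp hTL
  have hJT₂ := (thompson_le T).trans hTT₂
  obtain ⟨h3, h4⟩ := main1 hMJ hT hL2 hLM hT₂ hJT₂
  have h5 := (strad_J hT h3 hJT₂).2
  have e : T = T₂ := Subgroup.eq_of_le_of_card_ge hTT₂ h5
  rw [← e] at hT₂
  exact hT₂

/-- The main theorem: `S2949`. -/
theorem s2949 (hL : IsCharacteristicTwoType G) (hN : ∀ N : Subgroup G, IsTwoLocal N → Group.IsSolvable ↥N)
    (hZ : ∀ S : Sylow 2 G, centralizer (omegaCenterOf (S : Subgroup G) : Set G) ≤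
      normalizer ((S : Subgroup G) : Set G)) {M T : Subgroup G} {S : Sylow 2 G}
    (hMJ : normalizer (thompsonSubgroupOf 2 (S : Subgroup G) : Set G) ≤ M)
    (hT : T ∈ maxStraddlingTwoSubgroups M) : (jComponentsOutside M T).Nonempty := by
  haveI : Fact (Nat.Prime 2) := ⟨Nat.prime_two⟩
  obtain ⟨hTp, hT1, hTM, L, hL2, hTL, hLM⟩ := hT.1
  have hT₂ := sylow_of_le hMJ hT hL2 hLM hTL
  have hmem : L ∈ jOvergroups T := mem_jOver hL hMJ hT hL2 hLM hT₂ rfl
  obtain ⟨C, E, Y, V, hCE⟩ := exists_CE5 hZ (hN L hL2) hTp hT₂ hmem.2.2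
  have hex : ∃ K, IsJComponent T K ∧ K ≤ L ∧ ¬ K ≤ M := by
    by_contra hcon
    push Not at hcon
    apply hLM
    have h1 : L ≤ L ⊓ M := hCE.L_le (le_inf hTL hTM) (inf_le_inf_left _ (norm_le hMJ hT))
      fun K hK hKL => le_inf hKL (hcon K hK hKL)
    exact h1.trans inf_le_right
  obtain ⟨K, hK, hKL, hKM⟩ := hex
  refine ⟨K, ⟨hK, ?_⟩, hKM, ?_⟩
  · intro S₀ hJS₀ hS₀
    have hW4 := hK.2.2.2.2.1
    have hWe := hK.2.2.2.2.2
    have hWne : wOf K ≠ ⊥ := by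
      intro h
      rw [h] at hW4
      simp at hW4
    have hW2 : IsPGroup 2 (wOf K) := fun w => ⟨1, Subtype.ext (by
      have := hWe w w.2
      simpa [pow_one, pow_two] using this)⟩
    have hloc : IsTwoLocal (normalizer (wOf K : Set G)) := ⟨wOf K, hW2, hWne, rfl⟩
    have hNM : ¬ normalizer (wOf K : Set G) ≤ M := fun h => hKM ((K_le_normalizer_wOf K).trans h)
    exact (main1 hMJ hT hloc hNM hS₀ hJS₀).2
  · have hRT : pCoreOf 2 L ≤ T := le_of_normal_of_isSylowIn (isSylowIn_of_two hT₂) (pCoreOf_le L)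
      (isPGroup_pCoreOf L) (le_normalizer_pCoreOf L)
    have hne := pCoreOf_ne_bot hT1 hT₂.1 hmem.2.2 hRT
    have hle : pCoreOf 2 L ≤ pCoreOf 2 (K ⊔ T) :=
      le_pCoreOf (hRT.trans le_sup_right) ((sup_le hKL hTL).trans (le_normalizer_pCoreOf L))
        (isPGroup_pCoreOf L)
    intro h
    rw [h] at hle
    exact hne (le_bot_iff.mp hle)

end Cfsg.Agent.Lib.JSub.Strad
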