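import Cfsg.Agent.Lib.JSub.Split
import Cfsg.Agent.Lib.JSub.Fam
import Cfsg.Agent.Lib.JSub.Best

/-!
# A unique maximal `2`-local subgroup over a Sylow subgroup is impossible
-/

set_option autoImplicit false
set_option linter.unusedSectionVars false
set_option linter.unusedSimpArgs false
set_option linter.style.haveILetI false

open scoped commutatorElement

namespace Cfsg.Agent.Lib.JSub.Uni

open Cfsg Subgroup
open Cfsg.Agent.Lib.JSub.Main
open Cfsg.Agent.Lib.JSub.NormW (rel_of_setup)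
open Cfsg.Agent.Lib.JSub.Zero
open Cfsg.Agent.Lib.JSub.Exist
open Cfsg.Agent.Lib.JSub.Strad
open Cfsg.Agent.Lib.JSub.Unique
open Cfsg.Agent.Lib.JSub.Split
open Cfsg.Agent.Lib.JSub.Fam
open Cfsg.Agent.Lib.JSub.Sn (cover_of_setup)
open Cfsg.Agent.Lib.PointStab.Step (nrm_of_conj conj_mem conj_inv_mem mem_Z₁ Z₁)
open Cfsg.Agent.Lib.PLocal.Thompson (IsMaxIn jOf thompsonSubgroupOf_eq IsAbExp exists_isMaxIn)
open Cfsg.Agent.Lib.LocalStruct.PCoreOf
open Cfsg.Agent.Lib.LocalEven.JComp (Setup exists_setup K_le_normalizer_wOf normalizer_le_wOf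
  index3_le index3_sq normalizer_le_omegaCenterOf normalizer_le_pCoreOf)
open Cfsg.Agent.Lib.LocalEven.Util (mem_normalizer_of_conj_le)
open Cfsg.Agent.Lib.Coprime.Action (le_of_normal_of_isSylowIn)

variable {G : Type*} [Group G] [Finite G]

/-- Conjugating a `J(T)`-component. -/
theorem isJ_conj {T K : Subgroup G} (hK : IsJComponent T K) (n : G) :
    IsJComponent (T.map (MulAut.conj n).toMonoidHom) (K.map (MulAut.conj n).toMonoidHom) := by
  haveI : Fact (Nat.Prime 2) := ⟨Nat.prime_two⟩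
  set J := thompsonSubgroupOf 2 T with hJd
  set f := (MulAut.conj n).toMonoidHom with hf
  have hJ : thompsonSubgroupOf 2 (T.map f) = J.map f := thompson_map T n
  refine ⟨?_, ?_, ?_, ?_, ?_, ?_⟩
  · have h1 : K.map f = (closure {g : G | g ∈ K ∧ Odd (orderOf g)}).map f := by rw [hK.1]
    rw [MonoidHom.map_closure] at h1
    conv_rhs => rw [h1]
    congr 1
    ext x
    constructor
    · rintro ⟨⟨y, hy, rfl⟩, hodd⟩
      refine ⟨y, ⟨hy, ?_⟩, rfl⟩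
      have := MulEquiv.orderOf_eq (MulAut.conj n) y
      have e : f y = (MulAut.conj n) y := rfl
      rw [e, this] at hodd
      exact hodd
    · rintro ⟨y, ⟨hy, hodd⟩, rfl⟩
      refine ⟨⟨y, hy, rfl⟩, ?_⟩
      have := MulEquiv.orderOf_eq (MulAut.conj n) y
      have e : f y = (MulAut.conj n) y := rfl
      rw [e, this]
      exact hodd
  · rw [hJ, ← Subgroup.map_commutator, hK.2.1]
  · rw [hf, ← pCoreOf_conj, Subgroup.relIndex_map_map_of_injective _ _ (MulAut.conj n).injective]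
    exact hK.2.2.1
  · intro S hS hJS
    rw [hJ] at hS hJS ⊢
    have h1 := isSylow_map hS n⁻¹
    have h2 : (K.map f ⊔ J.map f).map (MulAut.conj n⁻¹).toMonoidHom = K ⊔ J := by
      rw [Subgroup.map_sup, hf, map_conj_conj_inv, map_conj_conj_inv]
    rw [h2] at h1
    have h3 : J ≤ S.map (MulAut.conj n⁻¹).toMonoidHom := by
      have := Subgroup.map_mono (f := (MulAut.conj n⁻¹).toMonoidHom) hJS
      rwa [hf, map_conj_conj_inv] at this
    have h4 := hK.2.2.2.1 _ h1 h3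
    have h5 := thompson_map (S.map (MulAut.conj n⁻¹).toMonoidHom) n
    rw [map_conj_inv_conj, h4] at h5
    exact h5
  · rw [wOf_map, card_map_conj]
    exact hK.2.2.2.2.1
  · rw [wOf_map]
    rintro _ ⟨w, hw, rfl⟩
    rw [← map_mul, hK.2.2.2.2.2 w hw, map_one]

theorem zero_conj {T K : Subgroup G} (hK : K ∈ jComponentsZero T) (n : G) :
    K.map (MulAut.conj n).toMonoidHom ∈ jComponentsZero (T.map (MulAut.conj n).toMonoidHom) := by
  refine ⟨isJ_conj hK.1 n, fun S₀ hJS₀ hS₀ => ?_⟩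
  rw [thompson_map] at hJS₀ ⊢
  rw [wOf_map, Cfsg.Agent.Lib.LocalStruct.Basic.normalizer_map_conj] at hS₀
  have h1 := isSylow_map hS₀ n⁻¹
  rw [map_conj_conj_inv] at h1
  have h3 : thompsonSubgroupOf 2 T ≤ S₀.map (MulAut.conj n⁻¹).toMonoidHom := by
    have := Subgroup.map_mono (f := (MulAut.conj n⁻¹).toMonoidHom) hJS₀
    rwa [map_conj_conj_inv] at this
  have h4 := hK.2 _ h3 h1
  have h5 := thompson_map (S₀.map (MulAut.conj n⁻¹).toMonoidHom) n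
  rw [map_conj_inv_conj, h4] at h5
  exact h5

/-- The set-up: `T` is a Sylow subgroup of `G`, `L` is a maximal `2`-local subgroup over `T`
containing all `J(T)`-components and `N_G(J(T))`, and two four-groups differ. -/
structure UH (T L : Subgroup G) (S₁ : Sylow 2 G) : Prop where
  h : Hyp (normalizer (thompsonSubgroupOf 2 T : Set G)) T S₁
  hO : Cfsg.pCore 2 G = ⊥
  hS₁ : (S₁ : Subgroup G) = T
  hLm : IsMaximalTwoLocal L
  hTL : T ≤ L
  hOv : L ∈ jOvergroups T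
  hKL : ∀ K, IsJComponent T K → K ≤ L
  hNL : normalizer (thompsonSubgroupOf 2 T : Set G) ≤ L
  hne : ∃ K₁ K₂, IsJComponent T K₁ ∧ IsJComponent T K₂ ∧ wOf K₁ ≠ wOf K₂

/-- The four-groups. -/
def WFam (T : Subgroup G) : Set (Subgroup G) := {W | ∃ K, IsJComponent T K ∧ W = wOf K}

namespace UH

variable {T L : Subgroup G} {S₁ : Sylow 2 G} (H : UH T L S₁)

include H

theorem Sy : IsSylowTwoIn T L := H.hOv.1

theorem hTp : IsPGroup 2 T := H.h.hTp

theorem hT1 : T ≠ ⊥ := H.h.hT1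

theorem notM {K : Subgroup G} (hK : IsJComponent T K) : ¬ K ≤ normalizer (thompsonSubgroupOf 2 T : Set G) :=
  fun hle => not_le_norm hK le_rfl H.h.hJp hle

theorem JL : thompsonSubgroupOf 2 T ≤ L := (thompson_le T).trans H.hTL

theorem Rne : pCoreOf 2 L ≠ ⊥ := by
  haveI : Fact (Nat.Prime 2) := ⟨Nat.prime_two⟩
  exact pCoreOf_ne_bot H.hT1 H.hTL H.hOv.2.2 (le_of_normal_of_isSylowIn (isSylowIn_of_two H.Sy)
    (pCoreOf_le L) (isPGroup_pCoreOf L) (le_normalizer_pCoreOf L))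

theorem solvL : Group.IsSolvable L := H.h.hN L H.hLm.1

theorem CEx : ∃ C E Y V, CE L T C E Y V :=
  exists_CE5 H.h.hZ H.solvL H.hTp H.Sy H.hOv.2.2

theorem RK {K : Subgroup G} (hK : IsJComponent T K) : pCoreOf 2 L ≤ normalizer (K : Set G) :=
  H.h.RK H.Sy H.hTp H.hT1 rfl hK (H.hKL K hK)

/-- `2`-locals over `⟨K, J⟩` lie in `L`. -/
theorem le_of_K {K X : Subgroup G} (hK : IsJComponent T K) (hX : IsTwoLocal X) (hKX : K ≤ X)
    (hJX : thompsonSubgroupOf 2 T ≤ X) : X ≤ L := by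
  have h1 := H.h.le_norm hK (H.notM hK) hX hKX hJX
  have h2 := H.h.unique_L hK (H.notM hK) H.hLm (sup_le (H.hKL K hK) H.JL)
  rwa [← h2] at h1

theorem sylow_in {X : Subgroup G} (hTX : T ≤ X) : IsSylowTwoIn T X := by
  refine ⟨hTX, H.hTp, ?_⟩
  have h1 := Subgroup.relIndex_mul_index hTX
  have h2 : ¬ 2 ∣ T.index := by
    rw [← H.hS₁]
    exact S₁.not_dvd_index
  rw [← Nat.not_even_iff_odd, even_iff_two_dvd]
  intro h3
  exact h2 (by rw [← h1]; exact dvd_mul_of_dvd_left h3 _)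

/-- `2`-locals over `T` lie in `L`. -/
theorem le_of_T {X : Subgroup G} (hX : IsTwoLocal X) (hTX : T ≤ X) : X ≤ L := by
  obtain ⟨C, E, Y, V, hCE⟩ := exists_CE5 H.h.hZ (H.h.hN X hX) H.hTp (H.sylow_in hTX)
    (hRc_of_local H.h.hL hX)
  exact hCE.L_le H.hTL (inf_le_right.trans H.hNL) fun K hK _ => H.hKL K hK

/-- Conjugates of components by `L` are components. -/
theorem conj_isJ {K : Subgroup G} (hK : IsJComponent T K) {l : G} (hl : l ∈ L) :
    IsJComponent T (K.map (MulAut.conj l).toMonoidHom) := by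
  haveI : Fact (Nat.Prime 2) := ⟨Nat.prime_two⟩
  have hKL := H.hKL K hK
  have hSN := sn_of_mem H.h.hL H.h.hN H.h.hZ H.hTp H.hT1 H.hOv hK hKL
  have hLl : L.map (MulAut.conj l).toMonoidHom = L := by
    refine Subgroup.eq_of_le_of_card_ge ?_ ?_
    · rintro _ ⟨x, hx, rfl⟩
      exact L.mul_mem (L.mul_mem hl hx) (L.inv_mem hl)
    · rw [card_map_conj]
  have hSN' := Cfsg.Agent.Lib.JSub.Sn.SN_map (MulAut.conj l).toMonoidHom hSN
  rw [hLl] at hSN'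
  have hK'L : K.map (MulAut.conj l).toMonoidHom ≤ L := hSN'.le
  have hJK : K.map (MulAut.conj l).toMonoidHom ⊔ thompsonSubgroupOf 2 T ≤ L := sup_le hK'L H.JL
  exact Cfsg.Agent.Lib.JSub.Sn.main H.h.hL H.h.hN H.h.hZ H.hTp H.hT1 H.hOv hK'L
    (Cfsg.Agent.Lib.Subnormal.Basic.isSubnormal_subgroupOf_of_SN (hSN'.restrict le_sup_left hJK)) l
    (zero_conj (H.h.zero_of_not_le hK (H.notM hK)) l)

/-- The family of four-groups. -/
theorem wf {C E Y V : Subgroup G} (hCE : CE L T C E Y V) : WF (WFam T) L V := by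
  haveI : Fact (Nat.Prime 2) := ⟨Nat.prime_two⟩
  refine ⟨hCE.hVe, ?_, ?_, ?_, ?_, ?_⟩
  · rintro _ ⟨K, hK, rfl⟩
    obtain ⟨S, d, -, -, -, hS⟩ := exists_setup H.hTp hK
    exact fun w hw => (ce_W_le_V hCE H.hTp hK (H.hKL K hK) (H.RK hK) hS w hw).1
  · rintro _ ⟨K, hK, rfl⟩
    exact ⟨hK.2.2.2.2.1, hK.2.2.2.2.2⟩
  · rintro _ ⟨K₁, hK₁, rfl⟩ _ ⟨K₂, hK₂, rfl⟩ hne
    exact ce_inf_bot hCE H.hTp hK₁ (H.hKL _ hK₁) hK₂ (H.hKL _ hK₂) (H.RK hK₂) hne
  · rintro l hl _ ⟨K, hK, rfl⟩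
    exact ⟨_, H.conj_isJ hK hl, (wOf_map K l).symm⟩
  · rintro _ ⟨K, hK, rfl⟩
    obtain ⟨S, d, -, -, -, hS⟩ := exists_setup H.hTp hK
    refine ⟨d, H.hKL K hK hS.hgK, fun w hw => conj_mem (hS.hKW hS.hgK) hw,
      fun w hw hw1 => hS.not_fix hw hw1, ?_, cover_of_setup hS (cube_mem hK hS.hgK)⟩
    rintro _ ⟨K₂, hK₂, rfl⟩ hne w hw
    have h1 := ce_comm hCE H.hTp hK (H.hKL _ hK) (H.RK hK) hK₂ (H.hKL _ hK₂) (H.RK hK₂) hne.symm
      d hS.hgK w hw
    rw [h1]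
    group

/-- Operators come from the component. -/
theorem exists_op {K : Subgroup G} (hK : IsJComponent T K) : ∃ d ∈ K, Op (WFam T) L (wOf K) d := by
  haveI : Fact (Nat.Prime 2) := ⟨Nat.prime_two⟩
  obtain ⟨C, E, Y, V, hCE⟩ := H.CEx
  obtain ⟨S, d, -, -, -, hS⟩ := exists_setup H.hTp hK
  refine ⟨d, hS.hgK, H.hKL K hK hS.hgK, fun w hw => conj_mem (hS.hKW hS.hgK) hw,
    fun w hw hw1 => hS.not_fix hw hw1, ?_, cover_of_setup hS (cube_mem hK hS.hgK)⟩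
  rintro _ ⟨K₂, hK₂, rfl⟩ hne w hw
  have h1 := ce_comm hCE H.hTp hK (H.hKL _ hK) (H.RK hK) hK₂ (H.hKL _ hK₂) (H.RK hK₂) hne.symm
    d hS.hgK w hw
  rw [h1]
  group

theorem V₀_le : sSup (WFam T) ≤ pCoreOf 2 L := by
  obtain ⟨C, E, Y, V, hCE⟩ := H.CEx
  exact ((H.wf hCE).sSup_le_V subset_rfl).trans hCE.hVR

theorem R_le_T : pCoreOf 2 L ≤ T := by
  haveI : Fact (Nat.Prime 2) := ⟨Nat.prime_two⟩
  exact le_of_normal_of_isSylowIn (isSylowIn_of_two H.Sy) (pCoreOf_le L) (isPGroup_pCoreOf L)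
    (le_normalizer_pCoreOf L)

theorem V₀_sq {v : G} (hv : v ∈ sSup (WFam T)) : v * v = 1 := by
  obtain ⟨C, E, Y, V, hCE⟩ := H.CEx
  exact hCE.hVe v ((H.wf hCE).sSup_le_V subset_rfl hv)

theorem V₀_comm {u v : G} (hu : u ∈ sSup (WFam T)) (hv : v ∈ sSup (WFam T)) : u * v = v * u := by
  obtain ⟨C, E, Y, V, hCE⟩ := H.CEx
  have h := (H.wf hCE).sSup_le_V subset_rfl
  exact comm_of_le hCE.hVe (h hu) (h hv)

theorem L_norm {l : G} (hl : l ∈ L) : l ∈ normalizer ((sSup (WFam T) : Subgroup G) : Set G) := by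
  obtain ⟨C, E, Y, V, hCE⟩ := H.CEx
  exact mem_norm_sSup fun A hA => le_sSup ((H.wf hCE).act l hl A hA)

theorem V₀_ne : ∃ K₁ K₂, IsJComponent T K₁ ∧ IsJComponent T K₂ ∧ wOf K₁ ≠ wOf K₂ := H.hne

/-- Central elements of `J` in the product. -/
theorem le_of_center {a : G} (ha : a ∈ sSup (WFam T)) (ha1 : a ≠ 1)
    (haJ : ∀ j ∈ thompsonSubgroupOf 2 T, j * a = a * j) {X : Subgroup G} (hX : IsTwoLocal X)
    (hc : ∀ c, c * a = a * c → c ∈ X) : X ≤ L := by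
  haveI : Fact (Nat.Prime 2) := ⟨Nat.prime_two⟩
  have haT : a ∈ T := H.R_le_T (H.V₀_le ha)
  have haa := H.V₀_sq ha
  have haZ : a ∈ Zo T := mem_Zo_of_comm haT haa haJ
  by_cases hK : ∃ K, IsJComponent T K ∧ ∀ k ∈ K, k * a = a * k
  · obtain ⟨K, hK, hKa⟩ := hK
    exact H.le_of_K hK hX (fun k hk => hc k (hKa k hk)) fun j hj => hc j (haJ j hj)
  · push Not at hK
    obtain ⟨C, E, Y, V, hCE⟩ := H.CEx
    have F := H.wf hCE
    refine H.le_of_T hX fun s hs => hc s ?_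
    have hsJ := le_normalizer_thompson T hs
    have hsL := H.hTL hs
    have hZon : s ∈ normalizer (Zo T : Set G) := normalizer_le_omegaCenterOf hsJ
    have has : s * a * s⁻¹ ∈ sSup (WFam T) := conj_mem (H.L_norm hsL) ha
    have hasZ : s * a * s⁻¹ ∈ Zo T := conj_mem hZon haZ
    have hb : a * (s * a * s⁻¹) = 1 := by
      refine F.eq_one_of_fix (mul_mem ha has) ?_
      rintro _ ⟨K, hK', rfl⟩
      obtain ⟨d, hdK, hd⟩ := H.exists_op hK'
      refine ⟨d, hd, ?_⟩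
      obtain ⟨z, hz, hzW, hz1, hs'⟩ := split H.h.hL H.h.hN H.h.hZ H.hTp H.hT1 hK'
      have h1 : ∀ k ∈ K, k * (a * z) = (a * z) * k := by
        refine (hs' a haZ).resolve_left fun h => ?_
        obtain ⟨k, hk, hne⟩ := hK K hK'
        exact hne (h k hk)
      have h2 : ∀ k ∈ K, k * ((s * a * s⁻¹) * z) = ((s * a * s⁻¹) * z) * k := by
        refine (hs' _ hasZ).resolve_left fun h => ?_
        have hsi : s⁻¹ ∈ normalizer (thompsonSubgroupOf 2 T : Set G) := inv_mem hsJ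
        obtain ⟨k, hk, hne⟩ := hK _ (isJ_map hK' hsi)
        obtain ⟨k₀, hk₀, rfl⟩ := hk
        apply hne
        have e : ((MulAut.conj s⁻¹).toMonoidHom k₀) = s⁻¹ * k₀ * s⁻¹⁻¹ := rfl
        rw [e]
        have h3 := h k₀ hk₀
        calc (s⁻¹ * k₀ * s⁻¹⁻¹) * a = s⁻¹ * (k₀ * (s * a * s⁻¹)) * s := by group
          _ = s⁻¹ * ((s * a * s⁻¹) * k₀) * s := by rw [h3]
          _ = a * (s⁻¹ * k₀ * s⁻¹⁻¹) := by group
      have h3 := comm_mul h1 h2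
      have e : (a * z) * ((s * a * s⁻¹) * z) = a * (s * a * s⁻¹) := by
        calc (a * z) * ((s * a * s⁻¹) * z) = a * (z * (s * a * s⁻¹)) * z := by group
          _ = a * ((s * a * s⁻¹) * z) * z := by rw [Zo_comm hz hasZ]
          _ = (a * (s * a * s⁻¹)) * (z * z) := by group
          _ = a * (s * a * s⁻¹) := by rw [Zo_sq hz, mul_one]
      rw [e] at h3
      have h4 := h3 d hdK
      rw [h4]
      group
    have h5 : s * a * s⁻¹ = a := by
      calc s * a * s⁻¹ = (a * a) * (s * a * s⁻¹) := by rw [haa, one_mul]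
        _ = a * (a * (s * a * s⁻¹)) := by group
        _ = a := by rw [hb, mul_one]
    rw [mul_inv_eq_iff_eq_mul] at h5
    exact h5

/-- All elements of the product. -/
theorem le_of_mem {v : G} (hv : v ∈ sSup (WFam T)) (hv1 : v ≠ 1) {X : Subgroup G} (hX : IsTwoLocal X)
    (hc : ∀ c, c * v = v * c → c ∈ X) : X ≤ L := by
  haveI : Fact (Nat.Prime 2) := ⟨Nat.prime_two⟩
  obtain ⟨C, E, Y, V, hCE⟩ := H.CEx
  have F := H.wf hCE
  obtain ⟨e, heL, hav, haJ⟩ := F.exists_conj (centralizer (thompsonSubgroupOf 2 T : Set G)) (by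
    rintro _ ⟨K, hK, rfl⟩
    obtain ⟨z, hz, hzW, hz1, -⟩ := split H.h.hL H.h.hN H.h.hZ H.hTp H.hT1 hK
    exact ⟨z, hzW, hz1, mem_centralizer_iff.mpr fun j hj => Zo_cent hz hj⟩) hv
  have ha1 : e * v * e⁻¹ ≠ 1 := by
    intro h
    apply hv1
    calc v = e⁻¹ * (e * v * e⁻¹) * e := by group
      _ = 1 := by rw [h]; group
  have h1 : X.map (MulAut.conj e).toMonoidHom ≤ L := by
    refine H.le_of_center hav ha1 (fun j hj => mem_centralizer_iff.mp haJ j hj)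
      (isTwoLocal_map hX e) fun c hcc => ?_
    refine ⟨e⁻¹ * c * e, hc _ ?_, ?_⟩
    · calc (e⁻¹ * c * e) * v = e⁻¹ * (c * (e * v * e⁻¹)) * e := by group
        _ = e⁻¹ * ((e * v * e⁻¹) * c) * e := by rw [hcc]
        _ = v * (e⁻¹ * c * e) := by group
    · show e * (e⁻¹ * c * e) * e⁻¹ = c
      group
  intro x hx
  have h2 : e * x * e⁻¹ ∈ L := h1 ⟨x, hx, rfl⟩
  have e1 : x = e⁻¹ * (e * x * e⁻¹) * e := by group
  rw [e1]
  exact L.mul_mem (L.mul_mem (L.inv_mem heL) h2) heL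

/-- `C_G(v) ≤ L` for `v` in the product. -/
theorem F1 {v : G} (hv : v ∈ sSup (WFam T)) (hv1 : v ≠ 1) {c : G} (hc : c * v = v * c) : c ∈ L :=
  H.le_of_mem hv hv1 (isTwoLocal_zp (H.V₀_sq hv) hv1) (fun _ hc => mem_norm_zp hc) (mem_norm_zp hc)

/-- The product is a TI-subgroup. -/
theorem TI {g : G} (hg : g ∉ L) {x : G} (hx : x ∈ sSup (WFam T)) (hgx : g * x * g⁻¹ ∈ sSup (WFam T)) :
    x = 1 := by
  by_contra hx1
  have hy1 : g * x * g⁻¹ ≠ 1 := by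
    intro h
    apply hx1
    calc x = g⁻¹ * (g * x * g⁻¹) * g := by group
      _ = 1 := by rw [h]; group
  have h1 : L.map (MulAut.conj g).toMonoidHom ≤ L := by
    refine H.le_of_mem hgx hy1 (isTwoLocal_map H.hLm.1 g) fun c hc => ?_
    refine ⟨g⁻¹ * c * g, H.F1 hx hx1 ?_, ?_⟩
    · calc (g⁻¹ * c * g) * x = g⁻¹ * (c * (g * x * g⁻¹)) * g := by group
        _ = g⁻¹ * ((g * x * g⁻¹) * c) * g := by rw [hc]
        _ = x * (g⁻¹ * c * g) := by group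
    · show g * (g⁻¹ * c * g) * g⁻¹ = c
      group
  have h2 : L.map (MulAut.conj g).toMonoidHom = L :=
    Subgroup.eq_of_le_of_card_ge h1 (by rw [card_map_conj])
  exact hg (norm_self H.hLm H.Rne (Subgroup.mem_normalizer_iff_map_conj_eq.mpr h2))

/-- The key commutation. -/
theorem tic {g a v : G} (hg : g ∉ L) (ha : a ∈ sSup (WFam T)) (ha1 : a ≠ 1) (hu : g * a * g⁻¹ ∈ L)
    (hv : v ∈ sSup (WFam T)) : (g * a * g⁻¹) * v = v * (g * a * g⁻¹) := by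
  obtain ⟨C, E, Y, V, hCE⟩ := H.CEx
  have F := H.wf hCE
  refine F.tic (fun l hl v hv => conj_mem (H.L_norm hl) hv) (fun v hv hv1 c hc => H.F1 hv hv1 hc)
    (fun g hg x hx hgx => H.TI hg hx hgx) ?_ hg ha ha1 hu hv
  obtain ⟨K₁, K₂, h₁, h₂, hne⟩ := H.hne
  exact ⟨_, ⟨K₁, h₁, rfl⟩, _, ⟨K₂, h₂, rfl⟩, hne⟩

/-- `L` is not strongly embedded. -/
theorem strad_ne : (straddlingTwoSubgroups L).Nonempty := by
  haveI : Fact (Nat.Prime 2) := ⟨Nat.prime_two⟩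
  by_contra hno
  have hSE : ∀ g, g ∉ L → ∀ w ∈ L, g⁻¹ * w * g ∈ L → w * w = 1 → w = 1 := by
    intro g hg w hw hgw hww
    by_contra hw1
    apply hno
    refine ⟨zpowers w, ?_, by simpa using hw1, ?_, L.map (MulAut.conj g).toMonoidHom, isTwoLocal_map H.hLm.1 g, ?_, ?_⟩
    · rintro ⟨y, hy⟩
      obtain ⟨k, rfl⟩ := Subgroup.mem_zpowers_iff.mp hy
      refine ⟨1, Subtype.ext ?_⟩
      have h2 : w ^ 2 = 1 := by rw [pow_two]; exact hww
      show (w ^ k) ^ 2 ^ 1 = 1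
      rw [pow_one, ← zpow_natCast, ← zpow_mul, mul_comm, zpow_mul]
      simp [h2]
    · rw [Subgroup.zpowers_le]
      exact hw
    · rw [Subgroup.zpowers_le]
      exact ⟨_, hgw, by show g * (g⁻¹ * w * g) * g⁻¹ = w; group⟩
    · intro h1
      have h2 : L.map (MulAut.conj g).toMonoidHom = L :=
        Subgroup.eq_of_le_of_card_ge h1 (by rw [card_map_conj])
      exact hg (norm_self H.hLm H.Rne (Subgroup.mem_normalizer_iff_map_conj_eq.mpr h2))
  -- an element outside `L`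
  obtain ⟨g, hg⟩ : ∃ g, g ∉ L := by
    by_contra hcon
    push Not at hcon
    have hLt : L = ⊤ := eq_top_iff.mpr fun x _ => hcon x
    have hn : (pCoreOf 2 L).Normal := by
      rw [← Subgroup.normalizer_eq_top_iff, eq_top_iff]
      intro x _
      exact le_normalizer_pCoreOf L (hcon x)
    have h1 := Cfsg.Agent.Lib.Core.Basic.le_pCore hn (isPGroup_pCoreOf L)
    rw [H.hO, le_bot_iff] at h1
    exact H.Rne h1
  -- `a` outside `O₂(L)`
  obtain ⟨a, haJ, haR⟩ : ∃ a, (∃ A, IsMaxIn 2 T A ∧ a ∈ A) ∧ a ∉ pCoreOf 2 L := by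
    by_contra hcon
    push Not at hcon
    apply H.hOv.2.1
    rw [thompsonSubgroupOf_eq]
    refine sSup_le fun A hA a ha => hcon a ⟨A, hA, ha⟩
  obtain ⟨A, hA, haA⟩ := haJ
  have haT : a ∈ T := hA.1 haA
  have haa : a * a = 1 := by
    have := hA.2.1.2 a haA
    rwa [pow_two] at this
  have ha1 : a ≠ 1 := fun h => haR (by rw [h]; exact one_mem _)
  obtain ⟨K₁, K₂, h₁, -, -⟩ := H.hne
  obtain ⟨b', hb'Z, hb'W, hb'1, -⟩ := split H.h.hL H.h.hN H.h.hZ H.hTp H.hT1 h₁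
  have hbV : b' ∈ sSup (WFam T) :=
    (le_sSup (show wOf K₁ ∈ WFam T from ⟨K₁, h₁, rfl⟩) : wOf K₁ ≤ sSup (WFam T)) hb'W
  obtain ⟨l, hl, hla⟩ := conj_of_se hSE hg (H.hTL haT) haa ha1 (H.hTL (H.R_le_T (H.V₀_le hbV)))
    (H.V₀_sq hbV) hb'1
  apply haR
  rw [← hla]
  exact conj_mem (le_normalizer_pCoreOf L hl) (H.V₀_le hbV)

/-- The contradiction. -/
theorem false_of : False := by
  haveI : Fact (Nat.Prime 2) := ⟨Nat.prime_two⟩
  obtain ⟨T', hT'⟩ := exists_maxStrad H.strad_ne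
  have hH' : Hyp L T' S₁ := ⟨H.h.hL, H.h.hN, H.h.hZ, by rw [H.hS₁]; exact H.hNL, hT'⟩
  obtain ⟨K', hK'⟩ := s2949 H.h.hL H.h.hN H.h.hZ hH'.hMJ hT'
  have hK'J := hK'.1.1
  have hK'L := hK'.2.1
  have hT'p := hH'.hTp
  have hT'1 := hH'.hT1
  have hT'L : T' ≤ L := hT'.1.2.2.1
  have hSy := hH'.sylow_L hK'
  have hOv := hH'.over_L hK'
  set L' := normalizer (WW T' K' : Set G) with hL'd
  have hL'2 : IsTwoLocal L' := hH'.isTwoLocal_WW hK'J hK'L
  obtain ⟨C', E', Y', V', hCE'⟩ := exists_CE5 H.h.hZ (H.h.hN L' hL'2) hT'p hSy hOv.2.2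
  have hK'L' : K' ≤ L' := hH'.K_le_L hK'J hK'L
  have hR'T : pCoreOf 2 L' ≤ T' := le_of_normal_of_isSylowIn (isSylowIn_of_two hSy) (pCoreOf_le L')
    (isPGroup_pCoreOf L') (le_normalizer_pCoreOf L')
  set V₀ := sSup (WFam T) with hV₀
  have hV₀p : IsPGroup 2 V₀ := by
    intro v
    refine ⟨1, Subtype.ext ?_⟩
    have := H.V₀_sq v.2
    simpa [pow_one, pow_two] using this
  have hT'V : T' ≤ normalizer (V₀ : Set G) := fun x hx => H.L_norm (hT'L hx)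
  have hP : IsPGroup 2 ↥(T' ⊔ V₀) := IsPGroup.to_sup_of_normal_right' hT'p hV₀p hT'V
  have hPV : T' ⊔ V₀ ≤ normalizer (V₀ : Set G) := sup_le hT'V Subgroup.le_normalizer
  -- a nontrivial element
  obtain ⟨K₁, K₂, h₁, h₂, hne⟩ := H.hne
  have hW₁V : wOf K₁ ≤ V₀ := le_sSup (show wOf K₁ ∈ WFam T from ⟨K₁, h₁, rfl⟩)
  have hW₂V : wOf K₂ ≤ V₀ := le_sSup (show wOf K₂ ∈ WFam T from ⟨K₂, h₂, rfl⟩)
  have hWne : ∀ {K : Subgroup G}, IsJComponent T K → (⊥ : Subgroup G) < wOf K := by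
    intro K hK
    refine lt_of_le_of_ne bot_le fun h => ?_
    have h4 := hK.2.2.2.2.1
    rw [← h] at h4
    simp at h4
  have hV₀ne : (⊥ : Subgroup G) < V₀ := lt_of_lt_of_le (hWne h₁) hW₁V
  have hbotn : ∀ X : Subgroup G, X ≤ normalizer ((⊥ : Subgroup G) : Set G) := by
    intro X x _
    refine mem_normalizer_of_conj_le fun y hy => ?_
    rw [Subgroup.mem_bot] at hy ⊢
    rw [hy]
    group
  obtain ⟨f, hf, hf1, hfix⟩ := Cfsg.Agent.Lib.JSub.F4.exists_fix_above hP hV₀ne le_sup_right (hbotn _) hPV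
  have hfix' : ∀ s ∈ T', s * f = f * s := by
    intro s hs
    have h1 := hfix s (Subgroup.mem_sup_left hs)
    rw [Subgroup.mem_bot, inv_mul_eq_one] at h1
    have h2 : s * f * s⁻¹ = f := h1.symm
    rw [mul_inv_eq_iff_eq_mul] at h2
    exact h2
  have hf1' : f ≠ 1 := fun h => hf1 (by rw [h]; exact one_mem _)
  have hff : f * f = 1 := H.V₀_sq hf
  have hfT' : f ∈ T' := hR'T (hOv.2.2 (mem_centralizer_iff.mpr fun r hr => hfix' r (hR'T hr)))
  have hfZ : f ∈ Zo T' := mem_Zo_of_comm hfT' hff fun j hj => hfix' j (thompson_le T' hj)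
  -- elements of the product do not centralize `K'`
  have hnot : ∀ e ∈ V₀, e ≠ 1 → ¬ ∀ k ∈ K', k * e = e * k := by
    intro e he he1 hc
    exact hK'L fun k hk => H.F1 he he1 (hc k hk)
  obtain ⟨z', hz', hz'W, hz'1, hs'⟩ := split H.h.hL H.h.hN H.h.hZ hT'p hT'1 hK'J
  have hx₀ := (hs' f hfZ).resolve_left (hnot f hf hf1')
  obtain ⟨S', d, -, -, -, hS'⟩ := exists_setup hT'p hK'J
  have hd3 := cube_mem hK'J hS'.hgK
  have hQT : pCoreOf 2 K' ≤ T' := (ce_QR hCE' hK'J hK'L').trans hR'T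
  have hdL : d ∉ L := fun h => hK'L (index3_le (pCoreOf_le K') hK'J.2.2.1 (hQT.trans hT'L) hS'.hgK h hS'.hgQ)
  have hddL : d * d ∉ L := fun h => hK'L (index3_le (pCoreOf_le K') hK'J.2.2.1 (hQT.trans hT'L)
    (K'.mul_mem hS'.hgK hS'.hgK) h (index3_sq (pCoreOf_le K') (le_normalizer_pCoreOf K') hK'J.2.2.1 hS'.hgK hS'.hgQ))
  set x₀ := f * z' with hx₀d
  have hx₀Z : x₀ ∈ Zo T' := (Zo T').mul_mem hfZ hz'
  have hfe : f = x₀ * z' := by
    rw [hx₀d, mul_assoc, Zo_sq hz', mul_one]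
  have hWT : wOf K' ≤ T' := hS'.hWQ.trans hQT
  -- the conjugates
  have hd₁W : d * z' * d⁻¹ ∈ wOf K' := conj_mem (hS'.hKW hS'.hgK) hz'W
  have hd₂W : (d * d) * z' * (d * d)⁻¹ ∈ wOf K' :=
    conj_mem (hS'.hKW (K'.mul_mem hS'.hgK hS'.hgK)) hz'W
  have hu₁ : d * f * d⁻¹ = x₀ * (d * z' * d⁻¹) := by
    have h1 := hx₀ d hS'.hgK
    calc d * f * d⁻¹ = d * (x₀ * z') * d⁻¹ := by rw [← hfe]
      _ = (d * x₀) * z' * d⁻¹ := by group
      _ = (x₀ * d) * z' * d⁻¹ := by rw [h1]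
      _ = x₀ * (d * z' * d⁻¹) := by group
  have hu₂ : (d * d) * f * (d * d)⁻¹ = x₀ * ((d * d) * z' * (d * d)⁻¹) := by
    have h1 := hx₀ (d * d) (K'.mul_mem hS'.hgK hS'.hgK)
    calc (d * d) * f * (d * d)⁻¹ = (d * d) * (x₀ * z') * (d * d)⁻¹ := by rw [← hfe]
      _ = ((d * d) * x₀) * z' * (d * d)⁻¹ := by group
      _ = (x₀ * (d * d)) * z' * (d * d)⁻¹ := by rw [h1]
      _ = x₀ * ((d * d) * z' * (d * d)⁻¹) := by group
  have hx₀T : x₀ ∈ T' := Zo_T hx₀Z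
  have hu₁L : d * f * d⁻¹ ∈ L := by
    rw [hu₁]
    exact hT'L (T'.mul_mem hx₀T (hWT hd₁W))
  have hu₂L : (d * d) * f * (d * d)⁻¹ ∈ L := by
    rw [hu₂]
    exact hT'L (T'.mul_mem hx₀T (hWT hd₂W))
  have hcom₁ : ∀ v ∈ V₀, (x₀ * (d * z' * d⁻¹)) * v = v * (x₀ * (d * z' * d⁻¹)) := by
    intro v hv
    rw [← hu₁]
    exact H.tic hdL hf hf1' hu₁L hv
  have hcom₂ : ∀ v ∈ V₀, (x₀ * ((d * d) * z' * (d * d)⁻¹)) * v = v * (x₀ * ((d * d) * z' * (d * d)⁻¹)) := by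
    intro v hv
    rw [← hu₂]
    exact H.tic hddL hf hf1' hu₂L hv
  have hcom₀ : ∀ v ∈ V₀, (x₀ * z') * v = v * (x₀ * z') := by
    intro v hv
    rw [← hfe]
    exact H.V₀_comm hf hv
  -- `V₀` centralizes `W_{K'}`
  have hWc : ∀ a ∈ wOf K', ∀ b ∈ wOf K', a * b = b * a := fun a ha b hb => hS'.hW.comm ha hb
  have hWs : ∀ a ∈ wOf K', a * a = 1 := hS'.hW.2
  have hx₀c : ∀ a ∈ wOf K', x₀ * a = a * x₀ := fun a ha =>
    (hx₀ a (hS'.hQK (hS'.hWQ ha))).symm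
  have hx₀x₀ : x₀ * x₀ = 1 := Zo_sq hx₀Z
  have hrel := rel_of_setup hS' hd3 hz'W
  set a₁ := d * z' * d⁻¹ with ha₁
  set a₂ := (d * d) * z' * (d * d)⁻¹ with ha₂
  have hpair : ∀ a ∈ wOf K', ∀ b ∈ wOf K', ∀ v ∈ V₀, (x₀ * a) * v = v * (x₀ * a) →
      (x₀ * b) * v = v * (x₀ * b) → (a * b) * v = v * (a * b) := by
    intro a ha b hb v _ h1 h2
    have e : (x₀ * a) * (x₀ * b) = a * b := by
      calc (x₀ * a) * (x₀ * b) = x₀ * (a * x₀) * b := by group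
        _ = x₀ * (x₀ * a) * b := by rw [hx₀c a ha]
        _ = (x₀ * x₀) * (a * b) := by group
        _ = a * b := by rw [hx₀x₀, one_mul]
    rw [← e, mul_assoc, h2, ← mul_assoc, h1, mul_assoc]
  have e₁ : z' * a₁ = a₂ := by
    calc z' * a₁ = (z' * a₁) * (a₂ * a₂) := by rw [hWs a₂ hd₂W, mul_one]
      _ = (z' * a₁ * a₂) * a₂ := by group
      _ = a₂ := by rw [hrel, one_mul]
  have e₂ : z' * a₂ = a₁ := by
    calc z' * a₂ = (z' * a₂) * (a₁ * a₁) := by rw [hWs a₁ hd₁W, mul_one]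
      _ = z' * (a₂ * a₁) * a₁ := by group
      _ = z' * (a₁ * a₂) * a₁ := by rw [hWc a₂ hd₂W a₁ hd₁W]
      _ = (z' * a₁ * a₂) * a₁ := by group
      _ = a₁ := by rw [hrel, one_mul]
  have e₃ : a₁ * a₂ = z' := by
    calc a₁ * a₂ = (z' * z') * (a₁ * a₂) := by rw [hWs z' hz'W, one_mul]
      _ = z' * (z' * a₁ * a₂) := by group
      _ = z' := by rw [hrel, mul_one]
  have hV₀W : ∀ v ∈ V₀, ∀ w ∈ wOf K', v * w = w * v := by
    intro v hv w hw
    have hc₁ : a₁ * v = v * a₁ := by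
      have := hpair z' hz'W a₂ hd₂W v hv (hcom₀ v hv) (hcom₂ v hv)
      rwa [e₂] at this
    have hc₂ : a₂ * v = v * a₂ := by
      have := hpair z' hz'W a₁ hd₁W v hv (hcom₀ v hv) (hcom₁ v hv)
      rwa [e₁] at this
    have hc₀ : z' * v = v * z' := by
      have := hpair a₁ hd₁W a₂ hd₂W v hv (hcom₁ v hv) (hcom₂ v hv)
      rwa [e₃] at this
    rcases cover_of_setup hS' hd3 z' hz'W hz'1 w hw with h | h | h | h
    · rw [h]
      group
    · rw [h]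
      exact hc₀.symm
    · rw [h]
      exact hc₁.symm
    · rw [h]
      exact hc₂.symm
  -- hence `V₀ ≤ T'`
  have hVL' : V₀ ≤ L' := by
    intro v hv
    refine hH'.N_le_norm hK'J hK'L (Subgroup.centralizer_le_normalizer _ ?_)
    rw [mem_centralizer_iff]
    intro w hw
    exact (hV₀W v hv w hw).symm
  have hVT' : V₀ ≤ T' := by
    have h1 := eq_of_sylow hSy (le_sup_left : T' ≤ T' ⊔ V₀) (sup_le hSy.1 hVL') hP
    rw [← h1]
    exact le_sup_right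
  -- `J(T')` normalizes the four-groups
  have hbest : ∀ {K : Subgroup G}, IsJComponent T K → wOf K ≤ V₀ →
      thompsonSubgroupOf 2 T' ≤ normalizer (wOf K : Set G) := by
    intro K hK hKV
    rw [thompsonSubgroupOf_eq]
    refine sSup_le fun A hA => ?_
    exact Cfsg.Agent.Lib.JSub.Best.le_normalizer_wOf H.solvL H.hTp hK (H.hKL K hK)
      (sn_of_mem H.h.hL H.h.hN H.h.hZ H.hTp H.hT1 H.hOv hK (H.hKL K hK)) hT'p hT'L
      (fun b hb w hw => hVT' (conj_mem (H.L_norm hb) (hKV hw))) hA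
  -- fixed points
  have hfixW : ∀ {K : Subgroup G}, IsJComponent T K → wOf K ≤ V₀ →
      ∃ e ∈ wOf K, e ≠ 1 ∧ ∀ j ∈ thompsonSubgroupOf 2 T', j * e = e * j := by
    intro K hK hKV
    have hJ2 : IsPGroup 2 (thompsonSubgroupOf 2 T') := hT'p.to_le (thompson_le T')
    have hW2 : IsPGroup 2 (wOf K) := hV₀p.to_le hKV
    have hJW := hbest hK hKV
    have hP2 : IsPGroup 2 ↥(thompsonSubgroupOf 2 T' ⊔ wOf K) := IsPGroup.to_sup_of_normal_right' hJ2 hW2 hJW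
    obtain ⟨e, he, he1, hfixe⟩ := Cfsg.Agent.Lib.JSub.F4.exists_fix_above hP2 (hWne hK) le_sup_right (hbotn _)
      (sup_le hJW Subgroup.le_normalizer)
    refine ⟨e, he, fun h => he1 (by rw [h]; exact one_mem _), fun j hj => ?_⟩
    have h1 := hfixe j (Subgroup.mem_sup_left hj)
    rw [Subgroup.mem_bot, inv_mul_eq_one] at h1
    have h2 : j * e * j⁻¹ = e := h1.symm
    rw [mul_inv_eq_iff_eq_mul] at h2
    exact h2
  obtain ⟨e₁', he₁W, he₁1, he₁c⟩ := hfixW h₁ hW₁V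
  obtain ⟨e₂', he₂W, he₂1, he₂c⟩ := hfixW h₂ hW₂V
  have hmemZ : ∀ {e : G}, e ∈ V₀ → (∀ j ∈ thompsonSubgroupOf 2 T', j * e = e * j) → e ∈ Zo T' :=
    fun he hc => mem_Zo_of_comm (hVT' he) (H.V₀_sq he) hc
  have he₁V := hW₁V he₁W
  have he₂V := hW₂V he₂W
  have he₁Z := hmemZ he₁V he₁c
  have he₂Z := hmemZ he₂V he₂c
  obtain ⟨C, E, Y, V, hCE⟩ := H.CEx
  have hinf := ce_inf_bot hCE H.hTp h₁ (H.hKL _ h₁) h₂ (H.hKL _ h₂) (H.RK h₂) hne
  have h12 : e₁' * e₂' ≠ 1 := by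
    intro h
    rw [mul_eq_one_iff_eq_inv, Zo_inv he₂Z] at h
    have h3 : e₁' ∈ wOf K₁ ⊓ wOf K₂ := ⟨he₁W, h ▸ he₂W⟩
    rw [hinf, Subgroup.mem_bot] at h3
    exact he₁1 h3
  have hz₁ := (hs' _ he₁Z).resolve_left (hnot _ he₁V he₁1)
  have hz₂ := (hs' _ he₂Z).resolve_left (hnot _ he₂V he₂1)
  have h3 := comm_mul hz₁ hz₂
  have e : (e₁' * z') * (e₂' * z') = e₁' * e₂' := by
    calc (e₁' * z') * (e₂' * z') = e₁' * (z' * e₂') * z' := by group
      _ = e₁' * (e₂' * z') * z' := by rw [Zo_comm hz' he₂Z]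
      _ = (e₁' * e₂') * (z' * z') := by group
      _ = e₁' * e₂' := by rw [Zo_sq hz', mul_one]
  rw [e] at h3
  exact hnot _ (mul_mem he₁V he₂V) h12 h3

end UH

/-- `T` normalizes `K`. -/
theorem le_norm_K (hL : IsCharacteristicTwoType G)
    (hN : ∀ N : Subgroup G, IsTwoLocal N → Group.IsSolvable ↥N)
    (hZ : ∀ S : Sylow 2 G, centralizer (omegaCenterOf (S : Subgroup G) : Set G) ≤
      normalizer ((S : Subgroup G) : Set G)) (hO : Cfsg.pCore 2 G = ⊥) {S : Sylow 2 G} {M T K : Subgroup G}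
    (hMJ : normalizer (thompsonSubgroupOf 2 (S : Subgroup G) : Set G) ≤ M)
    (hT : T ∈ maxStraddlingTwoSubgroups M) (hK : K ∈ jComponentsOutside M T) :
    T ≤ normalizer (K : Set G) := by
  intro t ht
  by_contra htK
  have hM : Hyp M T S := ⟨hL, hN, hZ, hMJ, hT⟩
  have hW : wOf K ≠ wOf (K.map (MulAut.conj t).toMonoidHom) := by
    intro h
    apply htK
    rw [(Cfsg.Agent.Lib.JSub.Zero.main hL hN hZ hM.hTp hK.1).1]
    rw [wOf_map] at h
    exact Subgroup.mem_normalizer_iff_map_conj_eq.mpr h.symm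
  have H : Two M T (normalizer (WW T K : Set G)) K (K.map (MulAut.conj t).toMonoidHom) S t :=
    ⟨hM, hK, rfl, ht, rfl, hW⟩
  obtain ⟨S₁, hS₁⟩ := H.exists_sylow
  have U : UH T (normalizer (WW T K : Set G)) S₁ :=
    ⟨H.hyp_N hS₁, hO, hS₁, H.isMax, H.Sy.1, H.Ov, fun K' hK' => H.all_le hS₁ hK', H.norm_le_L hS₁,
      ⟨K, _, H.J₁, H.J₂, H.hW⟩⟩
  exact U.false_of

end Cfsg.Agent.Lib.JSub.Uni
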