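import Cfsg.Agent.Lib.JSub.Strad
import Cfsg.Agent.Lib.JSub.Sn

/-!
# Uniqueness of the maximal `2`-local subgroup over `⟨K, J(T)⟩`
-/

set_option autoImplicit false
set_option linter.unusedSectionVars false
set_option linter.unusedSimpArgs false
set_option linter.style.haveILetI false

open scoped commutatorElement

namespace Cfsg.Agent.Lib.JSub.Unique

open Cfsg Subgroup
open Cfsg.Agent.Lib.JSub.Main
open Cfsg.Agent.Lib.JSub.NormW (rel_of_setup)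
open Cfsg.Agent.Lib.JSub.Zero
open Cfsg.Agent.Lib.JSub.Exist
open Cfsg.Agent.Lib.JSub.Strad
open Cfsg.Agent.Lib.JSub.Sn (cover_of_setup)
open Cfsg.Agent.Lib.PointStab.Step (nrm_of_conj conj_mem conj_inv_mem mem_Z₁ Z₁)
open Cfsg.Agent.Lib.PLocal.Thompson (IsMaxIn jOf thompsonSubgroupOf_eq IsAbExp)
open Cfsg.Agent.Lib.LocalStruct.PCoreOf
open Cfsg.Agent.Lib.LocalEven.JComp (Setup exists_setup K_le_normalizer_wOf normalizer_le_wOf)
open Cfsg.Agent.Lib.LocalEven.Util (mem_normalizer_of_conj_le)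
open Cfsg.Agent.Lib.Coprime.Action (le_of_normal_of_isSylowIn)

variable {G : Type*} [Group G] [Finite G]

/-- An element of `J(T)` inverting `K` modulo `O₂(K)`. -/
theorem exists_inv {T K : Subgroup G} (hK : IsJComponent T K) :
    ∃ j ∈ thompsonSubgroupOf 2 T, ∀ k ∈ K, k * (j * k * j⁻¹) ∈ pCoreOf 2 K := by
  haveI : Fact (Nat.Prime 2) := ⟨Nat.prime_two⟩
  set J := thompsonSubgroupOf 2 T with hJ
  set Q := pCoreOf 2 K with hQ
  have h3 : Q.relIndex K = 3 := hK.2.2.1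
  have hJK : J ≤ normalizer (K : Set G) := by
    have := Cfsg.Agent.Lib.LocalEven.CharP.le_normalizer_commutator J K
    rwa [Subgroup.commutator_comm, hK.2.1] at this
  obtain ⟨k₀, hk₀, j, hj, hmove⟩ : ∃ k₀ ∈ K, ∃ j ∈ J, k₀ * (j * k₀ * j⁻¹)⁻¹ ∉ Q := by
    by_contra hcon
    push Not at hcon
    have h1 : K ≤ Q := by
      conv_lhs => rw [← hK.2.1]
      rw [Subgroup.commutator_le]
      intro k hk j hj
      have := hcon k hk j hj
      have e : ⁅k, j⁆ = k * (j * k * j⁻¹)⁻¹ := by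
        rw [commutatorElement_def]
        group
      rwa [e]
    have h2 : Q.relIndex K = 1 := Subgroup.relIndex_eq_one.mpr h1
    omega
  have hjK : j ∈ normalizer (K : Set G) := hJK hj
  have hjQ : j ∈ normalizer (Q : Set G) :=
    Cfsg.Agent.Lib.LocalEven.JComp.normalizer_le_pCoreOf hjK
  exact ⟨j, hj, fun k hk => inv_of_move (pCoreOf_le K) (le_normalizer_pCoreOf K) h3 hjK hjQ hk₀ hmove hk⟩

theorem cube_mem {T K : Subgroup G} (hK : IsJComponent T K) {k : G} (hk : k ∈ K) :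
    k ^ 3 ∈ pCoreOf 2 K := by
  haveI : Fact (Nat.Prime 2) := ⟨Nat.prime_two⟩
  haveI hN : ((pCoreOf 2 K).subgroupOf K).Normal :=
    Subgroup.normal_subgroupOf_of_le_normalizer (le_normalizer_pCoreOf K)
  have h1 := Subgroup.pow_index_mem ((pCoreOf 2 K).subgroupOf K) (⟨k, hk⟩ : K)
  have h2 : ((pCoreOf 2 K).subgroupOf K).index = 3 := hK.2.2.1
  rw [h2, Subgroup.mem_subgroupOf] at h1
  simpa using h1

section CEfacts

variable {L T C E Y V K : Subgroup G}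

theorem ce_KE (h : CE L T C E Y V) (hK : IsJComponent T K) (hKL : K ≤ L) : K ≤ E := by
  have hKY : K ≤ Y := by
    conv_lhs => rw [← hK.2.1]
    rw [Subgroup.commutator_le]
    intro k hk j hj
    rw [commutatorElement_def]
    exact Y.mul_mem (conj_mem (h.hLY (hKL hk)) (h.hJY hj)) (Y.inv_mem (h.hJY hj))
  conv_lhs => rw [← hK.1]
  rw [closure_le]
  rintro g ⟨hg, hgo⟩
  exact h.hYE g (hKY hg) hgo

theorem ce_QR (h : CE L T C E Y V) (hK : IsJComponent T K) (hKL : K ≤ L) :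
    pCoreOf 2 K ≤ pCoreOf 2 L := by
  haveI : Fact (Nat.Prime 2) := ⟨Nat.prime_two⟩
  intro q hq
  obtain ⟨a, ha⟩ := (IsPGroup.iff_orderOf.mp (isPGroup_pCoreOf (p := 2) K)) ⟨q, hq⟩
  have ha' : orderOf q = 2 ^ a := by rwa [Subgroup.orderOf_mk] at ha
  have hco : Nat.Coprime 3 (orderOf q) := by
    rw [ha']
    exact Nat.Coprime.pow_right _ (by norm_num)
  obtain ⟨m, hm⟩ := exists_pow_eq_self_of_coprime hco
  have hqC : q ∈ C := by
    rw [← hm]
    exact C.pow_mem (h.hE3 q (ce_KE h hK hKL (pCoreOf_le K hq))) m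
  exact h.h2R q hqC a ha'

theorem ce_RK_inf (hKL : K ≤ L) (hRK : pCoreOf 2 L ≤ normalizer (K : Set G)) :
    pCoreOf 2 L ⊓ K ≤ pCoreOf 2 K := by
  haveI : Fact (Nat.Prime 2) := ⟨Nat.prime_two⟩
  refine le_pCoreOf inf_le_right ?_ ((isPGroup_pCoreOf (p := 2) L).to_le inf_le_left)
  refine le_trans ?_ Subgroup.inf_normalizer_le_normalizer_inf
  exact le_inf (hKL.trans (le_normalizer_pCoreOf L)) Subgroup.le_normalizer

/-- `V` lies in the centre of `O₂(L)`. -/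
theorem ce_VR (h : CE L T C E Y V) {v r : G} (hv : v ∈ V) (hr : r ∈ pCoreOf 2 L) : r * v = v * r :=
  h.hCV r (h.hRC hr) v hv

theorem ce_d_not_C (h : CE L T C E Y V) (hK : IsJComponent T K) (hKL : K ≤ L)
    (hRK : pCoreOf 2 L ≤ normalizer (K : Set G)) {d : G} (hd : d ∈ K) (hdQ : d ∉ pCoreOf 2 K) :
    d ∉ C := by
  haveI : Fact (Nat.Prime 2) := ⟨Nat.prime_two⟩
  intro hdC
  obtain ⟨j, hj, hinv⟩ := exists_inv hK
  have hjT : j ∈ T := (Cfsg.Agent.Lib.Core.ThompsonMap.thompsonSubgroupOf_le T) hj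
  have hQR := ce_QR h hK hKL
  have h1 := h.hTC d hdC j hjT
  have h2 := hQR (hinv d hd)
  have h3 := hQR (cube_mem hK hd)
  set R := pCoreOf 2 L with hR
  have hLR : L ≤ normalizer (R : Set G) := le_normalizer_pCoreOf L
  have hdL : d ∈ L := hKL hd
  have hjL : j ∈ L := h.hTL.1 hjT
  -- `d² ∈ R`
  have h4 : d * d ∈ R := by
    have e : d * d = (d * (d * (j * d * j⁻¹)) * d⁻¹) * (d * j * d⁻¹ * j⁻¹) := by group
    rw [e]
    exact R.mul_mem (conj_mem (hLR hdL) h2) h1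
  have h5 : d ∈ R := by
    have e : d = d ^ 3 * (d * d)⁻¹ := by
      rw [pow_succ, pow_two]
      group
    rw [e]
    exact R.mul_mem h3 (R.inv_mem h4)
  exact hdQ (ce_RK_inf hKL hRK ⟨h5, hd⟩)

/-- `[V, d] ≤ W_K`. -/
theorem ce_comm_mem_W (h : CE L T C E Y V) (hK : IsJComponent T K) (hKL : K ≤ L)
    (hRK : pCoreOf 2 L ≤ normalizer (K : Set G)) {d : G} (hd : d ∈ K) {u : G} (hu : u ∈ V) :
    d * u * d⁻¹ * u⁻¹ ∈ wOf K := by
  haveI : Fact (Nat.Prime 2) := ⟨Nat.prime_two⟩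
  set Q := pCoreOf 2 K with hQd
  set R := pCoreOf 2 L with hRd
  have hQR : Q ≤ R := ce_QR h hK hKL
  have hVR := h.hVR
  have hVi : ∀ {v : G}, v ∈ V → v⁻¹ = v := fun {v} hv => inv_eq_of_mul_eq_one_left (h.hVe v hv)
  have hVc : ∀ {u v : G}, u ∈ V → v ∈ V → u * v = v * u := fun hu hv => ce_VR h hv (hVR hu)
  have hdV : ∀ {v : G}, v ∈ V → d * v * d⁻¹ ∈ V := fun hv => conj_mem (h.hLV (hKL hd)) hv
  have hd3V : ∀ {v : G}, v ∈ V → (d * d * d) * v * (d * d * d)⁻¹ = v := by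
    intro v hv
    have h1 := ce_VR h hv (hQR (cube_mem hK hd))
    have e : d ^ 3 = d * d * d := by rw [pow_succ, pow_two]
    rw [e] at h1
    rw [h1]
    group
  have hq := hdV hu
  have hr := hdV hq
  have hu₁V : d * u * d⁻¹ * u⁻¹ ∈ V := V.mul_mem hq (V.inv_mem hu)
  have hu₁K : d * u * d⁻¹ * u⁻¹ ∈ K := by
    have e : d * u * d⁻¹ * u⁻¹ = d * (u * d⁻¹ * u⁻¹) := by group
    rw [e]
    exact K.mul_mem hd (conj_mem (hRK (hVR hu)) (K.inv_mem hd))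
  have hu₁Q : d * u * d⁻¹ * u⁻¹ ∈ Q := ce_RK_inf hKL hRK ⟨hVR hu₁V, hu₁K⟩
  have hωV : d * (d * u * d⁻¹ * u⁻¹) * d⁻¹ ∈ V := hdV hu₁V
  have hωQ : d * (d * u * d⁻¹ * u⁻¹) * d⁻¹ ∈ Q := conj_mem (le_normalizer_pCoreOf K hd) hu₁Q
  have hω : d * (d * u * d⁻¹ * u⁻¹) * d⁻¹ ∈ omegaCenterOf Q := by
    refine mem_Z₁.mpr ⟨hωQ, fun r hr => ce_VR h hωV (hQR hr), ?_⟩
    rw [pow_two]
    exact h.hVe _ hωV
  have hmem := Subgroup.commutator_mem_commutator hω hd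
  have hmem' : ⁅d * (d * u * d⁻¹ * u⁻¹) * d⁻¹, d⁆ ∈ wOf K := hmem
  have e : ⁅d * (d * u * d⁻¹ * u⁻¹) * d⁻¹, d⁆ = d * u * d⁻¹ * u⁻¹ := by
    rw [commutatorElement_def]
    set q := d * u * d⁻¹ with hqd
    set r := d * q * d⁻¹ with hrd
    have hdr : d * r * d⁻¹ = u := by
      have := hd3V hu
      rw [hrd, hqd]
      calc d * (d * (d * u * d⁻¹) * d⁻¹) * d⁻¹ = (d * d * d) * u * (d * d * d)⁻¹ := by group
        _ = u := this
    have hω' : d * (q * u⁻¹) * d⁻¹ = r * q⁻¹ := by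
      rw [hrd, hqd]
      group
    rw [hω']
    have hdω : d * (r * q⁻¹)⁻¹ * d⁻¹ = (d * r * d⁻¹ * (d * q * d⁻¹)⁻¹)⁻¹ := by group
    have e1 : r * q⁻¹ * d * (r * q⁻¹)⁻¹ * d⁻¹ = (r * q⁻¹) * (d * (r * q⁻¹)⁻¹ * d⁻¹) := by group
    rw [e1, hdω, hdr, ← hrd, hVi hq, hVi hr, hVi hu]
    have hr' : r ∈ V := hr
    have hq' : q ∈ V := hq
    rw [mul_inv_rev, hVi hr', hVi hu]
    calc r * q * (r * u) = (r * r) * (q * u) := by
          rw [mul_assoc r q, ← mul_assoc q r, hVc hq' hr', mul_assoc r q, mul_assoc r r]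
      _ = q * u := by rw [h.hVe r hr', one_mul]
  rwa [e] at hmem'

/-- `W_K ≤ V`, and every element of `W_K` is a commutator `[d, v]`. -/
theorem ce_W_le_V (h : CE L T C E Y V) (hT : IsPGroup 2 T) (hK : IsJComponent T K) (hKL : K ≤ L)
    (hRK : pCoreOf 2 L ≤ normalizer (K : Set G)) {S : Subgroup G} {d : G}
    (hS : Setup S K (pCoreOf 2 K) (wOf K) d) :
    ∀ w ∈ wOf K, w ∈ V ∧ ∃ v ∈ V, w = d * v * d⁻¹ * v⁻¹ := by
  haveI : Fact (Nat.Prime 2) := ⟨Nat.prime_two⟩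
  have hd := hS.hgK
  have hdQ := hS.hgQ
  have hdC := ce_d_not_C h hK hKL hRK hd hdQ
  have hex : ∃ v ∈ V, d * v * d⁻¹ * v⁻¹ ≠ 1 := by
    by_contra hcon
    push Not at hcon
    apply hdC
    refine h.hVC d (hKL hd) fun v hv => ?_
    have := hcon v hv
    rw [mul_inv_eq_one, mul_inv_eq_iff_eq_mul] at this
    exact this
  obtain ⟨v, hv, hv1⟩ := hex
  set u := d * v * d⁻¹ * v⁻¹ with hu
  have huW : u ∈ wOf K := ce_comm_mem_W h hK hKL hRK hd hv
  have hdV : ∀ {v : G}, v ∈ V → d * v * d⁻¹ ∈ V := fun hv => conj_mem (h.hLV (hKL hd)) hv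
  have huV : u ∈ V := V.mul_mem (hdV hv) (V.inv_mem hv)
  have hcov := cover_of_setup hS (cube_mem hK hd) u huW hv1
  intro w hw
  rcases hcov w hw with e | e | e | e
  · exact ⟨by rw [e]; exact V.one_mem, 1, V.one_mem, by rw [e]; group⟩
  · exact ⟨by rw [e]; exact huV, v, hv, e⟩
  · refine ⟨by rw [e]; exact hdV huV, d * v * d⁻¹, hdV hv, ?_⟩
    rw [e, hu]
    group
  · refine ⟨by
      rw [e]
      have := hdV (hdV huV)
      have e2 : d * (d * u * d⁻¹) * d⁻¹ = d * d * u * (d * d)⁻¹ := by group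
      rwa [e2] at this, d * (d * v * d⁻¹) * d⁻¹, hdV (hdV hv), ?_⟩
    rw [e, hu]
    group

/-- `E` normalizes `W_K`. -/
theorem ce_E_le (h : CE L T C E Y V) (hT : IsPGroup 2 T) (hK : IsJComponent T K) (hKL : K ≤ L)
    (hRK : pCoreOf 2 L ≤ normalizer (K : Set G)) : E ≤ normalizer (wOf K : Set G) := by
  haveI : Fact (Nat.Prime 2) := ⟨Nat.prime_two⟩
  obtain ⟨S, d, -, -, -, hS⟩ := exists_setup hT hK
  have hW := ce_W_le_V h hT hK hKL hRK hS
  intro e he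
  refine mem_normalizer_of_conj_le fun w hw => ?_
  obtain ⟨-, v, hv, rfl⟩ := hW w hw
  have hdE : d ∈ E := ce_KE h hK hKL hS.hgK
  have hc : e * d * e⁻¹ * d⁻¹ ∈ C := h.hEc e he d hdE
  have heL : e ∈ L := h.hEL he
  have hv' : e * v * e⁻¹ ∈ V := conj_mem (h.hLV heL) hv
  have hv'' : d * (e * v * e⁻¹) * d⁻¹ ∈ V := conj_mem (h.hLV (hKL hS.hgK)) hv'
  have hcomm := h.hCV _ hc _ hv''
  have key : e * (d * v * d⁻¹ * v⁻¹) * e⁻¹ =
      d * (e * v * e⁻¹) * d⁻¹ * (e * v * e⁻¹)⁻¹ := by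
    set c := e * d * e⁻¹ * d⁻¹ with hcd
    set z := d * (e * v * e⁻¹) * d⁻¹ with hz
    have e1 : e * (d * v * d⁻¹ * v⁻¹) * e⁻¹ = c * z * c⁻¹ * (e * v * e⁻¹)⁻¹ := by
      rw [hcd, hz]
      group
    rw [e1, hcomm]
    group
  rw [key]
  exact ce_comm_mem_W h hK hKL hRK hS.hgK hv'

end CEfacts

/-! ### Conjugation -/

theorem omega_map (X : Subgroup G) (g : G) :
    omegaCenterOf (X.map (MulAut.conj g).toMonoidHom) =
      (omegaCenterOf X).map (MulAut.conj g).toMonoidHom := by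
  have hle : ∀ (X : Subgroup G) (g : G), (omegaCenterOf X).map (MulAut.conj g).toMonoidHom ≤
      omegaCenterOf (X.map (MulAut.conj g).toMonoidHom) := by
    rintro X g _ ⟨x, hx, rfl⟩
    obtain ⟨h1, h2, h3⟩ := mem_Z₁.mp hx
    refine mem_Z₁.mpr ⟨⟨x, h1, rfl⟩, ?_, ?_⟩
    · rintro _ ⟨r, hr, rfl⟩
      rw [← map_mul, ← map_mul, h2 r hr]
    · rw [← map_pow, h3, map_one]
  refine le_antisymm ?_ (hle X g)
  have h1 := hle (X.map (MulAut.conj g).toMonoidHom) g⁻¹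
  rw [map_conj_conj_inv] at h1
  have h2 := Subgroup.map_mono (f := (MulAut.conj g).toMonoidHom) h1
  rwa [map_conj_inv_conj] at h2

theorem wOf_map (K : Subgroup G) (g : G) :
    wOf (K.map (MulAut.conj g).toMonoidHom) = (wOf K).map (MulAut.conj g).toMonoidHom := by
  haveI : Fact (Nat.Prime 2) := ⟨Nat.prime_two⟩
  unfold wOf
  rw [Subgroup.map_commutator, ← pCoreOf_conj, omega_map]

theorem isJ_congr {T T₁ K : Subgroup G} (h : thompsonSubgroupOf 2 T₁ = thompsonSubgroupOf 2 T) :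
    IsJComponent T₁ K ↔ IsJComponent T K := by
  simp only [IsJComponent, h]

/-- Conjugating a `J(T)`-component by an element of `N_G(J(T))`. -/
theorem isJ_map {T K : Subgroup G} (hK : IsJComponent T K) {n : G}
    (hn : n ∈ normalizer (thompsonSubgroupOf 2 T : Set G)) :
    IsJComponent T (K.map (MulAut.conj n).toMonoidHom) := by
  haveI : Fact (Nat.Prime 2) := ⟨Nat.prime_two⟩
  set J := thompsonSubgroupOf 2 T with hJd
  set f := (MulAut.conj n).toMonoidHom with hf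
  have hJ : J.map f = J := Subgroup.mem_normalizer_iff_map_conj_eq.mp hn
  refine ⟨?_, ?_, ?_, ?_, ?_, ?_⟩
  · have h1 : K.map f = (closure {g : G | g ∈ K ∧ Odd (orderOf g)}).map f := by rw [hK.1]
    rw [MonoidHom.map_closure] at h1
    conv_rhs => rw [h1]
    congr 1
    ext x
    constructor
    · rintro ⟨⟨y, hy, rfl⟩, hodd⟩
      refine ⟨y, ⟨hy, ?_⟩, rfl⟩
      have := MulEquiv.orderOf_eq (MulAut.conj n) y
      have e : f y = (MulAut.conj n) y := rfl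
      rw [e, this] at hodd
      exact hodd
    · rintro ⟨y, ⟨hy, hodd⟩, rfl⟩
      refine ⟨⟨y, hy, rfl⟩, ?_⟩
      have := MulEquiv.orderOf_eq (MulAut.conj n) y
      have e : f y = (MulAut.conj n) y := rfl
      rw [e, this]
      exact hodd
  · rw [← hJd]
    conv_lhs => rw [← hJ]
    rw [← Subgroup.map_commutator, hK.2.1]
  · rw [hf, ← pCoreOf_conj, Subgroup.relIndex_map_map_of_injective _ _ (MulAut.conj n).injective]
    exact hK.2.2.1
  · intro S hS hJS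
    rw [← hJd] at hS hJS ⊢
    have h1 := isSylow_map hS n⁻¹
    have h2 : (K.map f ⊔ J).map (MulAut.conj n⁻¹).toMonoidHom = K ⊔ J := by
      conv_lhs => rw [← hJ]
      rw [Subgroup.map_sup, hf, map_conj_conj_inv, map_conj_conj_inv]
    rw [h2] at h1
    have h3 : J ≤ S.map (MulAut.conj n⁻¹).toMonoidHom := by
      have := Subgroup.map_mono (f := (MulAut.conj n⁻¹).toMonoidHom) hJS
      conv_lhs at this => rw [← hJ, hf, map_conj_conj_inv]
      exact this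
    have h4 := hK.2.2.2.1 _ h1 h3
    have h5 := thompson_map (S.map (MulAut.conj n⁻¹).toMonoidHom) n
    rw [map_conj_inv_conj, h4] at h5
    rw [h5]
    exact hJ
  · rw [wOf_map, card_map_conj]
    exact hK.2.2.2.2.1
  · rw [wOf_map]
    rintro _ ⟨w, hw, rfl⟩
    rw [← map_mul, hK.2.2.2.2.2 w hw, map_one]

theorem mem_norm_sSup {𝒮 : Set (Subgroup G)} {n : G}
    (h : ∀ A ∈ 𝒮, A.map (MulAut.conj n).toMonoidHom ≤ sSup 𝒮) : n ∈ normalizer ((sSup 𝒮 : Subgroup G) : Set G) := by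
  apply mem_normalizer_of_conj_le
  have hle : sSup 𝒮 ≤ (sSup 𝒮).comap (MulAut.conj n).toMonoidHom :=
    sSup_le fun A hA => Subgroup.map_le_iff_le_comap.mp (h A hA)
  intro x hx
  exact hle hx

/-! ### The set-up -/

/-- The standing hypotheses. -/
structure Hyp (M T : Subgroup G) (S : Sylow 2 G) : Prop where
  hL : IsCharacteristicTwoType G
  hN : ∀ N : Subgroup G, IsTwoLocal N → Group.IsSolvable ↥N
  hZ : ∀ S : Sylow 2 G, centralizer (omegaCenterOf (S : Subgroup G) : Set G) ≤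
      normalizer ((S : Subgroup G) : Set G)
  hMJ : normalizer (thompsonSubgroupOf 2 (S : Subgroup G) : Set G) ≤ M
  hT : T ∈ maxStraddlingTwoSubgroups M

namespace Hyp

variable {M T : Subgroup G} {S : Sylow 2 G} (h : Hyp M T S)

include h

theorem hJM : normalizer (thompsonSubgroupOf 2 T : Set G) ≤ M := norm_le h.hMJ h.hT

theorem hTp : IsPGroup 2 T := h.hT.1.1

theorem hT1 : T ≠ ⊥ := h.hT.1.2.1

theorem hJT : thompsonSubgroupOf 2 T ≤ T := thompson_le T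

theorem hJp : IsPGroup 2 (thompsonSubgroupOf 2 T) := h.hTp.to_le h.hJT

/-- The data of a `2`-local subgroup over `J(T)`, outside `M`. -/
theorem over_data {H : Subgroup G} (hH : IsTwoLocal H) (hHM : ¬ H ≤ M)
    (hJH : thompsonSubgroupOf 2 T ≤ H) :
    ∃ T₁ C E Y V, IsSylowTwoIn T₁ H ∧ thompsonSubgroupOf 2 T₁ = thompsonSubgroupOf 2 T ∧
      IsPGroup 2 T₁ ∧ T₁ ≠ ⊥ ∧ CE H T₁ C E Y V ∧ T₁ ∈ straddlingTwoSubgroups M := by
  haveI : Fact (Nat.Prime 2) := ⟨Nat.prime_two⟩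
  obtain ⟨T₁, hJT₁, hT₁⟩ := exists_sylow_in h.hJp hJH
  obtain ⟨h1, h2⟩ := main1 h.hMJ h.hT hH hHM hT₁ hJT₁
  have hT₁p : IsPGroup 2 T₁ := hT₁.2.1
  have hmem := mem_jOver h.hL h.hMJ h.hT hH hHM hT₁ h2
  obtain ⟨C, E, Y, V, hCE⟩ := exists_CE5 h.hZ (h.hN H hH) hT₁p hT₁ hmem.2.2
  exact ⟨T₁, C, E, Y, V, hT₁, h2, hT₁p, h1.2.1, hCE, h1⟩

/-- `O₂(H)` normalizes the `J(T)`-components in `H`. -/
theorem RK {H T₁ K : Subgroup G} (hT₁ : IsSylowTwoIn T₁ H)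
    (hT₁p : IsPGroup 2 T₁) (hT₁1 : T₁ ≠ ⊥)
    (hJ : thompsonSubgroupOf 2 T₁ = thompsonSubgroupOf 2 T)
    (hK : IsJComponent T K) (hKH : K ≤ H) : pCoreOf 2 H ≤ normalizer (K : Set G) := by
  haveI : Fact (Nat.Prime 2) := ⟨Nat.prime_two⟩
  have hLR : H ≤ normalizer (pCoreOf 2 H : Set G) := le_normalizer_pCoreOf H
  have hRT : pCoreOf 2 H ≤ T₁ := le_of_normal_of_isSylowIn (isSylowIn_of_two hT₁) (pCoreOf_le H)
    (isPGroup_pCoreOf H) hLR
  exact Cfsg.Agent.S2941.result h.hL h.hN h.hZ T₁ hT₁p hT₁1 K ((isJ_congr hJ).mpr hK) (pCoreOf 2 H)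
    (sup_le (hKH.trans hLR) ((thompson_le T₁).trans (hT₁.1.trans hLR)))
    (hRT.trans (le_normalizer_thompson T₁))

/-- Two `J(T)`-components in a `2`-local subgroup outside `M`. -/
theorem comps {H : Subgroup G} (hH : IsTwoLocal H) (hHM : ¬ H ≤ M)
    (hJH : thompsonSubgroupOf 2 T ≤ H) :
    ∃ V : Subgroup G, (∀ v ∈ V, v * v = 1) ∧
      (∀ K, IsJComponent T K → K ≤ H → wOf K ≤ V) ∧
      (∀ K₁ K₂, IsJComponent T K₁ → K₁ ≤ H → IsJComponent T K₂ → K₂ ≤ H →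
        K₂ ≤ normalizer (wOf K₁ : Set G)) := by
  obtain ⟨T₁, C, E, Y, V, hT₁, hJ, hT₁p, hT₁1, hCE, -⟩ := h.over_data hH hHM hJH
  refine ⟨V, hCE.hVe, fun K hK hKH => ?_, fun K₁ K₂ hK₁ hK₁H hK₂ hK₂H => ?_⟩
  · have hK' := (isJ_congr hJ).mpr hK
    obtain ⟨S', d, -, -, -, hS'⟩ := exists_setup hT₁p hK'
    exact fun w hw => (ce_W_le_V hCE hT₁p hK' hKH (h.RK hT₁ hT₁p hT₁1 hJ hK hKH) hS' w hw).1
  · have hK₁' := (isJ_congr hJ).mpr hK₁
    have hK₂' := (isJ_congr hJ).mpr hK₂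
    exact (ce_KE hCE hK₂' hK₂H).trans
      (ce_E_le hCE hT₁p hK₁' hK₁H (h.RK hT₁ hT₁p hT₁1 hJ hK₁ hK₁H))

/-- A `J(T)`-component outside `M` lies in `𝒞₀`. -/
theorem zero_of_not_le {K : Subgroup G} (hK : IsJComponent T K) (hKM : ¬ K ≤ M) :
    K ∈ jComponentsZero T := by
  haveI : Fact (Nat.Prime 2) := ⟨Nat.prime_two⟩
  refine ⟨hK, fun S₀ hJS₀ hS₀ => ?_⟩
  have hW4 := hK.2.2.2.2.1
  have hWe := hK.2.2.2.2.2
  have hWne : wOf K ≠ ⊥ := by
    intro h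
    rw [h] at hW4
    simp at hW4
  have hW2 : IsPGroup 2 (wOf K) := fun w => ⟨1, Subtype.ext (by
    have := hWe w w.2
    simpa [pow_one, pow_two] using this)⟩
  have hloc : IsTwoLocal (normalizer (wOf K : Set G)) := ⟨wOf K, hW2, hWne, rfl⟩
  have hNM : ¬ normalizer (wOf K : Set G) ≤ M := fun h => hKM ((K_le_normalizer_wOf K).trans h)
  exact (main1 h.hMJ h.hT hloc hNM hS₀ hJS₀).2

end Hyp

/-- The class of `K`. -/
def Om (T K : Subgroup G) : Set (Subgroup G) :=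
  {K' | IsJComponent T K' ∧ K' ≤ normalizer (wOf K : Set G)}

/-- The product of the four-groups of the class of `K`. -/
def WW (T K : Subgroup G) : Subgroup G := sSup (wOf '' Om T K)

theorem isTwoLocal_norm {T K : Subgroup G} (hK : IsJComponent T K) :
    IsTwoLocal (normalizer (wOf K : Set G)) := by
  have hW4 := hK.2.2.2.2.1
  have hWe := hK.2.2.2.2.2
  have hWne : wOf K ≠ ⊥ := by
    intro h
    rw [h] at hW4
    simp at hW4
  have hW2 : IsPGroup 2 (wOf K) := fun w => ⟨1, Subtype.ext (by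
    have := hWe w w.2
    simpa [pow_one, pow_two] using this)⟩
  exact ⟨wOf K, hW2, hWne, rfl⟩

theorem thompson_le_norm {T K : Subgroup G} (hK : IsJComponent T K) :
    thompsonSubgroupOf 2 T ≤ normalizer (wOf K : Set G) := by
  have := Cfsg.Agent.Lib.LocalEven.CharP.le_normalizer_commutator (thompsonSubgroupOf 2 T) K
  rw [Subgroup.commutator_comm, hK.2.1] at this
  exact this.trans normalizer_le_wOf

namespace Hyp

variable {M T K : Subgroup G} {S : Sylow 2 G} (h : Hyp M T S)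

include h

theorem comps_norm (hK : IsJComponent T K) (hKM : ¬ K ≤ M) :
    ∃ V : Subgroup G, (∀ v ∈ V, v * v = 1) ∧
      (∀ K', K' ∈ Om T K → wOf K' ≤ V) ∧
      (∀ K₁ K₂, K₁ ∈ Om T K → K₂ ∈ Om T K → K₂ ≤ normalizer (wOf K₁ : Set G)) := by
  have hNM : ¬ normalizer (wOf K : Set G) ≤ M := fun h => hKM ((K_le_normalizer_wOf K).trans h)
  obtain ⟨V, h1, h2, h3⟩ := h.comps (isTwoLocal_norm hK) hNM (thompson_le_norm hK)
  exact ⟨V, h1, fun K' hK' => h2 K' hK'.1 hK'.2, fun K₁ K₂ h₁ h₂ => h3 K₁ K₂ h₁.1 h₁.2 h₂.1 h₂.2⟩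

theorem mem_Om (hK : IsJComponent T K) : K ∈ Om T K := ⟨hK, K_le_normalizer_wOf K⟩

theorem WW_p (hK : IsJComponent T K) (hKM : ¬ K ≤ M) : IsPGroup 2 (WW T K) := by
  obtain ⟨V, h1, h2, -⟩ := h.comps_norm hK hKM
  have hle : WW T K ≤ V := by
    refine sSup_le ?_
    rintro _ ⟨K', hK', rfl⟩
    exact h2 K' hK'
  refine fun w => ⟨1, Subtype.ext ?_⟩
  have := h1 _ (hle w.2)
  simpa [pow_one, pow_two] using this

theorem WW_ne (hK : IsJComponent T K) : WW T K ≠ ⊥ := by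
  intro hbot
  have h1 : wOf K ≤ WW T K := le_sSup ⟨K, h.mem_Om hK, rfl⟩
  rw [hbot, le_bot_iff] at h1
  have hW4 := hK.2.2.2.2.1
  rw [h1] at hW4
  simp at hW4

theorem isTwoLocal_WW (hK : IsJComponent T K) (hKM : ¬ K ≤ M) :
    IsTwoLocal (normalizer (WW T K : Set G)) :=
  ⟨WW T K, h.WW_p hK hKM, h.WW_ne hK, rfl⟩

theorem Om_le (hK : IsJComponent T K) (hKM : ¬ K ≤ M) {K' : Subgroup G} (hK' : K' ∈ Om T K) :
    K' ≤ normalizer (WW T K : Set G) := by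
  obtain ⟨V, -, -, h3⟩ := h.comps_norm hK hKM
  intro k hk
  refine mem_norm_sSup ?_
  rintro _ ⟨K'', hK'', rfl⟩
  have h4 := h3 K'' K' hK'' hK' hk
  have e : (wOf K'').map (MulAut.conj k).toMonoidHom = wOf K'' :=
    Subgroup.mem_normalizer_iff_map_conj_eq.mp h4
  rw [e]
  exact le_sSup ⟨K'', hK'', rfl⟩

/-- The key theorem: every `2`-local over `⟨K, J(T)⟩` normalizes `WW`. -/
theorem le_norm (hK : IsJComponent T K) (hKM : ¬ K ≤ M) {H : Subgroup G} (hH : IsTwoLocal H)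
    (hKH : K ≤ H) (hJH : thompsonSubgroupOf 2 T ≤ H) : H ≤ normalizer (WW T K : Set G) := by
  haveI : Fact (Nat.Prime 2) := ⟨Nat.prime_two⟩
  have hHM : ¬ H ≤ M := fun h => hKM (hKH.trans h)
  obtain ⟨T₁, C, E, Y, V, hT₁, hJ, hT₁p, hT₁1, hCE, -⟩ := h.over_data hH hHM hJH
  obtain ⟨V', -, -, h3⟩ := h.comps hH hHM hJH
  -- the normalizer of `J`
  have hNJ : H ⊓ normalizer (thompsonSubgroupOf 2 T₁ : Set G) ≤ normalizer (WW T K : Set G) := by
    rintro n ⟨hnH, hnJ⟩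
    rw [SetLike.mem_coe, hJ] at *
    refine mem_norm_sSup ?_
    rintro _ ⟨K', hK', rfl⟩
    rw [← wOf_map]
    refine le_sSup ⟨_, ?_, rfl⟩
    refine ⟨isJ_map hK'.1 hnJ, ?_⟩
    set K₁ := K.map (MulAut.conj n).toMonoidHom with hK₁d
    have hK₁ : IsJComponent T K₁ := isJ_map hK hnJ
    have hK₁H : K₁ ≤ H := by
      rintro _ ⟨k, hk, rfl⟩
      exact H.mul_mem (H.mul_mem hnH (hKH hk)) (H.inv_mem hnH)
    have hK₁M : ¬ K₁ ≤ M := by
      intro hle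
      apply hKM
      have h4 : K ≤ K₁.map (MulAut.conj n⁻¹).toMonoidHom := by
        rw [hK₁d, map_conj_conj_inv]
      intro k hk
      obtain ⟨x, hx, rfl⟩ := h4 hk
      have hnM := h.hJM hnJ
      exact M.mul_mem (M.mul_mem (M.inv_mem hnM) (hle hx)) (M.inv_mem (M.inv_mem hnM))
    have hKN₁ : K ≤ normalizer (wOf K₁ : Set G) := h3 K₁ K hK₁ hK₁H hK hKH
    have hN₁M : ¬ normalizer (wOf K₁ : Set G) ≤ M := fun h => hKM (hKN₁.trans h)
    have hK'N₁ : K'.map (MulAut.conj n).toMonoidHom ≤ normalizer (wOf K₁ : Set G) := by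
      rw [hK₁d, wOf_map, Cfsg.Agent.Lib.LocalStruct.Basic.normalizer_map_conj]
      exact Cfsg.Agent.Lib.LocalStruct.Basic.map_conj_mono n hK'.2
    obtain ⟨V₁, -, -, h5⟩ := h.comps (isTwoLocal_norm hK₁) hN₁M (thompson_le_norm hK₁)
    exact h5 K _ hK hKN₁ (isJ_map hK'.1 hnJ) hK'N₁
  refine hCE.L_le ?_ hNJ ?_
  · exact fun t ht => hNJ ⟨hT₁.1 ht, le_normalizer_thompson T₁ ht⟩
  · intro K' hK' hK'H
    have hK'' : IsJComponent T K' := (isJ_congr hJ).mp hK'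
    exact h.Om_le hK hKM ⟨hK'', h3 K K' hK hKH hK'' hK'H⟩

theorem N_le_norm (hK : IsJComponent T K) (hKM : ¬ K ≤ M) :
    normalizer (wOf K : Set G) ≤ normalizer (WW T K : Set G) :=
  h.le_norm hK hKM (isTwoLocal_norm hK) (K_le_normalizer_wOf K) (thompson_le_norm hK)

theorem K_le_L (hK : IsJComponent T K) (hKM : ¬ K ≤ M) : K ≤ normalizer (WW T K : Set G) :=
  (K_le_normalizer_wOf K).trans (h.N_le_norm hK hKM)

theorem J_le_L (hK : IsJComponent T K) (hKM : ¬ K ≤ M) :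
    thompsonSubgroupOf 2 T ≤ normalizer (WW T K : Set G) :=
  (thompson_le_norm hK).trans (h.N_le_norm hK hKM)

theorem isMax_L (hK : IsJComponent T K) (hKM : ¬ K ≤ M) :
    IsMaximalTwoLocal (normalizer (WW T K : Set G)) :=
  ⟨h.isTwoLocal_WW hK hKM, fun N hN hLN =>
    le_antisymm (h.le_norm hK hKM hN ((h.K_le_L hK hKM).trans hLN) ((h.J_le_L hK hKM).trans hLN)) hLN⟩

theorem unique_L (hK : IsJComponent T K) (hKM : ¬ K ≤ M) {L' : Subgroup G}
    (hL' : IsMaximalTwoLocal L') (hKL' : K ⊔ thompsonSubgroupOf 2 T ≤ L') :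
    L' = normalizer (WW T K : Set G) :=
  (hL'.2 _ (h.isTwoLocal_WW hK hKM) (h.le_norm hK hKM hL'.1 (le_sup_left.trans hKL')
    (le_sup_right.trans hKL'))).symm

/-- `T` lies in `L` when `O₂(⟨K, T⟩) ≠ 1`. -/
theorem T_le_L (hK : K ∈ jComponentsOutside M T) : T ≤ normalizer (WW T K : Set G) := by
  haveI : Fact (Nat.Prime 2) := ⟨Nat.prime_two⟩
  obtain ⟨⟨hKJ, -⟩, hKM, hne⟩ := hK
  have hloc : IsTwoLocal (normalizer (pCoreOf 2 (K ⊔ T) : Set G)) :=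
    ⟨_, isPGroup_pCoreOf _, hne, rfl⟩
  have hle : K ⊔ T ≤ normalizer (pCoreOf 2 (K ⊔ T) : Set G) := le_normalizer_pCoreOf _
  exact le_sup_right.trans (hle.trans (h.le_norm hKJ hKM hloc (le_sup_left.trans hle)
    ((thompson_le T).trans (le_sup_right.trans hle))))

theorem sylow_L (hK : K ∈ jComponentsOutside M T) : IsSylowTwoIn T (normalizer (WW T K : Set G)) := by
  obtain ⟨⟨hKJ, -⟩, hKM, -⟩ := id hK
  exact sylow_of_le h.hMJ h.hT (h.isTwoLocal_WW hKJ hKM) (fun hle => hKM ((h.K_le_L hKJ hKM).trans hle))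
    (h.T_le_L hK)

theorem over_L (hK : K ∈ jComponentsOutside M T) : normalizer (WW T K : Set G) ∈ jOvergroups T := by
  obtain ⟨⟨hKJ, -⟩, hKM, -⟩ := id hK
  exact mem_jOver h.hL h.hMJ h.hT (h.isTwoLocal_WW hKJ hKM)
    (fun hle => hKM ((h.K_le_L hKJ hKM).trans hle)) (h.sylow_L hK) rfl

end Hyp

end Cfsg.Agent.Lib.JSub.Unique
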