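import Cfsg.Agent.Lib.JSub.NormW

/-!
# `N_G(K) = N_G(W_K)` for the `J(T)`-components in the family `𝒞₀`
-/

set_option autoImplicit false
set_option linter.unusedSectionVars false
set_option linter.unusedSimpArgs false
set_option linter.style.haveILetI false

open scoped commutatorElement

namespace Cfsg.Agent.Lib.JSub.Zero

open Cfsg Subgroup
open Cfsg.Agent.Lib.JSub.Main
open Cfsg.Agent.Lib.JSub.NormW
open Cfsg.Agent.Lib.PointStab.Step (nrm_of_conj conj_mem conj_inv_mem mem_Z₁ Z₁)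
open Cfsg.Agent.Lib.Coprime.Action (IsSylowIn le_of_normal_of_isSylowIn)
open Cfsg.Agent.Lib.PLocal.Thompson (IsMaxIn jOf thompsonSubgroupOf_eq IsAbExp exists_isMaxIn jOf_conj)
open Cfsg.Agent.Lib.LocalStruct.PCoreOf
open Cfsg.Agent.Lib.LocalEven.JComp (exists_odd normalizer_le_wOf K_le_normalizer_wOf)

variable {G : Type*} [Group G] [Finite G] {T K : Subgroup G}

theorem exists_sylow_in {P L : Subgroup G} (hP : IsPGroup 2 P) (hPL : P ≤ L) :
    ∃ S, P ≤ S ∧ IsSylowTwoIn S L := by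
  haveI : Fact (Nat.Prime 2) := ⟨Nat.prime_two⟩
  obtain ⟨X, hX⟩ := (hP.comap_of_injective L.subtype L.subtype_injective :
    IsPGroup 2 (P.comap L.subtype)).exists_le_sylow
  set S : Subgroup G := (X : Subgroup L).map L.subtype with hS
  have hSsub : S.subgroupOf L = X :=
    Subgroup.comap_map_eq_self_of_injective L.subtype_injective _
  refine ⟨S, fun p hp => ⟨⟨p, hPL hp⟩, hX hp, rfl⟩, Subgroup.map_subtype_le _, X.isPGroup'.map _, ?_⟩
  rw [Subgroup.relIndex, hSsub, ← Nat.not_even_iff_odd, even_iff_two_dvd]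
  exact X.not_dvd_index

theorem exists_conj_sylow {S S₁ L : Subgroup G} (h : IsSylowTwoIn S L) (h₁ : IsSylowTwoIn S₁ L) :
    ∃ x ∈ L, S₁ = S.map (MulAut.conj x).toMonoidHom := by
  haveI : Fact (Nat.Prime 2) := ⟨Nat.prime_two⟩
  have hS2 : IsPGroup 2 (S.subgroupOf L) := h.2.1.comap_subtype
  have hS₁2 : IsPGroup 2 (S₁.subgroupOf L) := h₁.2.1.comap_subtype
  let P : Sylow 2 L := hS2.toSylow (isSylowIn_of_two h).2.2
  let P₁ : Sylow 2 L := hS₁2.toSylow (isSylowIn_of_two h₁).2.2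
  obtain ⟨x, hx⟩ := MulAction.exists_smul_eq L P P₁
  refine ⟨x, x.2, ?_⟩
  have h1 : ((x • P : Sylow 2 L) : Subgroup L) = (P₁ : Subgroup L) := by rw [hx]
  ext s
  constructor
  · intro hs
    have hs' : (⟨s, h₁.1 hs⟩ : L) ∈ (P₁ : Subgroup L) := by
      show (⟨s, h₁.1 hs⟩ : L) ∈ S₁.subgroupOf L
      rw [Subgroup.mem_subgroupOf]
      exact hs
    rw [← h1] at hs'
    obtain ⟨t, ht, hte⟩ := hs'
    refine ⟨(t : G), ?_, ?_⟩
    · have : t ∈ S.subgroupOf L := ht
      rwa [Subgroup.mem_subgroupOf] at this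
    · have := congrArg Subtype.val hte
      simpa using this
  · rintro ⟨t, ht, rfl⟩
    have htL := h.1 ht
    have h2 : (x * ⟨t, htL⟩ * x⁻¹ : L) ∈ (P₁ : Subgroup L) := by
      rw [← h1]
      refine ⟨⟨t, htL⟩, ?_, by simp⟩
      show (⟨t, htL⟩ : L) ∈ S.subgroupOf L
      rw [Subgroup.mem_subgroupOf]
      exact ht
    have h3 : (x * ⟨t, htL⟩ * x⁻¹ : L) ∈ S₁.subgroupOf L := h2
    rw [Subgroup.mem_subgroupOf] at h3
    simpa using h3

theorem isSylow_map {S B : Subgroup G} (h : IsSylowTwoIn S B) (x : G) :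
    IsSylowTwoIn (S.map (MulAut.conj x).toMonoidHom) (B.map (MulAut.conj x).toMonoidHom) := by
  refine ⟨Subgroup.map_mono h.1, h.2.1.map _, ?_⟩
  rw [Subgroup.relIndex_map_map_of_injective _ _ (MulAut.conj x).injective]
  exact h.2.2

theorem map_conj_conj_inv (S : Subgroup G) (x : G) :
    (S.map (MulAut.conj x).toMonoidHom).map (MulAut.conj x⁻¹).toMonoidHom = S := by
  ext s
  constructor
  · rintro ⟨_, ⟨t, ht, rfl⟩, rfl⟩
    have e : (MulAut.conj x⁻¹).toMonoidHom ((MulAut.conj x).toMonoidHom t) = t := by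
      show x⁻¹ * (x * t * x⁻¹) * x⁻¹⁻¹ = t
      group
    rwa [e]
  · intro hs
    refine ⟨_, ⟨s, hs, rfl⟩, ?_⟩
    show x⁻¹ * (x * s * x⁻¹) * x⁻¹⁻¹ = s
    group

theorem map_conj_inv_conj (S : Subgroup G) (x : G) :
    (S.map (MulAut.conj x⁻¹).toMonoidHom).map (MulAut.conj x).toMonoidHom = S := by
  have := map_conj_conj_inv S x⁻¹
  rwa [inv_inv] at this

theorem card_map_conj (S : Subgroup G) (x : G) :
    Nat.card (S.map (MulAut.conj x).toMonoidHom) = Nat.card S :=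
  (Nat.card_congr (S.equivMapOfInjective _ (MulAut.conj x).injective).toEquiv).symm

theorem thompson_map (S : Subgroup G) (x : G) :
    thompsonSubgroupOf 2 (S.map (MulAut.conj x).toMonoidHom) =
      (thompsonSubgroupOf 2 S).map (MulAut.conj x).toMonoidHom := by
  rw [thompsonSubgroupOf_eq, thompsonSubgroupOf_eq, jOf_conj]

/-- The second part of `S2944`. -/
theorem part2 {L S : Subgroup G} (hT : IsPGroup 2 T) (hKJ : IsJComponent T K)
    (hLK : L ≤ normalizer (K : Set G)) (hSL : IsSylowTwoIn S L)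
    (hJeq : thompsonSubgroupOf 2 S = thompsonSubgroupOf 2 T) {g : G}
    (hg : thompsonSubgroupOf 2 (T.map (MulAut.conj g).toMonoidHom) ≤ L) :
    IsJComponent (T.map (MulAut.conj g).toMonoidHom) K := by
  set T₁ := T.map (MulAut.conj g).toMonoidHom with hT₁
  set J := thompsonSubgroupOf 2 T with hJ
  have hJT : J ≤ T := Cfsg.Agent.Lib.Core.ThompsonMap.thompsonSubgroupOf_le T
  have hJ₁ : thompsonSubgroupOf 2 T₁ = J.map (MulAut.conj g).toMonoidHom := thompson_map T g
  have hT₁2 : IsPGroup 2 T₁ := hT.map _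
  have hJ₁T : thompsonSubgroupOf 2 T₁ ≤ T₁ :=
    Cfsg.Agent.Lib.Core.ThompsonMap.thompsonSubgroupOf_le T₁
  obtain ⟨S₁, hJS₁, hS₁L⟩ := exists_sylow_in (hT₁2.to_le hJ₁T) hg
  obtain ⟨x, hxL, hS₁x⟩ := exists_conj_sylow hSL hS₁L
  have hS₁J : thompsonSubgroupOf 2 S₁ = J.map (MulAut.conj x).toMonoidHom := by
    rw [hS₁x, thompson_map, hJeq]
  have hle : thompsonSubgroupOf 2 T₁ ≤ thompsonSubgroupOf 2 S₁ := by
    conv_lhs => rw [thompsonSubgroupOf_eq]
    refine sSup_le fun A hA => ?_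
    have hAJ : A ≤ thompsonSubgroupOf 2 T₁ := by
      rw [thompsonSubgroupOf_eq]
      exact hA.le_jOf
    have hmax : IsMaxIn 2 S₁ A := by
      refine ⟨hAJ.trans hJS₁, hA.2.1, fun B hB hBe => ?_⟩
      obtain ⟨B₀, hB₀⟩ := exists_isMaxIn (G := G) 2 S₁
      have h1 := hB₀.2.2 B hB hBe
      have h2 : B₀ ≤ J.map (MulAut.conj x).toMonoidHom := by
        rw [← hS₁J, thompsonSubgroupOf_eq]
        exact hB₀.le_jOf
      have h3 : B₀.map (MulAut.conj x⁻¹).toMonoidHom ≤ J := by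
        have := Subgroup.map_mono (f := (MulAut.conj x⁻¹).toMonoidHom) h2
        rwa [map_conj_conj_inv] at this
      have h4 : (B₀.map (MulAut.conj x⁻¹).toMonoidHom).map (MulAut.conj g).toMonoidHom ≤ T₁ :=
        Subgroup.map_mono (h3.trans hJT)
      have h5 := hA.2.2 _ h4 (IsAbExp.map (IsAbExp.map hB₀.2.1 _) _)
      rw [card_map_conj, card_map_conj] at h5
      exact h1.trans h5
    rw [thompsonSubgroupOf_eq]
    exact hmax.le_jOf
  have hJ₁x : thompsonSubgroupOf 2 T₁ = J.map (MulAut.conj x).toMonoidHom := by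
    rw [← hS₁J]
    refine Subgroup.eq_of_le_of_card_ge hle ?_
    rw [hS₁J, hJ₁, card_map_conj, card_map_conj]
  have hxK : K.map (MulAut.conj x).toMonoidHom = K :=
    Subgroup.mem_normalizer_iff_map_conj_eq.mp (hLK hxL)
  have hxK' : K.map (MulAut.conj x⁻¹).toMonoidHom = K := by
    conv_lhs => rw [← hxK]
    exact map_conj_conj_inv K x
  refine ⟨hKJ.1, ?_, hKJ.2.2.1, ?_, hKJ.2.2.2.2⟩
  · rw [hJ₁x]
    have h1 := Subgroup.map_commutator K J (MulAut.conj x).toMonoidHom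
    rw [hKJ.2.1, hxK] at h1
    exact h1.symm
  · intro S' hS' hJS'
    rw [hJ₁x] at hS' hJS' ⊢
    have h1 := isSylow_map hS' x⁻¹
    have h2 : (K ⊔ J.map (MulAut.conj x).toMonoidHom).map (MulAut.conj x⁻¹).toMonoidHom = K ⊔ J := by
      rw [Subgroup.map_sup, hxK', map_conj_conj_inv]
    rw [h2] at h1
    have h3 : J ≤ S'.map (MulAut.conj x⁻¹).toMonoidHom := by
      have := Subgroup.map_mono (f := (MulAut.conj x⁻¹).toMonoidHom) hJS'
      rwa [map_conj_conj_inv] at this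
    have h4 := hKJ.2.2.2.1 _ h1 h3
    have h5 := thompson_map (S'.map (MulAut.conj x⁻¹).toMonoidHom) x
    rw [map_conj_inv_conj, h4] at h5
    exact h5

/-- The theorem. -/
theorem main (hL : IsCharacteristicTwoType G)
    (hN : ∀ N : Subgroup G, IsTwoLocal N → Group.IsSolvable ↥N)
    (hZ : ∀ S : Sylow 2 G, centralizer (omegaCenterOf (S : Subgroup G) : Set G) ≤
      normalizer ((S : Subgroup G) : Set G)) (hT : IsPGroup 2 T)
    (hK : K ∈ jComponentsZero T) :
    normalizer (K : Set G) = normalizer (wOf K : Set G) ∧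
      ∀ g : G, thompsonSubgroupOf 2 (T.map (MulAut.conj g).toMonoidHom) ≤ normalizer (wOf K : Set G) →
        IsJComponent (T.map (MulAut.conj g).toMonoidHom) K := by
  haveI : Fact (Nat.Prime 2) := ⟨Nat.prime_two⟩
  obtain ⟨hKJ, hKZ⟩ := hK
  set W := wOf K with hWd
  set J := thompsonSubgroupOf 2 T with hJd
  have hW4 := hKJ.2.2.2.2.1
  have hWe := hKJ.2.2.2.2.2
  have hWne : W ≠ ⊥ := by
    intro h
    rw [← hWd, h] at hW4
    simp at hW4
  have hW2 : IsPGroup 2 W := fun w => ⟨1, Subtype.ext (by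
    have := hWe w w.2
    simpa [pow_one, pow_two] using this)⟩
  set L := normalizer (W : Set G) with hLd
  have hLoc : IsTwoLocal L := ⟨W, hW2, hWne, rfl⟩
  have hJT : J ≤ T := Cfsg.Agent.Lib.Core.ThompsonMap.thompsonSubgroupOf_le T
  have hJK : J ≤ normalizer (K : Set G) := by
    have := Cfsg.Agent.Lib.LocalEven.CharP.le_normalizer_commutator J K
    rwa [Subgroup.commutator_comm, hKJ.2.1] at this
  have hJL : J ≤ L := hJK.trans normalizer_le_wOf
  have hKL : K ≤ L := K_le_normalizer_wOf K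
  have hJ2 : IsPGroup 2 J := hT.to_le hJT
  obtain ⟨S, hJS, hSL⟩ := exists_sylow_in hJ2 hJL
  have hJeq : thompsonSubgroupOf 2 S = J := hKZ S hJS hSL
  have hKS : IsJComponent S K := by
    unfold IsJComponent at *
    rw [hJeq]
    exact hKJ
  have hS2 : IsPGroup 2 S := hSL.2.1
  have hLR : L ≤ normalizer (pCoreOf 2 L : Set G) := le_normalizer_pCoreOf L
  have hWL : W ≤ L := Subgroup.le_normalizer
  have hWR : W ≤ pCoreOf 2 L := le_pCoreOf hWL le_rfl hW2
  have hRS : pCoreOf 2 L ≤ S :=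
    le_of_normal_of_isSylowIn (isSylowIn_of_two hSL) (pCoreOf_le L) (isPGroup_pCoreOf L) hLR
  have hWS : W ≤ S := hWR.trans hRS
  have hS1 : S ≠ ⊥ := by
    intro h
    rw [h] at hWS
    exact hWne (le_bot_iff.mp hWS)
  have hRc : centralizer (pCoreOf 2 L : Set G) ≤ pCoreOf 2 L := by
    intro c hc
    have h1 : c ∈ centralizer (W : Set G) := Subgroup.centralizer_le (by exact_mod_cast hWR) hc
    have hcL : c ∈ L := Subgroup.centralizer_le_normalizer _ h1
    have h2 : IsOfCharacteristicTwo L := hL.2 W hW2 hWne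
    have h3 : (⟨c, hcL⟩ : L) ∈ centralizer (Cfsg.pCore 2 L : Set L) := by
      rw [mem_centralizer_iff]
      intro r hr
      apply Subtype.ext
      exact mem_centralizer_iff.mp hc (r : G) ⟨r, hr, rfl⟩
    exact ⟨_, h2 h3, rfl⟩
  have hLJ : L ∈ jOvergroups S := by
    refine ⟨hSL, fun hle => ?_, hRc⟩
    rw [hJeq] at hle
    have hKR : K ≤ pCoreOf 2 L := by
      conv_lhs => rw [← hKJ.2.1]
      rw [Subgroup.commutator_le]
      intro k hk j hj
      rw [commutatorElement_def]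
      exact Subgroup.mul_mem _ (conj_mem (hLR (hKL hk)) (hle hj)) (Subgroup.inv_mem _ (hle hj))
    obtain ⟨g, hg, hgo, hgQ⟩ := exists_odd hKJ
    obtain ⟨k, hk⟩ := (IsPGroup.iff_orderOf.mp (isPGroup_pCoreOf (p := 2) L)) ⟨g, hKR hg⟩
    have hk' : orderOf g = 2 ^ k := by rwa [Subgroup.orderOf_mk] at hk
    have hk0 : k = 0 := by
      by_contra hne
      rw [hk'] at hgo
      exact (Nat.not_even_iff_odd.mpr hgo) (by
        rw [even_iff_two_dvd]
        exact dvd_pow_self 2 hne)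
    rw [hk0, pow_zero, orderOf_eq_one_iff] at hk'
    exact hgQ (hk' ▸ Subgroup.one_mem _)
  have hZW : S ⊓ centralizer (S : Set G) ⊓ wOf K ≠ ⊥ := by
    haveI hNn : (W.subgroupOf S).Normal := Subgroup.normal_subgroupOf_of_le_normalizer hSL.1
    have hne : W.subgroupOf S ≠ ⊥ := by
      intro hb
      obtain ⟨w, hw, hw1⟩ := (Subgroup.bot_or_exists_ne_one W).resolve_left hWne
      have hm : (⟨w, hWS hw⟩ : S) ∈ W.subgroupOf S := by
        rw [mem_subgroupOf]
        exact hw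
      rw [hb, mem_bot] at hm
      exact hw1 (congrArg Subtype.val hm)
    obtain ⟨z, hz, hzc, hzo⟩ := Cfsg.Agent.Lib.PGroups.Basic.exists_central_orderOf_eq hS2
      (W.subgroupOf S) hne
    intro hb
    have hm : (z : G) ∈ S ⊓ centralizer (S : Set G) ⊓ wOf K := by
      refine ⟨⟨z.2, mem_centralizer_iff.mpr fun s hs => ?_⟩, (mem_subgroupOf.1 hz)⟩
      exact (congrArg Subtype.val ((mem_center_iff.1 hzc) ⟨s, hs⟩))
    rw [hb, mem_bot] at hm
    have : z = 1 := Subtype.ext hm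
    rw [this, orderOf_one] at hzo
    omega
  have hNK := le_normalizer_of_inf hL hN hZ hS2 hS1 hLJ hKS hKL hZW
  have hLK : L ≤ normalizer (K : Set G) := fun n hn => hNK ⟨hn, hn⟩
  refine ⟨le_antisymm normalizer_le_wOf hLK, fun g hg => ?_⟩
  exact part2 hT hKJ hLK hSL hJeq hg

end Cfsg.Agent.Lib.JSub.Zero
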